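import Mathlib
import Cfsg.Prelude.Def_LieTypeDatum
import Cfsg.Agent.Lib.Helper14.FldP

/-!
Frames between quadratic spaces with different index types: the similarity group of a form over a
subfield embedded into the similarity group of a form over the big field, by conjugating with a
rectangular invertible matrix.
-/

set_option autoImplicit false

namespace Cfsg.Agent.Lib.Helper14

open Matrix Module
open Cfsg.Agent.Lib.Helper44 (simAut simMult simMult_spec dickson isomAut)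
open Cfsg.Agent.Lib.Helper43.FieldAut (IsFixEmb)

section rframe

universe u u₀

variable {ι₀ ι : Type} [Fintype ι₀] [DecidableEq ι₀] [Fintype ι] [DecidableEq ι]
variable {F : Type u} [Field F] {F₀ : Type u₀} [Field F₀]

/-- A similarity over the subfield is a similarity of any form over the big field extending the
form. -/
theorem rmap_sim (j : F₀ →+* F) (Q₀ : QuadraticForm F₀ (ι₀ → F₀)) (P : QuadraticForm F (ι₀ → F))
    (hP : ∀ v : ι₀ → F₀, P (fun i => j (v i)) = j (Q₀ v))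
    (D₀ : Matrix ι₀ ι₀ F₀) (c₀ : F₀) (h : ∀ v, Q₀ (D₀ *ᵥ v) = c₀ * Q₀ v) (w : ι₀ → F) :
    P ((D₀.map j) *ᵥ w) = j c₀ * P w := by
  have key : P.comp (Matrix.toLin' (D₀.map j)) = (j c₀) • P := by
    apply quad_ext_hom j
    intro v
    rw [QuadraticMap.comp_apply, Matrix.toLin'_apply, QuadraticMap.smul_apply, smul_eq_mul,
      map_mulVec_hom, hP, hP, h, map_mul]
  have h3 := DFunLike.congr_fun key w
  rw [QuadraticMap.comp_apply, Matrix.toLin'_apply, QuadraticMap.smul_apply, smul_eq_mul] at h3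
  exact h3

/-- The frame form: the pull-back of the form along the frame. -/
noncomputable def rpull (Q : QuadraticForm F (ι → F)) (A : Matrix ι ι₀ F) :
    QuadraticForm F (ι₀ → F) := Q.comp (Matrix.toLin' A)

theorem rpull_apply (Q : QuadraticForm F (ι → F)) (A : Matrix ι ι₀ F) (w : ι₀ → F) :
    rpull Q A w = Q (A *ᵥ w) := by
  unfold rpull
  rw [QuadraticMap.comp_apply, Matrix.toLin'_apply]

theorem rframe_sim (j : F₀ →+* F) (Q₀ : QuadraticForm F₀ (ι₀ → F₀)) (Q : QuadraticForm F (ι → F))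
    (A : Matrix ι ι₀ F) (A' : Matrix ι₀ ι F) (hAA' : A * A' = 1)
    (hc : ∀ v : ι₀ → F₀, Q (A *ᵥ fun i => j (v i)) = j (Q₀ v))
    (D₀ : Matrix ι₀ ι₀ F₀) (c₀ : F₀) (h : ∀ v, Q₀ (D₀ *ᵥ v) = c₀ * Q₀ v) (w : ι → F) :
    Q ((A * D₀.map j * A') *ᵥ w) = j c₀ * Q w := by
  have e1 : A *ᵥ (A' *ᵥ w) = w := by
    rw [mulVec_mulVec, hAA', one_mulVec]
  have e2 : (A * D₀.map j * A') *ᵥ w = A *ᵥ (D₀.map j *ᵥ (A' *ᵥ w)) := by
    rw [mulVec_mulVec, mulVec_mulVec, Matrix.mul_assoc]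
  have h3 := rmap_sim j Q₀ (rpull Q A) (fun v => by rw [rpull_apply]; exact hc v) D₀ c₀ h
    (A' *ᵥ w)
  rw [rpull_apply, rpull_apply, e1] at h3
  rw [e2]
  exact h3

theorem rconj_mul (A : Matrix ι ι₀ F) (A' : Matrix ι₀ ι F) (hA'A : A' * A = 1)
    (X Y : Matrix ι₀ ι₀ F) : (A * X * A') * (A * Y * A') = A * (X * Y) * A' := by
  calc (A * X * A') * (A * Y * A') = A * X * (A' * A) * Y * A' := by
        simp only [Matrix.mul_assoc]
    _ = A * (X * Y) * A' := by rw [hA'A, Matrix.mul_one, Matrix.mul_assoc A X Y]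

/-- Conjugation by a rectangular frame, on general linear groups. -/
noncomputable def rconjGL (A : Matrix ι ι₀ F) (A' : Matrix ι₀ ι F) (hAA' : A * A' = 1)
    (hA'A : A' * A = 1) : GL ι₀ F →* GL ι F where
  toFun g := ⟨A * (g : Matrix ι₀ ι₀ F) * A', A * ((g⁻¹ : GL ι₀ F) : Matrix ι₀ ι₀ F) * A', by
      rw [rconj_mul A A' hA'A, ← Units.val_mul, mul_inv_cancel, Units.val_one, Matrix.mul_one,
        hAA'], by
      rw [rconj_mul A A' hA'A, ← Units.val_mul, inv_mul_cancel, Units.val_one, Matrix.mul_one,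
        hAA']⟩
  map_one' := by
    apply Units.ext
    show A * ((1 : GL ι₀ F) : Matrix ι₀ ι₀ F) * A' = 1
    rw [Units.val_one, Matrix.mul_one, hAA']
  map_mul' g h := by
    apply Units.ext
    show A * ((g * h : GL ι₀ F) : Matrix ι₀ ι₀ F) * A' =
      (A * (g : Matrix ι₀ ι₀ F) * A') * (A * (h : Matrix ι₀ ι₀ F) * A')
    rw [rconj_mul A A' hA'A, Units.val_mul]

/-- The embedding of the similarity group over the subfield via a rectangular frame. -/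
noncomputable def rframeHom (j : F₀ →+* F) (Q₀ : QuadraticForm F₀ (ι₀ → F₀))
    (Q : QuadraticForm F (ι → F)) (A : Matrix ι ι₀ F) (A' : Matrix ι₀ ι F) (hAA' : A * A' = 1)
    (hA'A : A' * A = 1) (hc : ∀ v : ι₀ → F₀, Q (A *ᵥ fun i => j (v i)) = j (Q₀ v)) :
    ↥(Cfsg.Geo.quadSimilarityGroup (F := F₀) ⇑Q₀) →*
      ↥(Cfsg.Geo.quadSimilarityGroup (F := F) ⇑Q) where
  toFun d := ⟨rconjGL A A' hAA' hA'A (Matrix.GeneralLinearGroup.map j (d : GL ι₀ F₀)), by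
    obtain ⟨c, hcd⟩ := d.2
    refine ⟨Units.map (j : F₀ →* F) c, fun v => ?_⟩
    exact rframe_sim j Q₀ Q A A' hAA' hc _ _ hcd v⟩
  map_one' := by
    apply Subtype.ext
    show rconjGL A A' hAA' hA'A (Matrix.GeneralLinearGroup.map j
      ((1 : ↥(Cfsg.Geo.quadSimilarityGroup (F := F₀) ⇑Q₀)) : GL ι₀ F₀)) = 1
    rw [Subgroup.coe_one, map_one, map_one]
  map_mul' x y := by
    apply Subtype.ext
    show rconjGL A A' hAA' hA'A (Matrix.GeneralLinearGroup.map j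
      ((x * y : ↥(Cfsg.Geo.quadSimilarityGroup (F := F₀) ⇑Q₀)) : GL ι₀ F₀)) =
      rconjGL A A' hAA' hA'A (Matrix.GeneralLinearGroup.map j (x : GL ι₀ F₀)) *
        rconjGL A A' hAA' hA'A (Matrix.GeneralLinearGroup.map j (y : GL ι₀ F₀))
    rw [Subgroup.coe_mul, map_mul, map_mul]

theorem rframeHom_coe (j : F₀ →+* F) (Q₀ : QuadraticForm F₀ (ι₀ → F₀))
    (Q : QuadraticForm F (ι → F)) (A : Matrix ι ι₀ F) (A' : Matrix ι₀ ι F) (hAA' : A * A' = 1)
    (hA'A : A' * A = 1) (hc : ∀ v : ι₀ → F₀, Q (A *ᵥ fun i => j (v i)) = j (Q₀ v))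
    (d : ↥(Cfsg.Geo.quadSimilarityGroup (F := F₀) ⇑Q₀)) :
    ((rframeHom j Q₀ Q A A' hAA' hA'A hc d : GL ι F) : Matrix ι ι F) =
      A * ((d : GL ι₀ F₀) : Matrix ι₀ ι₀ F₀).map j * A' := rfl

theorem rframeHom_sim (j : F₀ →+* F) (Q₀ : QuadraticForm F₀ (ι₀ → F₀))
    (Q : QuadraticForm F (ι → F)) (A : Matrix ι ι₀ F) (A' : Matrix ι₀ ι F) (hAA' : A * A' = 1)
    (hA'A : A' * A = 1) (hc : ∀ v : ι₀ → F₀, Q (A *ᵥ fun i => j (v i)) = j (Q₀ v))
    (d : ↥(Cfsg.Geo.quadSimilarityGroup (F := F₀) ⇑Q₀)) (v : ι → F) :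
    Q (((rframeHom j Q₀ Q A A' hAA' hA'A hc d : GL ι F) : Matrix ι ι F) *ᵥ v) =
      j (simMult ⇑Q₀ d : F₀) * Q v := by
  rw [rframeHom_coe]
  exact rframe_sim j Q₀ Q A A' hAA' hc _ _ (simMult_spec ⇑Q₀ d) v

theorem rframeHom_simMult (j : F₀ →+* F) (Q₀ : QuadraticForm F₀ (ι₀ → F₀))
    (Q : QuadraticForm F (ι → F)) (A : Matrix ι ι₀ F) (A' : Matrix ι₀ ι F) (hAA' : A * A' = 1)
    (hA'A : A' * A = 1) (hc : ∀ v : ι₀ → F₀, Q (A *ᵥ fun i => j (v i)) = j (Q₀ v))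
    (hne : ∃ v, Q v ≠ 0)
    (d : ↥(Cfsg.Geo.quadSimilarityGroup (F := F₀) ⇑Q₀)) :
    (simMult ⇑Q (rframeHom j Q₀ Q A A' hAA' hA'A hc d) : F) = j (simMult ⇑Q₀ d : F₀) :=
  Cfsg.Agent.Lib.Helper44.simMult_unique _ hne _ _ (rframeHom_sim j Q₀ Q A A' hAA' hA'A hc d)

theorem rframeHom_det (j : F₀ →+* F) (Q₀ : QuadraticForm F₀ (ι₀ → F₀))
    (Q : QuadraticForm F (ι → F)) (A : Matrix ι ι₀ F) (A' : Matrix ι₀ ι F) (hAA' : A * A' = 1)
    (hA'A : A' * A = 1) (hc : ∀ v : ι₀ → F₀, Q (A *ᵥ fun i => j (v i)) = j (Q₀ v))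
    (d : ↥(Cfsg.Geo.quadSimilarityGroup (F := F₀) ⇑Q₀)) :
    ((rframeHom j Q₀ Q A A' hAA' hA'A hc d : GL ι F) : Matrix ι ι F).det =
      j ((d : GL ι₀ F₀) : Matrix ι₀ ι₀ F₀).det := by
  rw [rframeHom_coe, Matrix.det_conj_of_mul_eq_one hAA' hA'A]
  have h1 := RingHom.map_det j ((d : GL ι₀ F₀) : Matrix ι₀ ι₀ F₀)
  rw [RingHom.mapMatrix_apply] at h1
  exact h1.symm

/-- Conjugating a reflection by a rectangular frame. -/
theorem rframe_refl (j : F₀ →+* F) (Q₀ : QuadraticForm F₀ (ι₀ → F₀))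
    (Q : QuadraticForm F (ι → F)) (A : Matrix ι ι₀ F) (A' : Matrix ι₀ ι F) (hAA' : A * A' = 1)
    (hc : ∀ v : ι₀ → F₀, Q (A *ᵥ fun i => j (v i)) = j (Q₀ v)) (u : ι₀ → F₀) :
    A * (Cfsg.reflectionMatrix ⇑Q₀ u).map j * A' =
      Cfsg.reflectionMatrix ⇑Q (A *ᵥ fun i => j (u i)) := by
  have h1 := reflectionMatrix_map j ⇑Q₀ ⇑(rpull Q A) (fun v => by rw [rpull_apply]; exact hc v) u
  rw [← h1]
  have key : A * Cfsg.reflectionMatrix ⇑(rpull Q A) (fun i => j (u i)) =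
      Cfsg.reflectionMatrix ⇑Q (A *ᵥ fun i => j (u i)) * A := by
    rw [Matrix.ext_iff_mulVec]
    intro x
    rw [← mulVec_mulVec, ← mulVec_mulVec, reflectionMatrix_mulVec, reflectionMatrix_mulVec,
      mulVec_sub, mulVec_smul]
    congr 2
    have hp : QuadraticMap.polar ⇑(rpull Q A) (fun i => j (u i)) x =
        QuadraticMap.polar ⇑Q (A *ᵥ fun i => j (u i)) (A *ᵥ x) := by
      unfold QuadraticMap.polar
      rw [rpull_apply, rpull_apply, rpull_apply, mulVec_add]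
    rw [hp, rpull_apply]
  rw [key, Matrix.mul_assoc, hAA', Matrix.mul_one]

/-- The inverse frame under the field automorphism. -/
theorem rframe_inv_map (σ : RingAut F) (M : Matrix ι ι F) (A : Matrix ι ι₀ F)
    (A' : Matrix ι₀ ι F) (hAA' : A * A' = 1) (hA'A : A' * A = 1) (hS : M * A.map σ = A) :
    A'.map σ = A' * M := by
  have h0 : (A * A').map σ = A.map σ * A'.map σ := Matrix.map_mul (f := (σ : F →+* F))
  have h1 : A.map σ * A'.map σ = 1 := by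
    rw [← h0, hAA', Matrix.map_one _ (map_zero σ) (map_one σ)]
  calc A'.map σ = (A' * A) * A'.map σ := by rw [hA'A, Matrix.one_mul]
    _ = A' * (M * A.map σ) * A'.map σ := by rw [hS]
    _ = A' * M * (A.map σ * A'.map σ) := by simp only [Matrix.mul_assoc]
    _ = A' * M := by rw [h1, Matrix.mul_one]

theorem rframe_comm_mat (σ : RingAut F) (j : F₀ →+* F) (hj : IsFixEmb σ j)
    (M : Matrix ι ι F) (A : Matrix ι ι₀ F) (A' : Matrix ι₀ ι F)
    (hAA' : A * A' = 1) (hA'A : A' * A = 1) (hS : M * A.map σ = A) (D₀ : Matrix ι₀ ι₀ F₀) :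
    M * (A * D₀.map j * A').map σ = (A * D₀.map j * A') * M := by
  have hA' := rframe_inv_map σ M A A' hAA' hA'A hS
  have hD : (D₀.map j).map σ = D₀.map j := map_fix_of_emb σ j hj D₀
  have hmm : (A * D₀.map j * A').map σ = A.map σ * (D₀.map j).map σ * A'.map σ := by
    have h1 : (A * D₀.map j * A').map σ = (A * D₀.map j).map σ * A'.map σ :=
      Matrix.map_mul (f := (σ : F →+* F))
    have h2 : (A * D₀.map j).map σ = A.map σ * (D₀.map j).map σ :=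
      Matrix.map_mul (f := (σ : F →+* F))
    rw [h1, h2]
  rw [hmm, hD, hA']
  calc M * (A.map σ * D₀.map j * (A' * M)) = (M * A.map σ) * D₀.map j * A' * M := by
        simp only [Matrix.mul_assoc]
    _ = A * D₀.map j * A' * M := by rw [hS]

/-- The embedded similarities over the fixed field commute with the semisimilarity. -/
theorem rframe_comm (j : F₀ →+* F) (Q₀ : QuadraticForm F₀ (ι₀ → F₀))
    (Q : QuadraticForm F (ι → F)) (A : Matrix ι ι₀ F) (A' : Matrix ι₀ ι F) (hAA' : A * A' = 1)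
    (hA'A : A' * A = 1) (hc : ∀ v : ι₀ → F₀, Q (A *ᵥ fun i => j (v i)) = j (Q₀ v))
    (S : ↥(semiSim ⇑Q)) (hj : IsFixEmb (S : SemiGL ι F).right j)
    (hS : ((S : SemiGL ι F).left : Matrix ι ι F) * A.map (S : SemiGL ι F).right = A)
    (d : ↥(Cfsg.Geo.quadSimilarityGroup (F := F₀) ⇑Q₀)) :
    S * simToSemi ⇑Q (rframeHom j Q₀ Q A A' hAA' hA'A hc d) =
      simToSemi ⇑Q (rframeHom j Q₀ Q A A' hAA' hA'A hc d) * S := by
  apply Subtype.ext
  rw [Subgroup.coe_mul, Subgroup.coe_mul]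
  apply SemidirectProduct.ext
  · rw [SemidirectProduct.mul_left, SemidirectProduct.mul_left, simToSemi_left, simToSemi_right,
      map_one, MulAut.one_apply]
    apply Units.ext
    rw [Units.val_mul, Units.val_mul, glAut_apply, glMap_coe, rframeHom_coe]
    exact rframe_comm_mat _ j hj _ A A' hAA' hA'A hS _
  · rw [SemidirectProduct.mul_right, SemidirectProduct.mul_right, simToSemi_right, mul_one,
      one_mul]

theorem rframe_comm_aut (j : F₀ →+* F) (Q₀ : QuadraticForm F₀ (ι₀ → F₀))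
    (Q : QuadraticForm F (ι → F)) (A : Matrix ι ι₀ F) (A' : Matrix ι₀ ι F) (hAA' : A * A' = 1)
    (hA'A : A' * A = 1) (hc : ∀ v : ι₀ → F₀, Q (A *ᵥ fun i => j (v i)) = j (Q₀ v))
    (S : ↥(semiSim ⇑Q)) (hj : IsFixEmb (S : SemiGL ι F).right j)
    (hS : ((S : SemiGL ι F).left : Matrix ι ι F) * A.map (S : SemiGL ι F).right = A)
    (d : ↥(Cfsg.Geo.quadSimilarityGroup (F := F₀) ⇑Q₀)) :
    semiAut ⇑Q S * simAut ⇑Q (rframeHom j Q₀ Q A A' hAA' hA'A hc d) =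
      simAut ⇑Q (rframeHom j Q₀ Q A A' hAA' hA'A hc d) * semiAut ⇑Q S := by
  rw [← semiAut_simToSemi, ← map_mul, ← map_mul, rframe_comm j Q₀ Q A A' hAA' hA'A hc S hj hS d]

set_option maxHeartbeats 1600000 in
/-- A similarity commuting exactly with the semisimilarity is an embedded similarity. -/
theorem rframe_exact (j : F₀ →+* F) (Q₀ : QuadraticForm F₀ (ι₀ → F₀))
    (Q : QuadraticForm F (ι → F)) (A : Matrix ι ι₀ F) (A' : Matrix ι₀ ι F) (hAA' : A * A' = 1)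
    (hA'A : A' * A = 1) (hc : ∀ v : ι₀ → F₀, Q (A *ᵥ fun i => j (v i)) = j (Q₀ v))
    (hne₀ : ∃ v, Q₀ v ≠ 0)
    (σ : RingAut F) (hj : IsFixEmb σ j) (M : Matrix ι ι F) (hS : M * A.map σ = A)
    (g : ↥(Cfsg.Geo.quadSimilarityGroup (F := F) ⇑Q))
    (hcomm : M * ((g : GL ι F) : Matrix ι ι F).map σ = ((g : GL ι F) : Matrix ι ι F) * M) :
    ∃ d : ↥(Cfsg.Geo.quadSimilarityGroup (F := F₀) ⇑Q₀),
      rframeHom j Q₀ Q A A' hAA' hA'A hc d = g := by
  obtain ⟨G, hG⟩ : ∃ G : Matrix ι ι F, G = ((g : GL ι F) : Matrix ι ι F) := ⟨_, rfl⟩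
  rw [← hG] at hcomm
  have hA' := rframe_inv_map σ M A A' hAA' hA'A hS
  obtain ⟨H, hH⟩ : ∃ H : Matrix ι₀ ι₀ F, H = A' * G * A := ⟨_, rfl⟩
  have hHσ : H.map σ = H := by
    have h1 : (A' * G * A).map σ = (A' * G).map σ * A.map σ :=
      Matrix.map_mul (f := (σ : F →+* F))
    have h2 : (A' * G).map σ = A'.map σ * G.map σ := Matrix.map_mul (f := (σ : F →+* F))
    rw [hH, h1, h2, hA']
    calc A' * M * G.map σ * A.map σ = A' * (M * G.map σ) * A.map σ := by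
          simp only [Matrix.mul_assoc]
      _ = A' * G * (M * A.map σ) := by rw [hcomm]; simp only [Matrix.mul_assoc]
      _ = A' * G * A := by rw [hS]
  have hfix : ∀ i k, σ (H i k) = H i k := by
    intro i k
    have h := congrFun (congrFun hHσ i) k
    rw [Matrix.map_apply] at h
    exact h
  choose d₀f hd₀f using fun i k => (hj (H i k)).mp (hfix i k)
  obtain ⟨D₀, hD₀⟩ : ∃ D₀ : Matrix ι₀ ι₀ F₀, D₀ = Matrix.of d₀f := ⟨_, rfl⟩
  have hD₀map : D₀.map j = H := by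
    ext i k
    rw [Matrix.map_apply, hD₀, Matrix.of_apply]
    exact hd₀f i k
  have hGdet : G.det ≠ 0 := by
    rw [hG]
    exact ((Matrix.isUnit_iff_isUnit_det _).mp (Units.isUnit _)).ne_zero
  have hGeq : G = A * H * A' := by
    rw [hH]
    calc G = (A * A') * G * (A * A') := by rw [hAA', Matrix.one_mul, Matrix.mul_one]
      _ = A * (A' * G * A) * A' := by simp only [Matrix.mul_assoc]
  have hHdet : H.det ≠ 0 := by
    have e : G.det = H.det := by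
      rw [hGeq]
      exact Matrix.det_conj_of_mul_eq_one hAA' hA'A
    rw [← e]
    exact hGdet
  have hD₀det : D₀.det ≠ 0 := by
    intro h0
    apply hHdet
    have h := RingHom.map_det j D₀
    rw [RingHom.mapMatrix_apply, hD₀map, h0, map_zero] at h
    exact h.symm
  obtain ⟨μ, hμ⟩ : ∃ μ : F, μ = (simMult ⇑Q g : F) := ⟨_, rfl⟩
  have hμ0 : μ ≠ 0 := by
    rw [hμ]
    exact (simMult ⇑Q g).ne_zero
  have hGsim : ∀ v, Q (G *ᵥ v) = μ * Q v := by
    intro v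
    rw [hG, hμ]
    exact simMult_spec ⇑Q g v
  have hAH : A * H = G * A := by
    rw [hH]
    calc A * (A' * G * A) = (A * A') * G * A := by simp only [Matrix.mul_assoc]
      _ = G * A := by rw [hAA', Matrix.one_mul]
  have hkey : ∀ v : ι₀ → F₀, j (Q₀ (D₀ *ᵥ v)) = μ * j (Q₀ v) := by
    intro v
    rw [← hc (D₀ *ᵥ v), ← map_mulVec_hom, hD₀map, mulVec_mulVec, hAH, ← mulVec_mulVec, hGsim, hc]
  obtain ⟨v₀, hv₀⟩ := hne₀
  obtain ⟨c₀, hc₀⟩ : ∃ c₀ : F₀, c₀ = Q₀ (D₀ *ᵥ v₀) / Q₀ v₀ := ⟨_, rfl⟩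
  have hjc₀ : j c₀ = μ := by
    have hjv : j (Q₀ v₀) ≠ 0 := (map_ne_zero j).mpr hv₀
    rw [hc₀, map_div₀, hkey]
    field_simp
  have hc₀0 : c₀ ≠ 0 := by
    intro h0
    apply hμ0
    rw [← hjc₀, h0, map_zero]
  have hD₀sim : ∀ v, Q₀ (D₀ *ᵥ v) = c₀ * Q₀ v := by
    intro v
    apply j.injective
    rw [hkey, map_mul, hjc₀]
  refine ⟨⟨Matrix.GeneralLinearGroup.mkOfDetNeZero D₀ hD₀det,
    ⟨Units.mk0 c₀ hc₀0, fun v => hD₀sim v⟩⟩, ?_⟩
  apply Subtype.ext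
  apply Units.ext
  rw [rframeHom_coe]
  show A * D₀.map j * A' = ((g : GL ι F) : Matrix ι ι F)
  rw [hD₀map, ← hG, ← hGeq]

set_option maxHeartbeats 3200000 in
/-- A similarity whose automorphism commutes with the semisimilarity is, up to a scalar, an
embedded similarity over the fixed field. -/
theorem rframe_exists_of_comm [Fintype F] (j : F₀ →+* F) (Q₀ : QuadraticForm F₀ (ι₀ → F₀))
    (Q : QuadraticForm F (ι → F)) (A : Matrix ι ι₀ F) (A' : Matrix ι₀ ι F) (hAA' : A * A' = 1)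
    (hA'A : A' * A = 1) (hc : ∀ v : ι₀ → F₀, Q (A *ᵥ fun i => j (v i)) = j (Q₀ v))
    (hne₀ : ∃ v, Q₀ v ≠ 0)
    (hQ : (QuadraticMap.polarBilin Q).Nondegenerate) (hn5 : 5 ≤ Fintype.card ι)
    (E : Submodule F (ι → F)) (hE : 3 ≤ finrank F E) (hE0 : ∀ x ∈ E, Q x = 0)
    (S : ↥(semiSim ⇑Q)) (hj : IsFixEmb (S : SemiGL ι F).right j)
    (hS : ((S : SemiGL ι F).left : Matrix ι ι F) * A.map (S : SemiGL ι F).right = A)
    (g : ↥(Cfsg.Geo.quadSimilarityGroup (F := F) ⇑Q))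
    (hcomm : semiAut ⇑Q S * simAut ⇑Q g = simAut ⇑Q g * semiAut ⇑Q S) :
    ∃ (d : ↥(Cfsg.Geo.quadSimilarityGroup (F := F₀) ⇑Q₀)) (e : F), e ≠ 0 ∧
      ((g : GL ι F) : Matrix ι ι F) =
        e • ((rframeHom j Q₀ Q A A' hAA' hA'A hc d : GL ι F) : Matrix ι ι F) := by
  obtain ⟨σ, hσ⟩ : ∃ σ : RingAut F, σ = (S : SemiGL ι F).right := ⟨_, rfl⟩
  obtain ⟨M, hM⟩ : ∃ M : Matrix ι ι F, M = ((S : SemiGL ι F).left : Matrix ι ι F) := ⟨_, rfl⟩
  obtain ⟨G, hG⟩ : ∃ G : Matrix ι ι F, G = ((g : GL ι F) : Matrix ι ι F) := ⟨_, rfl⟩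
  rw [← hσ] at hj
  rw [← hσ, ← hM] at hS
  obtain ⟨Z, hZ⟩ : ∃ Z : ↥(semiSim ⇑Q),
      Z = S * simToSemi ⇑Q g * S⁻¹ * (simToSemi ⇑Q g)⁻¹ := ⟨_, rfl⟩
  have hZaut : semiAut ⇑Q Z = 1 := by
    rw [hZ, map_mul, map_mul, map_mul, map_inv, map_inv, semiAut_simToSemi, hcomm]
    group
  have hZr := semiAut_right_eq_one Q hQ hn5 Z hZaut
  obtain ⟨n, hn⟩ := exists_sim_of_right_eq_one ⇑Q Z hZr
  have hn1 : simAut ⇑Q n = 1 := by
    rw [← semiAut_simToSemi, hn]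
    exact hZaut
  obtain ⟨c, hc0, hnmat⟩ := Cfsg.Agent.Lib.Helper44.scalar_of_simAut_eq_one Q hQ E hE hE0 n hn1
  have hEq : S * simToSemi ⇑Q g = simToSemi ⇑Q n * simToSemi ⇑Q g * S := by
    rw [hn, hZ]
    group
  have hL : M * G.map σ = c • (G * M) := by
    have h := congrArg (fun X : ↥(semiSim ⇑Q) =>
      ((X : SemiGL ι F).left : Matrix ι ι F)) hEq
    simp only [Subgroup.coe_mul, SemidirectProduct.mul_left, SemidirectProduct.mul_right,
      simToSemi_left, simToSemi_right, map_one, MulAut.one_apply, one_mul, mul_one, glAut_apply,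
      Units.val_mul, glMap_coe] at h
    rw [hnmat, ← hM, ← hG, ← hσ, Matrix.smul_mul, Matrix.one_mul, Matrix.smul_mul] at h
    exact h
  have hA' := rframe_inv_map σ M A A' hAA' hA'A hS
  obtain ⟨H, hH⟩ : ∃ H : Matrix ι₀ ι₀ F, H = A' * G * A := ⟨_, rfl⟩
  have hHσ : H.map σ = c • H := by
    have h1 : (A' * G * A).map σ = (A' * G).map σ * A.map σ :=
      Matrix.map_mul (f := (σ : F →+* F))
    have h2 : (A' * G).map σ = A'.map σ * G.map σ := Matrix.map_mul (f := (σ : F →+* F))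
    rw [hH, h1, h2, hA']
    calc A' * M * G.map σ * A.map σ = A' * (M * G.map σ) * A.map σ := by
          simp only [Matrix.mul_assoc]
      _ = c • (A' * G * (M * A.map σ)) := by
          rw [hL]
          simp only [Matrix.mul_assoc, Matrix.smul_mul, Matrix.mul_smul]
      _ = c • (A' * G * A) := by rw [hS]
  have hGdet : G.det ≠ 0 := by
    rw [hG]
    exact ((Matrix.isUnit_iff_isUnit_det _).mp (Units.isUnit _)).ne_zero
  have hGeq : G = A * H * A' := by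
    rw [hH]
    calc G = (A * A') * G * (A * A') := by rw [hAA', Matrix.one_mul, Matrix.mul_one]
      _ = A * (A' * G * A) * A' := by simp only [Matrix.mul_assoc]
  have hHdet : H.det ≠ 0 := by
    have e : G.det = H.det := by
      rw [hGeq]
      exact Matrix.det_conj_of_mul_eq_one hAA' hA'A
    rw [← e]
    exact hGdet
  haveI : Nonempty ι₀ := by
    by_contra hemp
    rw [not_nonempty_iff] at hemp
    obtain ⟨v, hv⟩ := hne₀
    apply hv
    have e : v = 0 := Subsingleton.elim _ _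
    rw [e, map_zero]
  obtain ⟨i₁, k₁, hik⟩ : ∃ i k, H i k ≠ 0 := by
    by_contra hcon
    push Not at hcon
    apply hHdet
    have h0 : H = 0 := by
      ext i k
      exact hcon i k
    rw [h0]
    exact Matrix.det_zero
  obtain ⟨e, he⟩ : ∃ e : F, e = H i₁ k₁ := ⟨_, rfl⟩
  have he0 : e ≠ 0 := by
    rw [he]
    exact hik
  have hσe : σ e = c * e := by
    have h := congrFun (congrFun hHσ i₁) k₁
    rw [Matrix.map_apply, Matrix.smul_apply, smul_eq_mul, ← he] at h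
    exact h
  obtain ⟨μ, hμ⟩ : ∃ μ : F, μ = (simMult ⇑Q g : F) := ⟨_, rfl⟩
  have hμ0 : μ ≠ 0 := by
    rw [hμ]
    exact (simMult ⇑Q g).ne_zero
  have hGsim : ∀ v, Q (G *ᵥ v) = μ * Q v := by
    intro v
    rw [hG, hμ]
    exact simMult_spec ⇑Q g v
  have hG'det : (e⁻¹ • G).det ≠ 0 := by
    rw [Matrix.det_smul]
    exact mul_ne_zero (pow_ne_zero _ (inv_ne_zero he0)) hGdet
  obtain ⟨g', hg'⟩ : ∃ g' : ↥(Cfsg.Geo.quadSimilarityGroup (F := F) ⇑Q),
      ((g' : GL ι F) : Matrix ι ι F) = e⁻¹ • G :=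
    ⟨⟨Matrix.GeneralLinearGroup.mkOfDetNeZero _ hG'det,
      ⟨Units.mk0 (e⁻¹ * e⁻¹ * μ) (mul_ne_zero (mul_ne_zero (inv_ne_zero he0) (inv_ne_zero he0))
        hμ0), fun v => by
        show Q ((e⁻¹ • G) *ᵥ v) = e⁻¹ * e⁻¹ * μ * Q v
        rw [Matrix.smul_mulVec, QuadraticMap.map_smul, hGsim, smul_eq_mul]
        ring⟩⟩, rfl⟩
  have hcomm' : M * ((g' : GL ι F) : Matrix ι ι F).map σ = ((g' : GL ι F) : Matrix ι ι F) * M := by
    rw [hg', Matrix.map_smul' _ _ _ (map_mul σ), Matrix.mul_smul, hL, smul_smul, Matrix.smul_mul,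
      map_inv₀, hσe]
    congr 1
    field_simp
  obtain ⟨d, hd⟩ := rframe_exact j Q₀ Q A A' hAA' hA'A hc hne₀ σ hj M hS g' hcomm'
  refine ⟨d, e, he0, ?_⟩
  rw [hd, hg', smul_smul, mul_inv_cancel₀ he0, one_smul, hG]

set_option maxHeartbeats 1600000 in
/-- The embedded similarity acts trivially iff the similarity over the subfield does. -/
theorem rframe_simAut_eq_one_iff [Fintype F] [Fintype F₀] (j : F₀ →+* F)
    (Q₀ : QuadraticForm F₀ (ι₀ → F₀))
    (Q : QuadraticForm F (ι → F)) (A : Matrix ι ι₀ F) (A' : Matrix ι₀ ι F) (hAA' : A * A' = 1)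
    (hA'A : A' * A = 1) (hc : ∀ v : ι₀ → F₀, Q (A *ᵥ fun i => j (v i)) = j (Q₀ v))
    (hQ : (QuadraticMap.polarBilin Q).Nondegenerate)
    (E : Submodule F (ι → F)) (hE : 3 ≤ finrank F E) (hE0 : ∀ x ∈ E, Q x = 0)
    (hQ₀ : (QuadraticMap.polarBilin Q₀).Nondegenerate)
    (E₀ : Submodule F₀ (ι₀ → F₀)) (hE₀ : 3 ≤ finrank F₀ E₀) (hE₀0 : ∀ x ∈ E₀, Q₀ x = 0)
    (i₀ : ι₀) (d : ↥(Cfsg.Geo.quadSimilarityGroup (F := F₀) ⇑Q₀)) :
    simAut ⇑Q (rframeHom j Q₀ Q A A' hAA' hA'A hc d) = 1 ↔ simAut ⇑Q₀ d = 1 := by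
  obtain ⟨D₀, hD₀⟩ : ∃ D₀ : Matrix ι₀ ι₀ F₀, D₀ = ((d : GL ι₀ F₀) : Matrix ι₀ ι₀ F₀) :=
    ⟨_, rfl⟩
  constructor
  · intro h
    obtain ⟨lam, hlam, hmat⟩ := Cfsg.Agent.Lib.Helper44.scalar_of_simAut_eq_one Q hQ E hE hE0 _ h
    rw [rframeHom_coe, ← hD₀] at hmat
    have h3 : D₀.map j = lam • (1 : Matrix ι₀ ι₀ F) := by
      calc D₀.map j = (A' * A) * D₀.map j * (A' * A) := by
            rw [hA'A, Matrix.one_mul, Matrix.mul_one]
        _ = A' * (A * D₀.map j * A') * A := by simp only [Matrix.mul_assoc]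
        _ = lam • (1 : Matrix ι₀ ι₀ F) := by
            rw [hmat, Matrix.mul_smul, Matrix.mul_one, Matrix.smul_mul, hA'A]
    obtain ⟨l₀, hl₀⟩ : ∃ l₀ : F₀, l₀ = D₀ i₀ i₀ := ⟨_, rfl⟩
    have hD₀eq : D₀ = l₀ • (1 : Matrix ι₀ ι₀ F₀) := by
      ext i k
      have e := congrFun (congrFun h3 i) k
      have e0 := congrFun (congrFun h3 i₀) i₀
      rw [Matrix.map_apply, Matrix.smul_apply, Matrix.one_apply_eq, smul_eq_mul, mul_one] at e0
      rw [Matrix.map_apply, Matrix.smul_apply, smul_eq_mul] at e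
      rw [Matrix.smul_apply, smul_eq_mul]
      by_cases hik : i = k
      · subst hik
        rw [Matrix.one_apply_eq, mul_one] at e ⊢
        apply j.injective
        rw [e, hl₀, e0]
      · rw [Matrix.one_apply_ne hik, mul_zero] at e ⊢
        apply j.injective
        rw [e, map_zero]
    exact Cfsg.Agent.Lib.Helper44.simAut_eq_one_of_scalar ⇑Q₀ d l₀
      (by rw [← hD₀]; exact hD₀eq)
  · intro h
    obtain ⟨l₀, hl₀, hmat⟩ := Cfsg.Agent.Lib.Helper44.scalar_of_simAut_eq_one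
      Q₀ hQ₀ E₀ hE₀ hE₀0 d h
    apply Cfsg.Agent.Lib.Helper44.simAut_eq_one_of_scalar ⇑Q _ (j l₀)
    rw [rframeHom_coe, hmat]
    have e : (l₀ • (1 : Matrix ι₀ ι₀ F₀)).map j = j l₀ • (1 : Matrix ι₀ ι₀ F) := by
      rw [Matrix.map_smul' _ _ _ (map_mul j), Matrix.map_one j (map_zero j) (map_one j)]
    rw [e, Matrix.mul_smul, Matrix.mul_one, Matrix.smul_mul, hAA']

end rframe

end Cfsg.Agent.Lib.Helper14
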