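import Mathlib
import Cfsg.Prelude.Def_LieTypeDatum
import Cfsg.Agent.Lib.Helper14.GfA
import Cfsg.Agent.Lib.Helper8.PlusCoset

/-!
The explicit frame identifying the minus-type form over a subfield (with binary part split over
the big field) with the hyperbolic form over the big field, and the standard graph-field
semisimilarity fixing it.
-/

set_option autoImplicit false

namespace Cfsg.Agent.Lib.Helper14

open Matrix Module
open Cfsg.Agent.Lib.Helper44 (simAut simMult simMult_spec dickson isomAut)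
open Cfsg.Agent.Lib.Helper43.FieldAut (IsFixEmb)

section gfT

variable {F : Type*} [Field F] (k : ℕ)

/-- The frame map from minus coordinates to plus coordinates. -/
noncomputable def gfT (θ θ' : F) :
    ((Fin k ⊕ Fin k) ⊕ Fin 2 → F) →ₗ[F] (Fin (k + 1) ⊕ Fin (k + 1) → F) where
  toFun w := Sum.elim
    (Fin.snoc (α := fun _ => F) (fun i => w (Sum.inl (Sum.inl i)))
      (w (Sum.inr 0) - θ * w (Sum.inr 1)))
    (Fin.snoc (α := fun _ => F) (fun i => w (Sum.inl (Sum.inr i)))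
      (w (Sum.inr 0) - θ' * w (Sum.inr 1)))
  map_add' w w' := by
    funext i
    rcases i with i | i
    · refine Fin.lastCases ?_ (fun i => ?_) i
      · simp only [Sum.elim_inl, Fin.snoc_last, Pi.add_apply]
        ring
      · simp only [Sum.elim_inl, Fin.snoc_castSucc, Pi.add_apply]
    · refine Fin.lastCases ?_ (fun i => ?_) i
      · simp only [Sum.elim_inr, Fin.snoc_last, Pi.add_apply]
        ring
      · simp only [Sum.elim_inr, Fin.snoc_castSucc, Pi.add_apply]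
  map_smul' c w := by
    funext i
    rcases i with i | i
    · refine Fin.lastCases ?_ (fun i => ?_) i
      · simp only [Sum.elim_inl, Fin.snoc_last, Pi.smul_apply, smul_eq_mul, RingHom.id_apply]
        ring
      · simp only [Sum.elim_inl, Fin.snoc_castSucc, Pi.smul_apply, smul_eq_mul, RingHom.id_apply]
    · refine Fin.lastCases ?_ (fun i => ?_) i
      · simp only [Sum.elim_inr, Fin.snoc_last, Pi.smul_apply, smul_eq_mul, RingHom.id_apply]
        ring
      · simp only [Sum.elim_inr, Fin.snoc_castSucc, Pi.smul_apply, smul_eq_mul, RingHom.id_apply]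

theorem gfT_inl_castSucc (θ θ' : F) (w : (Fin k ⊕ Fin k) ⊕ Fin 2 → F) (i : Fin k) :
    gfT k θ θ' w (Sum.inl (Fin.castSucc i)) = w (Sum.inl (Sum.inl i)) := by
  simp only [gfT, LinearMap.coe_mk, AddHom.coe_mk, Sum.elim_inl, Fin.snoc_castSucc]

theorem gfT_inr_castSucc (θ θ' : F) (w : (Fin k ⊕ Fin k) ⊕ Fin 2 → F) (i : Fin k) :
    gfT k θ θ' w (Sum.inr (Fin.castSucc i)) = w (Sum.inl (Sum.inr i)) := by
  simp only [gfT, LinearMap.coe_mk, AddHom.coe_mk, Sum.elim_inr, Fin.snoc_castSucc]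

theorem gfT_inl_last (θ θ' : F) (w : (Fin k ⊕ Fin k) ⊕ Fin 2 → F) :
    gfT k θ θ' w (Sum.inl (Fin.last k)) = w (Sum.inr 0) - θ * w (Sum.inr 1) := by
  simp only [gfT, LinearMap.coe_mk, AddHom.coe_mk, Sum.elim_inl, Fin.snoc_last]

theorem gfT_inr_last (θ θ' : F) (w : (Fin k ⊕ Fin k) ⊕ Fin 2 → F) :
    gfT k θ θ' w (Sum.inr (Fin.last k)) = w (Sum.inr 0) - θ' * w (Sum.inr 1) := by
  simp only [gfT, LinearMap.coe_mk, AddHom.coe_mk, Sum.elim_inr, Fin.snoc_last]

/-- The inverse frame map. -/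
noncomputable def gfT' (θ θ' : F) :
    (Fin (k + 1) ⊕ Fin (k + 1) → F) →ₗ[F] ((Fin k ⊕ Fin k) ⊕ Fin 2 → F) where
  toFun v := Sum.elim
    (Sum.elim (fun i => v (Sum.inl (Fin.castSucc i))) (fun i => v (Sum.inr (Fin.castSucc i))))
    (fun t : Fin 2 => if t = 0 then
        (θ' * v (Sum.inl (Fin.last k)) - θ * v (Sum.inr (Fin.last k))) / (θ' - θ)
      else (v (Sum.inl (Fin.last k)) - v (Sum.inr (Fin.last k))) / (θ' - θ))
  map_add' v v' := by
    funext i
    rcases i with (i | i) | t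
    · rfl
    · rfl
    · simp only [Sum.elim_inr, Pi.add_apply]
      split_ifs <;> ring
  map_smul' c v := by
    funext i
    rcases i with (i | i) | t
    · rfl
    · rfl
    · simp only [Sum.elim_inr, Pi.smul_apply, smul_eq_mul, RingHom.id_apply]
      split_ifs <;> ring

theorem gfT'_inl_inl (θ θ' : F) (v : Fin (k + 1) ⊕ Fin (k + 1) → F) (i : Fin k) :
    gfT' k θ θ' v (Sum.inl (Sum.inl i)) = v (Sum.inl (Fin.castSucc i)) := rfl

theorem gfT'_inl_inr (θ θ' : F) (v : Fin (k + 1) ⊕ Fin (k + 1) → F) (i : Fin k) :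
    gfT' k θ θ' v (Sum.inl (Sum.inr i)) = v (Sum.inr (Fin.castSucc i)) := rfl

theorem gfT'_inr_zero (θ θ' : F) (v : Fin (k + 1) ⊕ Fin (k + 1) → F) :
    gfT' k θ θ' v (Sum.inr 0) =
      (θ' * v (Sum.inl (Fin.last k)) - θ * v (Sum.inr (Fin.last k))) / (θ' - θ) := by
  simp only [gfT', LinearMap.coe_mk, AddHom.coe_mk, Sum.elim_inr, if_true]

theorem gfT'_inr_one (θ θ' : F) (v : Fin (k + 1) ⊕ Fin (k + 1) → F) :
    gfT' k θ θ' v (Sum.inr 1) =
      (v (Sum.inl (Fin.last k)) - v (Sum.inr (Fin.last k))) / (θ' - θ) := by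
  simp only [gfT', LinearMap.coe_mk, AddHom.coe_mk, Sum.elim_inr, Fin.isValue, one_ne_zero, if_false]

theorem gfT_gfT' (θ θ' : F) (h : θ ≠ θ') (v : Fin (k + 1) ⊕ Fin (k + 1) → F) :
    gfT k θ θ' (gfT' k θ θ' v) = v := by
  have hd : θ' - θ ≠ 0 := sub_ne_zero.mpr (Ne.symm h)
  funext i
  rcases i with i | i
  · refine Fin.lastCases ?_ (fun i => ?_) i
    · rw [gfT_inl_last, gfT'_inr_zero, gfT'_inr_one]
      field_simp
      ring
    · rw [gfT_inl_castSucc, gfT'_inl_inl]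
  · refine Fin.lastCases ?_ (fun i => ?_) i
    · rw [gfT_inr_last, gfT'_inr_zero, gfT'_inr_one]
      field_simp
      ring
    · rw [gfT_inr_castSucc, gfT'_inl_inr]

theorem gfT'_gfT (θ θ' : F) (h : θ ≠ θ') (w : (Fin k ⊕ Fin k) ⊕ Fin 2 → F) :
    gfT' k θ θ' (gfT k θ θ' w) = w := by
  have hd : θ' - θ ≠ 0 := sub_ne_zero.mpr (Ne.symm h)
  funext i
  rcases i with (i | i) | t
  · rw [gfT'_inl_inl, gfT_inl_castSucc]
  · rw [gfT'_inl_inr, gfT_inr_castSucc]
  · revert t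
    rw [Fin.forall_fin_two]
    constructor
    · rw [gfT'_inr_zero, gfT_inl_last, gfT_inr_last]
      field_simp
      ring
    · rw [gfT'_inr_one, gfT_inl_last, gfT_inr_last]
      field_simp
      ring

/-- The frame matrix. -/
noncomputable def gfA (θ θ' : F) :
    Matrix (Fin (k + 1) ⊕ Fin (k + 1)) ((Fin k ⊕ Fin k) ⊕ Fin 2) F :=
  LinearMap.toMatrix' (gfT k θ θ')

/-- The inverse frame matrix. -/
noncomputable def gfA' (θ θ' : F) :
    Matrix ((Fin k ⊕ Fin k) ⊕ Fin 2) (Fin (k + 1) ⊕ Fin (k + 1)) F :=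
  LinearMap.toMatrix' (gfT' k θ θ')

theorem gfA_mulVec (θ θ' : F) (w : (Fin k ⊕ Fin k) ⊕ Fin 2 → F) :
    gfA k θ θ' *ᵥ w = gfT k θ θ' w := LinearMap.toMatrix'_mulVec _ _

theorem gfA_mul_gfA' (θ θ' : F) (h : θ ≠ θ') : gfA k θ θ' * gfA' k θ θ' = 1 := by
  unfold gfA gfA'
  rw [← LinearMap.toMatrix'_comp, ← LinearMap.toMatrix'_id]
  congr 1
  apply LinearMap.ext
  intro v
  exact gfT_gfT' k θ θ' h v

theorem gfA'_mul_gfA (θ θ' : F) (h : θ ≠ θ') : gfA' k θ θ' * gfA k θ θ' = 1 := by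
  unfold gfA gfA'
  rw [← LinearMap.toMatrix'_comp, ← LinearMap.toMatrix'_id]
  congr 1
  apply LinearMap.ext
  intro v
  exact gfT'_gfT k θ θ' h v

theorem plus_gfT (θ θ' : F) (w : (Fin k ⊕ Fin k) ⊕ Fin 2 → F) :
    Cfsg.quadFormPlus (k + 1) F (gfT k θ θ' w) =
      Cfsg.quadFormMinus k F (-(θ + θ')) (θ * θ') w := by
  unfold Cfsg.quadFormPlus Cfsg.quadFormMinus
  rw [Fin.sum_univ_castSucc]
  simp only [gfT_inl_castSucc, gfT_inr_castSucc, gfT_inl_last, gfT_inr_last]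
  ring

theorem gfT_map (σ : RingAut F) (θ θ' : F) (w : (Fin k ⊕ Fin k) ⊕ Fin 2 → F) :
    (fun i => σ (gfT k θ θ' w i)) = gfT k (σ θ) (σ θ') (fun i => σ (w i)) := by
  funext i
  rcases i with i | i
  · refine Fin.lastCases ?_ (fun i => ?_) i
    · rw [gfT_inl_last, gfT_inl_last, map_sub, map_mul]
    · rw [gfT_inl_castSucc, gfT_inl_castSucc]
  · refine Fin.lastCases ?_ (fun i => ?_) i
    · rw [gfT_inr_last, gfT_inr_last, map_sub, map_mul]
    · rw [gfT_inr_castSucc, gfT_inr_castSucc]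

theorem gfA_map (σ : RingAut F) (θ θ' : F) : (gfA k θ θ').map σ = gfA k (σ θ) (σ θ') := by
  rw [Matrix.ext_iff_mulVec]
  intro w
  obtain ⟨u, hu⟩ : ∃ u : (Fin k ⊕ Fin k) ⊕ Fin 2 → F, u = fun i => σ.symm (w i) := ⟨_, rfl⟩
  have hw : w = fun i => σ (u i) := by
    funext i
    rw [hu]
    exact (σ.apply_symm_apply (w i)).symm
  rw [hw, gfA_mulVec, ← gfT_map, ← gfA_mulVec]
  funext i
  exact (RingHom.map_mulVec (σ : F →+* F) (gfA k θ θ') u i).symm

/-- The vector of the standard reflection. -/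
def gfV : Fin (k + 1) ⊕ Fin (k + 1) → F :=
  Sum.elim (Pi.single (Fin.last k) 1) (Pi.single (Fin.last k) (-1))

theorem gfV_inl_last : gfV (F := F) k (Sum.inl (Fin.last k)) = 1 := by
  simp [gfV]

theorem gfV_inr_last : gfV (F := F) k (Sum.inr (Fin.last k)) = -1 := by
  simp [gfV]

theorem gfV_inl_castSucc (i : Fin k) : gfV (F := F) k (Sum.inl (Fin.castSucc i)) = 0 := by
  simp [gfV, Fin.castSucc_ne_last]

theorem gfV_inr_castSucc (i : Fin k) : gfV (F := F) k (Sum.inr (Fin.castSucc i)) = 0 := by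
  simp [gfV, Fin.castSucc_ne_last]

theorem plus_gfV : Cfsg.quadFormPlus (k + 1) F (gfV k) = -1 := by
  unfold Cfsg.quadFormPlus
  rw [Fin.sum_univ_castSucc]
  simp only [gfV_inl_castSucc, gfV_inl_last, gfV_inr_last, zero_mul, Finset.sum_const_zero,
    zero_add, one_mul]

theorem gfV_fixed (σ : RingAut F) (i : Fin (k + 1) ⊕ Fin (k + 1)) :
    σ (gfV (F := F) k i) = gfV k i := by
  rcases i with i | i
  · refine Fin.lastCases ?_ (fun i => ?_) i
    · rw [gfV_inl_last, map_one]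
    · rw [gfV_inl_castSucc, map_zero]
  · refine Fin.lastCases ?_ (fun i => ?_) i
    · rw [gfV_inr_last, map_neg, map_one]
    · rw [gfV_inr_castSucc, map_zero]

/-- The standard reflection swaps the last hyperbolic pair. -/
theorem gf_refl_apply (x : Fin (k + 1) ⊕ Fin (k + 1) → F) :
    Cfsg.reflectionMatrix ⇑(plusQF (k + 1) F) (gfV k) *ᵥ x =
      x + (x (Sum.inr (Fin.last k)) - x (Sum.inl (Fin.last k))) • gfV k := by
  rw [reflectionMatrix_mulVec, plusQF_coe, plus_gfV,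
    Cfsg.Agent.Lib.Helper44.plus_polar_formula, Fin.sum_univ_castSucc]
  simp only [gfV_inl_castSucc, gfV_inr_castSucc, gfV_inl_last, gfV_inr_last, zero_mul,
    add_zero, Finset.sum_const_zero, zero_add, one_mul]
  rw [sub_eq_add_neg, ← neg_smul]
  congr 2
  field_simp
  ring

theorem gf_refl_gfT (θ θ' : F) (w : (Fin k ⊕ Fin k) ⊕ Fin 2 → F) :
    Cfsg.reflectionMatrix ⇑(plusQF (k + 1) F) (gfV k) *ᵥ (gfT k θ' θ w) = gfT k θ θ' w := by
  rw [gf_refl_apply]
  funext i
  rcases i with i | i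
  · refine Fin.lastCases ?_ (fun i => ?_) i
    · rw [Pi.add_apply, Pi.smul_apply, gfV_inl_last, gfT_inl_last, gfT_inr_last, gfT_inl_last,
        smul_eq_mul]
      ring
    · rw [Pi.add_apply, Pi.smul_apply, gfV_inl_castSucc, gfT_inl_castSucc, gfT_inl_castSucc,
        smul_eq_mul, mul_zero, add_zero]
  · refine Fin.lastCases ?_ (fun i => ?_) i
    · rw [Pi.add_apply, Pi.smul_apply, gfV_inr_last, gfT_inl_last, gfT_inr_last, gfT_inr_last,
        smul_eq_mul]
      ring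
    · rw [Pi.add_apply, Pi.smul_apply, gfV_inr_castSucc, gfT_inr_castSucc, gfT_inr_castSucc,
        smul_eq_mul, mul_zero, add_zero]

/-- The frame is fixed by the standard graph-field semilinear map. -/
theorem gf_frame_fixed (σ : RingAut F) (θ θ' : F) (h1 : σ θ = θ') (h2 : σ θ' = θ) :
    Cfsg.reflectionMatrix ⇑(plusQF (k + 1) F) (gfV k) * (gfA k θ θ').map σ = gfA k θ θ' := by
  rw [gfA_map, h1, h2, Matrix.ext_iff_mulVec]
  intro w
  rw [← mulVec_mulVec, gfA_mulVec, gfA_mulVec, gf_refl_gfT]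

end gfT

end Cfsg.Agent.Lib.Helper14
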