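import Mathlib
import Cfsg.Prelude.Def_LieTypeDatum
import Cfsg.Agent.Lib.Helper14.GfB

/-!
The centralizer of the standard graph-field automorphism of `PΩ⁺_{2k+2}(F)` in `Inndiag` is the
image of the class-preserving similarities of the minus-type form over the fixed field.
-/

set_option autoImplicit false

namespace Cfsg.Agent.Lib.Helper14

open Matrix Module
open Cfsg.Agent.Lib.Helper44 (simAut simMult simMult_spec dickson isomAut)
open Cfsg.Agent.Lib.Helper43.FieldAut (IsFixEmb)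
open Cfsg.Agent.Lib.Helper8.PlusCoset (PS pcls pN mem_pN)

section rprod

universe u u₀

variable {ι₀ ι : Type} [Fintype ι₀] [DecidableEq ι₀] [Fintype ι] [DecidableEq ι]
variable {F : Type u} [Field F] {F₀ : Type u₀} [Field F₀]

/-- A product of reflections under a rectangular frame. -/
theorem rframe_prod_refl (j : F₀ →+* F) (Q₀ : QuadraticForm F₀ (ι₀ → F₀))
    (Q : QuadraticForm F (ι → F)) (A : Matrix ι ι₀ F) (A' : Matrix ι₀ ι F) (hAA' : A * A' = 1)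
    (hA'A : A' * A = 1) (hc : ∀ v : ι₀ → F₀, Q (A *ᵥ fun i => j (v i)) = j (Q₀ v))
    (l : List (ι₀ → F₀)) :
    A * ((l.map (Cfsg.reflectionMatrix ⇑Q₀)).prod).map j * A' =
      ((l.map (fun u : ι₀ → F₀ => A *ᵥ fun i => j (u i))).map
        (Cfsg.reflectionMatrix ⇑Q)).prod := by
  induction l with
  | nil =>
    rw [List.map_nil, List.map_nil, List.map_nil, List.prod_nil, List.prod_nil,
      Matrix.map_one j (map_zero j) (map_one j), Matrix.mul_one, hAA']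
  | cons a l ih =>
    rw [List.map_cons, List.prod_cons, List.map_cons, List.map_cons, List.prod_cons, ← ih,
      ← rframe_refl j Q₀ Q A A' hAA' hc a, rconj_mul A A' hA'A]
    congr 2
    exact Matrix.map_mul

end rprod

section gfcent

universe u u₀

variable {F : Type u} [Field F] {F₀ : Type u₀} [Field F₀]

theorem gf_compat (k : ℕ) (j : F₀ →+* F) (a₀ b₀ : F₀) (θ θ' : F)
    (hsum : θ + θ' = -j a₀) (hprod : θ * θ' = j b₀) (v : (Fin k ⊕ Fin k) ⊕ Fin 2 → F₀) :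
    plusQF (k + 1) F (gfA k θ θ' *ᵥ fun i => j (v i)) = j (minusQF k F₀ a₀ b₀ v) := by
  rw [gfA_mulVec, plusQF_coe, plus_gfT, hsum, neg_neg, hprod, minusQF_coe, minus_compat_hom]

/-- The embedding of the similarity group of the minus-type form over the subfield into the
similarity group of the hyperbolic form. -/
noncomputable def gfHom (k : ℕ) (j : F₀ →+* F) (a₀ b₀ : F₀) (θ θ' : F) (hne : θ ≠ θ')
    (hsum : θ + θ' = -j a₀) (hprod : θ * θ' = j b₀) :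
    ↥(Cfsg.Geo.quadSimilarityGroup (F := F₀) ⇑(minusQF k F₀ a₀ b₀)) →*
      ↥(Cfsg.Geo.quadSimilarityGroup (F := F) ⇑(plusQF (k + 1) F)) :=
  rframeHom j (minusQF k F₀ a₀ b₀) (plusQF (k + 1) F) (gfA k θ θ') (gfA' k θ θ')
    (gfA_mul_gfA' k θ θ' hne) (gfA'_mul_gfA k θ θ' hne) (gf_compat k j a₀ b₀ θ θ' hsum hprod)

theorem pcls_simToSemi_iff (m : ℕ)
    (g : ↥(Cfsg.Geo.quadSimilarityGroup (F := F) ⇑(plusQF m F))) :
    pcls m (simToSemi ⇑(plusQF m F) g) = 1 ↔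
      Cfsg.PreservesSingularClasses ⇑(plusQF m F)
        ((g : GL (Fin m ⊕ Fin m) F) : Matrix (Fin m ⊕ Fin m) (Fin m ⊕ Fin m) F) :=
  (Cfsg.Agent.Lib.Helper8.PlusSemi.preserves_iff (plusQF m F) (plusQF_nondegenerate m F) m
    (finrank_plus m F) (stdE m F) (stdE_isMTS m F) (simToSemi ⇑(plusQF m F) g) rfl).symm

variable [Fintype F] [Fintype F₀]

set_option maxHeartbeats 1600000 in
/-- The embedded similarity preserves the classes iff the similarity over the subfield does. -/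
theorem gf_preserves_iff (k : ℕ) (hk2 : 2 ≤ k) (j : F₀ →+* F) (a₀ b₀ : F₀)
    (hab₀ : ∀ z₁ z₂ : F₀, z₁ ^ 2 + a₀ * z₁ * z₂ + b₀ * z₂ ^ 2 = 0 → z₁ = 0 ∧ z₂ = 0)
    (θ θ' : F) (hne : θ ≠ θ') (hsum : θ + θ' = -j a₀) (hprod : θ * θ' = j b₀)
    (d : ↥(Cfsg.Geo.quadSimilarityGroup (F := F₀) ⇑(minusQF k F₀ a₀ b₀))) :
    Cfsg.PreservesSingularClasses ⇑(plusQF (k + 1) F)
        ((gfHom k j a₀ b₀ θ θ' hne hsum hprod d : GL (Fin (k + 1) ⊕ Fin (k + 1)) F) :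
          Matrix (Fin (k + 1) ⊕ Fin (k + 1)) (Fin (k + 1) ⊕ Fin (k + 1)) F) ↔
      Cfsg.PreservesSingularClassesMinus k a₀ b₀
        ((d : GL ((Fin k ⊕ Fin k) ⊕ Fin 2) F₀) :
          Matrix ((Fin k ⊕ Fin k) ⊕ Fin 2) ((Fin k ⊕ Fin k) ⊕ Fin 2) F₀) := by
  have hQ₀ := Cfsg.Agent.Lib.Helper44.minusQF_nondegenerate_all k F₀ a₀ b₀ hab₀
  by_cases h2c : (2 : F) = 0
  · have h2₀ : (2 : F₀) = 0 := by
      apply j.injective
      rw [map_ofNat, h2c, map_zero]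
    obtain ⟨t₀, s₀, ht₀, hs₀⟩ := char2_sim_decomp h2₀ k a₀ b₀ d
    obtain ⟨l, hl, rfl⟩ := Cfsg.Agent.Lib.Helper44.exists_eq_prodElt_all (minusQF k F₀ a₀ b₀) hQ₀
      (Or.inr (by rw [minus_card_idx]; omega)) s₀
    rw [Cfsg.Agent.Lib.Helper44.prodElt_coe] at hs₀
    have hmat : ((gfHom k j a₀ b₀ θ θ' hne hsum hprod d : GL (Fin (k + 1) ⊕ Fin (k + 1)) F) :
          Matrix (Fin (k + 1) ⊕ Fin (k + 1)) (Fin (k + 1) ⊕ Fin (k + 1)) F) =
        j t₀ • ((l.map (fun u : (Fin k ⊕ Fin k) ⊕ Fin 2 → F₀ =>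
          gfA k θ θ' *ᵥ fun i => j (u i))).map
            (Cfsg.reflectionMatrix ⇑(plusQF (k + 1) F))).prod := by
      unfold gfHom
      rw [rframeHom_coe, hs₀, Matrix.map_smul' _ _ _ (map_mul j), Matrix.mul_smul,
        Matrix.smul_mul, rframe_prod_refl j _ _ _ _ (gfA_mul_gfA' k θ θ' hne)
          (gfA'_mul_gfA k θ θ' hne) (gf_compat k j a₀ b₀ θ θ' hsum hprod)]
    have hl' : ∀ u ∈ l.map (fun u : (Fin k ⊕ Fin k) ⊕ Fin 2 → F₀ =>
        gfA k θ θ' *ᵥ fun i => j (u i)), plusQF (k + 1) F u ≠ 0 := by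
      intro u hu
      obtain ⟨u', hu', rfl⟩ := List.mem_map.mp hu
      rw [gf_compat k j a₀ b₀ θ θ' hsum hprod]
      exact (map_ne_zero j).mpr (hl u' hu')
    rw [hmat, preserves_smul _ _ ((map_ne_zero j).mpr ht₀),
      preserves_iff_prod (plusQF (k + 1) F) (plusQF_nondegenerate (k + 1) F) (k + 1)
        (finrank_plus (k + 1) F) (stdE (k + 1) F) (stdE_isMTS (k + 1) F) _ hl', List.length_map,
      hs₀, minus_preserves_smul k a₀ b₀ t₀ ht₀, minus_preserves_prod k a₀ b₀ hab₀ l hl]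
  · have h2₀ : (2 : F₀) ≠ 0 := fun h => h2c (by rw [← map_ofNat j 2, h, map_zero])
    have hsim : ∀ x, Cfsg.quadFormPlus (k + 1) F
        (((gfHom k j a₀ b₀ θ θ' hne hsum hprod d : GL (Fin (k + 1) ⊕ Fin (k + 1)) F) :
          Matrix (Fin (k + 1) ⊕ Fin (k + 1)) (Fin (k + 1) ⊕ Fin (k + 1)) F) *ᵥ x) =
        j (simMult ⇑(minusQF k F₀ a₀ b₀) d : F₀) * Cfsg.quadFormPlus (k + 1) F x := by
      intro x
      have e := congrFun (plusQF_coe (k + 1) F)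
      rw [← e, ← e]
      exact rframeHom_sim j _ _ _ _ _ _ _ d x
    obtain ⟨G, hG⟩ : ∃ G : Matrix (Fin (k + 1) ⊕ Fin (k + 1)) (Fin (k + 1) ⊕ Fin (k + 1)) F,
        G = ((gfHom k j a₀ b₀ θ θ' hne hsum hprod d : GL (Fin (k + 1) ⊕ Fin (k + 1)) F) :
          Matrix (Fin (k + 1) ⊕ Fin (k + 1)) (Fin (k + 1) ⊕ Fin (k + 1)) F) := ⟨_, rfl⟩
    have hGu : IsUnit G.det := by
      rw [hG]
      exact (Matrix.isUnit_iff_isUnit_det _).mp (Units.isUnit _)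
    have hdet : G.det = j ((d : GL ((Fin k ⊕ Fin k) ⊕ Fin 2) F₀) :
        Matrix ((Fin k ⊕ Fin k) ⊕ Fin 2) ((Fin k ⊕ Fin k) ⊕ Fin 2) F₀).det := by
      rw [hG]
      unfold gfHom
      exact rframeHom_det j _ _ _ _ _ _ _ d
    rw [← hG] at hsim ⊢
    rw [plusQF_coe, Cfsg.Agent.Lib.Helper44.plus_preserves_iff h2c G _
        ((map_ne_zero j).mpr (simMult ⇑(minusQF k F₀ a₀ b₀) d).ne_zero) hGu hsim,
      minus_preserves_odd h2₀ k a₀ b₀ hab₀, hdet, ← map_pow]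
    exact ⟨fun h => j.injective h, fun h => congrArg j h⟩

set_option maxHeartbeats 1600000 in
/-- The centralizer of the standard graph-field automorphism in `Inndiag` is the image of the
class-preserving similarities over the fixed field. -/
theorem gf_centralizer_eq_map (k : ℕ) (hk2 : 2 ≤ k) (j : F₀ →+* F) (a₀ b₀ : F₀)
    (hab₀ : ∀ z₁ z₂ : F₀, z₁ ^ 2 + a₀ * z₁ * z₂ + b₀ * z₂ ^ 2 = 0 → z₁ = 0 ∧ z₂ = 0)
    (θ θ' : F) (hne : θ ≠ θ') (hsum : θ + θ' = -j a₀) (hprod : θ * θ' = j b₀)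
    (X₀ : PS (k + 1) F) (hj : IsFixEmb (X₀ : SemiGL (Fin (k + 1) ⊕ Fin (k + 1)) F).right j)
    (hXl : ((X₀ : SemiGL (Fin (k + 1) ⊕ Fin (k + 1)) F).left :
        Matrix (Fin (k + 1) ⊕ Fin (k + 1)) (Fin (k + 1) ⊕ Fin (k + 1)) F) =
      Cfsg.reflectionMatrix ⇑(plusQF (k + 1) F) (gfV k))
    (h1 : (X₀ : SemiGL (Fin (k + 1) ⊕ Fin (k + 1)) F).right θ = θ')
    (h2 : (X₀ : SemiGL (Fin (k + 1) ⊕ Fin (k + 1)) F).right θ' = θ) :
    (pN (k + 1) (F := F)).map (semiAut ⇑(plusQF (k + 1) F)) ⊓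
        Subgroup.centralizer {semiAut ⇑(plusQF (k + 1) F) X₀} =
      (hpSub k hk2 a₀ b₀ hab₀ _ rfl).map
        ((simAut ⇑(plusQF (k + 1) F)).comp (gfHom k j a₀ b₀ θ θ' hne hsum hprod)) := by
  have hS : ((X₀ : SemiGL (Fin (k + 1) ⊕ Fin (k + 1)) F).left :
        Matrix (Fin (k + 1) ⊕ Fin (k + 1)) (Fin (k + 1) ⊕ Fin (k + 1)) F) *
      (gfA k θ θ').map (X₀ : SemiGL (Fin (k + 1) ⊕ Fin (k + 1)) F).right = gfA k θ θ' := by
    rw [hXl]
    exact gf_frame_fixed k _ θ θ' h1 h2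
  ext β
  rw [Subgroup.mem_inf, Subgroup.mem_centralizer_iff, Subgroup.mem_map, Subgroup.mem_map]
  constructor
  · rintro ⟨⟨y, hy, rfl⟩, hc⟩
    obtain ⟨hy1, hy2⟩ := (mem_pN (k + 1) y).mp hy
    obtain ⟨g, rfl⟩ := exists_sim_of_right_eq_one _ y hy2
    have hcomm : semiAut ⇑(plusQF (k + 1) F) X₀ * simAut ⇑(plusQF (k + 1) F) g =
        simAut ⇑(plusQF (k + 1) F) g * semiAut ⇑(plusQF (k + 1) F) X₀ := by
      have h := hc _ (Set.mem_singleton _)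
      rw [semiAut_simToSemi] at h
      exact h
    obtain ⟨d, e, he0, hmat⟩ := rframe_exists_of_comm j (minusQF k F₀ a₀ b₀)
      (plusQF (k + 1) F) (gfA k θ θ') (gfA' k θ θ') (gfA_mul_gfA' k θ θ' hne)
      (gfA'_mul_gfA k θ θ' hne) (gf_compat k j a₀ b₀ θ θ' hsum hprod) (minus_quad_ne k a₀ b₀)
      (plusQF_nondegenerate (k + 1) F)
      (by rw [Cfsg.Agent.Lib.Helper44.plus_card]; omega) (stdE (k + 1) F)
      (by rw [(stdE_isMTS (k + 1) F).1]; omega) (stdE_isMTS (k + 1) F).2 X₀ hj hS g hcomm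
    refine ⟨d, ?_, ?_⟩
    · rw [mem_hpSub]
      have hpres := (pcls_simToSemi_iff (k + 1) g).mp hy1
      rw [hmat, preserves_smul _ e he0] at hpres
      exact (gf_preserves_iff k hk2 j a₀ b₀ hab₀ θ θ' hne hsum hprod d).mp hpres
    · rw [MonoidHom.comp_apply, semiAut_simToSemi]
      exact (Cfsg.Agent.Lib.Helper44.simAut_eq_of_smul _ g _ e hmat).symm
  · rintro ⟨d, hd, rfl⟩
    rw [MonoidHom.comp_apply]
    refine ⟨⟨simToSemi _ (gfHom k j a₀ b₀ θ θ' hne hsum hprod d), ?_,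
      semiAut_simToSemi _ _⟩, ?_⟩
    · rw [mem_pN]
      refine ⟨?_, rfl⟩
      exact (pcls_simToSemi_iff (k + 1) _).mpr
        ((gf_preserves_iff k hk2 j a₀ b₀ hab₀ θ θ' hne hsum hprod d).mpr hd)
    · intro y hy
      rw [Set.mem_singleton_iff] at hy
      subst hy
      exact rframe_comm_aut j (minusQF k F₀ a₀ b₀) (plusQF (k + 1) F) (gfA k θ θ')
        (gfA' k θ θ') (gfA_mul_gfA' k θ θ' hne) (gfA'_mul_gfA k θ θ' hne)
        (gf_compat k j a₀ b₀ θ θ' hsum hprod) X₀ hj hS d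

/-- **The centralizer of the standard graph-field automorphism in `Inndiag(PΩ⁺)`** is `Inndiag`
of the minus-type group over the fixed field. -/
theorem gf_centralizer_equiv (k : ℕ) (hk : 3 ≤ k) (hk2 : 2 ≤ k) (j : F₀ →+* F) (a₀ b₀ : F₀)
    (hab₀ : ∀ z₁ z₂ : F₀, z₁ ^ 2 + a₀ * z₁ * z₂ + b₀ * z₂ ^ 2 = 0 → z₁ = 0 ∧ z₂ = 0)
    (θ θ' : F) (hne : θ ≠ θ') (hsum : θ + θ' = -j a₀) (hprod : θ * θ' = j b₀)
    (X₀ : PS (k + 1) F) (hj : IsFixEmb (X₀ : SemiGL (Fin (k + 1) ⊕ Fin (k + 1)) F).right j)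
    (hXl : ((X₀ : SemiGL (Fin (k + 1) ⊕ Fin (k + 1)) F).left :
        Matrix (Fin (k + 1) ⊕ Fin (k + 1)) (Fin (k + 1) ⊕ Fin (k + 1)) F) =
      Cfsg.reflectionMatrix ⇑(plusQF (k + 1) F) (gfV k))
    (h1 : (X₀ : SemiGL (Fin (k + 1) ⊕ Fin (k + 1)) F).right θ = θ')
    (h2 : (X₀ : SemiGL (Fin (k + 1) ⊕ Fin (k + 1)) F).right θ' = θ)
    (Q₀f : ((Fin k ⊕ Fin k) ⊕ Fin 2 → F₀) → F₀) (hQ₀f : ⇑(minusQF k F₀ a₀ b₀) = Q₀f) :
    Nonempty (↥((pN (k + 1) (F := F)).map (semiAut ⇑(plusQF (k + 1) F)) ⊓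
        Subgroup.centralizer {semiAut ⇑(plusQF (k + 1) F) X₀}) ≃*
      ↥((hpSub k hk2 a₀ b₀ hab₀ Q₀f hQ₀f).map (simAut Q₀f))) := by
  subst hQ₀f
  rw [gf_centralizer_eq_map k hk2 j a₀ b₀ hab₀ θ θ' hne hsum hprod X₀ hj hXl h1 h2]
  apply nonempty_map_equiv_of_ker
  intro d _
  rw [MonoidHom.comp_apply]
  obtain ⟨E₀, hE₀, hE₀0⟩ := Cfsg.Agent.Lib.Helper44.minus_ts_three (F := F₀) k hk a₀ b₀
  exact rframe_simAut_eq_one_iff j (minusQF k F₀ a₀ b₀) (plusQF (k + 1) F) (gfA k θ θ')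
    (gfA' k θ θ') (gfA_mul_gfA' k θ θ' hne) (gfA'_mul_gfA k θ θ' hne)
    (gf_compat k j a₀ b₀ θ θ' hsum hprod) (plusQF_nondegenerate (k + 1) F) (stdE (k + 1) F)
    (by rw [(stdE_isMTS (k + 1) F).1]; omega) (stdE_isMTS (k + 1) F).2
    (Cfsg.Agent.Lib.Helper44.minusQF_nondegenerate_all k F₀ a₀ b₀ hab₀) E₀ hE₀ hE₀0
    (Sum.inr 0) d

end gfcent

end Cfsg.Agent.Lib.Helper14
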