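import Mathlib
import Cfsg.Prelude.Def_LieTypeDatum
import Cfsg.Agent.Lib.Helper14.GfC
import Cfsg.Agent.Lib.Helper44.PlusInnDiag
import Cfsg.Agent.Lib.Helper8.GraphInvSplit
import Cfsg.Agent.Lib.Helper45.QuadRoots

/-!
Squares and norms in a quadratic extension of finite fields, and the image of the centralizer
of the standard graph-field automorphism of `PΩ⁺` in `Inndiag / Inn`.
-/

set_option autoImplicit false

namespace Cfsg.Agent.Lib.Helper14

open Matrix Module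
open Cfsg.Agent.Lib.Helper44 (simAut simMult simMult_spec dickson isomAut)
open Cfsg.Agent.Lib.Helper43.FieldAut (IsFixEmb)
open Cfsg.Agent.Lib.Helper8.PlusCoset (PS pcls pN mem_pN)

section numtheory

universe u u₀

variable {F : Type u} [Field F] [Fintype F] {F₀ : Type u₀} [Field F₀] [Fintype F₀]

omit [Fintype F] in
theorem sigma_sigma (σ : RingAut F) (hσ : orderOf σ = 2) (x : F) : σ (σ x) = x := by
  have h := pow_orderOf_eq_one σ
  rw [hσ, pow_two] at h
  have h' := congrArg (fun τ : RingAut F => τ x) h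
  exact h'

/-- Every element of the fixed field of an involutory automorphism is a square. -/
theorem isSquare_of_fix (σ : RingAut F) (hσ : orderOf σ = 2) (j : F₀ →+* F)
    (hj : IsFixEmb σ j) (c₀ : F₀) : IsSquare (j c₀) := by
  by_cases hc : IsSquare c₀
  · obtain ⟨s, rfl⟩ := hc
    exact ⟨j s, map_mul j s s⟩
  · have hq := Cfsg.Agent.Lib.Helper8.OCent.card_eq_pow_order σ j hj
    rw [hσ] at hq
    have hac : ∀ z₁ z₂ : F₀, z₁ ^ 2 + 0 * z₁ * z₂ + (-c₀) * z₂ ^ 2 = 0 → z₁ = 0 ∧ z₂ = 0 := by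
      intro z₁ z₂ h
      have hz₂ : z₂ = 0 := by
        by_contra hz
        apply hc
        refine ⟨z₁ / z₂, ?_⟩
        field_simp
        linear_combination -h
      refine ⟨?_, hz₂⟩
      rw [hz₂] at h
      have h' : z₁ ^ 2 = 0 := by linear_combination h
      exact (pow_eq_zero_iff two_ne_zero).mp h'
    obtain ⟨α, β, -, hsum, hprod⟩ :=
      Cfsg.Agent.Lib.Helper45.exists_roots_of_anisotropic rfl hq j 0 (-c₀) hac
    refine ⟨α, ?_⟩
    rw [map_zero, neg_zero] at hsum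
    rw [map_neg] at hprod
    linear_combination hprod - α * hsum

omit [Fintype F] [Fintype F₀] in
theorem norm_fix (σ : RingAut F) (hσ : orderOf σ = 2) (j : F₀ →+* F) (hj : IsFixEmb σ j)
    (η : F) : ∃ c₀ : F₀, j c₀ = η * σ η := by
  apply (hj _).mp
  rw [map_mul, sigma_sigma σ hσ, mul_comm]

omit [Fintype F] [Fintype F₀] in
theorem not_isSquare_of_norm (σ : RingAut F) (hσ : orderOf σ = 2) (j : F₀ →+* F)
    (hj : IsFixEmb σ j) (ξ : F) (μ₀ : F₀) (hμ₀ : ¬ IsSquare μ₀) (hξ : ξ * σ ξ = j μ₀) :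
    ¬ IsSquare ξ := by
  rintro ⟨η, rfl⟩
  obtain ⟨c₀, hc₀⟩ := norm_fix σ hσ j hj η
  apply hμ₀
  refine ⟨c₀, ?_⟩
  apply j.injective
  rw [map_mul, hc₀, ← hξ, map_mul]
  ring

/-- A square root of a non-square of the fixed field is a square iff `q₀ ≡ 3 (mod 4)`. -/
theorem isSquare_sqrt_iff (h2 : (2 : F) ≠ 0) (σ : RingAut F) (hσ : orderOf σ = 2)
    (j : F₀ →+* F) (hj : IsFixEmb σ j) (ν : F) (μ₀ : F₀) (hμ₀ : ¬ IsSquare μ₀)
    (hν : ν * ν = j μ₀) : IsSquare ν ↔ Fintype.card F₀ % 4 = 3 := by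
  have hσν : σ ν = -ν := by
    have h1 : σ ν * σ ν = ν * ν := by
      rw [← map_mul, hν]
      exact (hj _).mpr ⟨μ₀, rfl⟩
    have h2' : (σ ν - ν) * (σ ν + ν) = 0 := by linear_combination h1
    rcases mul_eq_zero.mp h2' with h | h
    · exfalso
      obtain ⟨c₀, hc₀⟩ := (hj ν).mp (sub_eq_zero.mp h)
      apply hμ₀
      refine ⟨c₀, j.injective ?_⟩
      rw [map_mul, hc₀, hν]
    · exact eq_neg_of_add_eq_zero_left h
  constructor
  · rintro ⟨η, hη⟩
    obtain ⟨c₀, hc₀⟩ := norm_fix σ hσ j hj η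
    have hc : c₀ * c₀ = -μ₀ := by
      apply j.injective
      rw [map_mul, hc₀, map_neg, ← hν]
      have e1 : σ ν = σ η * σ η := by rw [hη, map_mul]
      have e : η * σ η * (η * σ η) = (η * η) * (σ η * σ η) := by ring
      rw [e, ← hη, ← e1, hσν]
      ring
    by_contra h3
    have hneg : IsSquare (-1 : F₀) := FiniteField.isSquare_neg_one_iff.mpr h3
    obtain ⟨i₀, hi₀⟩ := hneg
    apply hμ₀
    refine ⟨i₀ * c₀, ?_⟩
    linear_combination hc + c₀ * c₀ * hi₀
  · intro h3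
    have hneg : ¬ IsSquare (-1 : F₀) := fun h => (FiniteField.isSquare_neg_one_iff.mp h) h3
    obtain ⟨c₀, hc₀⟩ : IsSquare (-1 * μ₀) := isSquare_mul_of_not_isSquare hneg hμ₀
    obtain ⟨i, hi⟩ : IsSquare (j (-1)) := isSquare_of_fix σ hσ j hj (-1)
    obtain ⟨t, ht⟩ : IsSquare (j 2) := isSquare_of_fix σ hσ j hj 2
    obtain ⟨s, hs⟩ : IsSquare (j c₀) := isSquare_of_fix σ hσ j hj c₀
    rw [map_neg, map_one] at hi
    rw [map_ofNat] at ht
    have ht0 : t ≠ 0 := by
      rintro rfl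
      exact h2 (by rw [ht, mul_zero])
    have hi2 : i = ((1 + i) / t) * ((1 + i) / t) := by
      field_simp
      linear_combination (-i) * ht + hi
    obtain ⟨w, hw⟩ : ∃ w : F, i = w * w := ⟨_, hi2⟩
    have e : j (-1 * μ₀) = j c₀ * j c₀ := by rw [hc₀, map_mul]
    rw [map_mul, map_neg, map_one] at e
    have hν2 : (ν - i * j c₀) * (ν + i * j c₀) = 0 := by
      linear_combination hν - e + (j c₀ * j c₀) * hi
    rcases mul_eq_zero.mp hν2 with h | h
    · refine ⟨w * s, ?_⟩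
      have h' : ν = i * j c₀ := sub_eq_zero.mp h
      rw [h', hs, hw]
      ring
    · refine ⟨i * w * s, ?_⟩
      have h' : ν = -(i * j c₀) := eq_neg_of_add_eq_zero_left h
      have e3 : i * w * s * (i * w * s) = (i * i) * (w * w) * (s * s) := by ring
      rw [h', hs, e3, ← hw, ← hi]
      ring

/-- The square class of the determinant of the Levi element. -/
theorem isSquare_levi_det_iff (ν ξ : F) (hν0 : ν ≠ 0) (hξ : ¬ IsSquare ξ) (k : ℕ) :
    IsSquare (ν ^ k * (ξ / ν)) ↔ ¬ IsSquare ν ∧ Odd (k + 1) := by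
  have e : ν ^ k * (ξ / ν) * (ν * ν) = ν ^ (k + 1) * ξ := by
    field_simp
    ring
  have hiff : IsSquare (ν ^ k * (ξ / ν)) ↔ IsSquare (ν ^ (k + 1) * ξ) := by
    constructor
    · rintro ⟨y, hy⟩
      refine ⟨y * ν, ?_⟩
      rw [← e, hy]
      ring
    · rintro ⟨y, hy⟩
      refine ⟨y / ν, ?_⟩
      rw [← e] at hy
      rw [div_mul_div_comm, ← hy, mul_div_assoc, div_self (mul_ne_zero hν0 hν0), mul_one]
  rw [hiff]
  by_cases hsq : IsSquare ν
  · have h1 : IsSquare (ν ^ (k + 1)) := hsq.pow _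
    have h2 : ¬ IsSquare (ν ^ (k + 1) * ξ) :=
      not_isSquare_mul_of_isSquare h1 (pow_ne_zero _ hν0) hξ
    exact ⟨fun h => absurd h h2, fun h => absurd hsq h.1⟩
  · rcases Nat.even_or_odd (k + 1) with he | ho
    · have h1 : IsSquare (ν ^ (k + 1)) :=
        (Cfsg.Agent.Lib.Helper44.isSquare_pow_iff_even hsq (k + 1)).mpr he
      have h2 := not_isSquare_mul_of_isSquare h1 (pow_ne_zero _ hν0) hξ
      exact ⟨fun h => absurd h h2, fun h => absurd he (Nat.not_even_iff_odd.mpr h.2)⟩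
    · have h1 : ¬ IsSquare (ν ^ (k + 1)) := fun h =>
        (Nat.not_even_iff_odd.mpr ho)
          ((Cfsg.Agent.Lib.Helper44.isSquare_pow_iff_even hsq (k + 1)).mp h)
      exact ⟨fun _ => ⟨hsq, ho⟩, fun _ => isSquare_mul_of_not_isSquare h1 hξ⟩

theorem card_odd_of_two_ne_zero (h2 : (2 : F) ≠ 0) : Odd (Fintype.card F) := by
  rw [Nat.odd_iff]
  have h : ringChar F ≠ 2 := by
    intro h
    apply h2
    have h' := CharP.cast_eq_zero F (ringChar F)
    rw [h] at h'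
    exact_mod_cast h'
  have h3 := (FiniteField.even_card_iff_char_two (F := F)).not.mp h
  omega

end numtheory

section gfgam

variable {F : Type*} [Field F] (k : ℕ)

/-- The diagonal of the standard similarity with prescribed multiplier. -/
def gfGam (c ξ ξ' : F) : Fin (k + 1) ⊕ Fin (k + 1) → F :=
  Sum.elim (Fin.snoc (α := fun _ => F) (fun _ => c) ξ) (Fin.snoc (α := fun _ => F) (fun _ => 1) ξ')

theorem gfGam_inl_castSucc (c ξ ξ' : F) (i : Fin k) :
    gfGam k c ξ ξ' (Sum.inl (Fin.castSucc i)) = c := by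
  simp only [gfGam, Sum.elim_inl, Fin.snoc_castSucc]

theorem gfGam_inr_castSucc (c ξ ξ' : F) (i : Fin k) :
    gfGam k c ξ ξ' (Sum.inr (Fin.castSucc i)) = 1 := by
  simp only [gfGam, Sum.elim_inr, Fin.snoc_castSucc]

theorem gfGam_inl_last (c ξ ξ' : F) : gfGam k c ξ ξ' (Sum.inl (Fin.last k)) = ξ := by
  simp only [gfGam, Sum.elim_inl, Fin.snoc_last]

theorem gfGam_inr_last (c ξ ξ' : F) : gfGam k c ξ ξ' (Sum.inr (Fin.last k)) = ξ' := by
  simp only [gfGam, Sum.elim_inr, Fin.snoc_last]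

theorem gfGam_sim (c ξ ξ' : F) (hξ : ξ * ξ' = c) (v : Fin (k + 1) ⊕ Fin (k + 1) → F) :
    Cfsg.quadFormPlus (k + 1) F (Matrix.diagonal (gfGam k c ξ ξ') *ᵥ v) =
      c * Cfsg.quadFormPlus (k + 1) F v := by
  unfold Cfsg.quadFormPlus
  rw [Fin.sum_univ_castSucc, Fin.sum_univ_castSucc, mul_add, Finset.mul_sum]
  simp only [Matrix.mulVec_diagonal, gfGam_inl_castSucc, gfGam_inr_castSucc, gfGam_inl_last,
    gfGam_inr_last]
  congr 1
  · apply Finset.sum_congr rfl
    intro i _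
    ring
  · rw [← hξ]
    ring

theorem gfGam_det (c ξ ξ' : F) :
    (Matrix.diagonal (gfGam k c ξ ξ')).det = c ^ k * (ξ * ξ') := by
  rw [Matrix.det_diagonal, Fintype.prod_sum_type, Fin.prod_univ_castSucc, Fin.prod_univ_castSucc]
  simp only [gfGam_inl_castSucc, gfGam_inr_castSucc, gfGam_inl_last, gfGam_inr_last,
    Finset.prod_const, Finset.card_univ, Fintype.card_fin, one_pow, one_mul]
  ring

theorem gfGam_map (σ : RingAut F) (c ξ ξ' : F) :
    (Matrix.diagonal (gfGam k c ξ ξ')).map σ = Matrix.diagonal (gfGam k (σ c) (σ ξ) (σ ξ')) := by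
  rw [Matrix.diagonal_map (map_zero σ)]
  congr 1
  funext i
  rcases i with i | i
  · refine Fin.lastCases ?_ (fun i => ?_) i
    · rw [gfGam_inl_last, gfGam_inl_last]
    · rw [gfGam_inl_castSucc, gfGam_inl_castSucc]
  · refine Fin.lastCases ?_ (fun i => ?_) i
    · rw [gfGam_inr_last, gfGam_inr_last]
    · rw [gfGam_inr_castSucc, gfGam_inr_castSucc, map_one]

/-- The standard similarity commutes with the standard graph-field semisimilarity. -/
theorem gfGam_comm (c ξ ξ' : F) :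
    Cfsg.reflectionMatrix ⇑(plusQF (k + 1) F) (gfV k) * Matrix.diagonal (gfGam k c ξ' ξ) =
      Matrix.diagonal (gfGam k c ξ ξ') * Cfsg.reflectionMatrix ⇑(plusQF (k + 1) F) (gfV k) := by
  rw [Matrix.ext_iff_mulVec]
  intro x
  rw [← mulVec_mulVec, ← mulVec_mulVec, gf_refl_apply, gf_refl_apply]
  funext i
  rcases i with i | i
  · refine Fin.lastCases ?_ (fun i => ?_) i
    · simp only [Pi.add_apply, Pi.smul_apply, Matrix.mulVec_diagonal, gfV_inl_last,
        gfGam_inl_last, gfGam_inr_last, smul_eq_mul]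
      ring
    · simp only [Pi.add_apply, Pi.smul_apply, Matrix.mulVec_diagonal, gfV_inl_castSucc,
        gfGam_inl_castSucc, smul_eq_mul]
      ring
  · refine Fin.lastCases ?_ (fun i => ?_) i
    · simp only [Pi.add_apply, Pi.smul_apply, Matrix.mulVec_diagonal, gfV_inr_last,
        gfGam_inl_last, gfGam_inr_last, smul_eq_mul]
      ring
    · simp only [Pi.add_apply, Pi.smul_apply, Matrix.mulVec_diagonal, gfV_inr_castSucc,
        gfGam_inr_castSucc, smul_eq_mul]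
      ring

theorem snoc_diag_det (ν ζ : F) :
    (Matrix.diagonal (Fin.snoc (α := fun _ => F) (fun _ : Fin k => ν) ζ)).det = ν ^ k * ζ := by
  rw [Matrix.det_diagonal, Fin.prod_univ_castSucc]
  simp only [Fin.snoc_castSucc, Fin.snoc_last, Finset.prod_const, Finset.card_univ,
    Fintype.card_fin]

/-- The standard similarity is a scalar multiple of a Levi element. -/
theorem gfGam_levi (ν ξ : F) (hν : ν ≠ 0) (hξ : ξ ≠ 0) :
    Matrix.diagonal (gfGam k (ν * ν) ξ (ν * ν / ξ)) =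
      ν • Matrix.fromBlocks
        (Matrix.diagonal (Fin.snoc (α := fun _ => F) (fun _ : Fin k => ν) (ξ / ν))) 0 0
        ((Matrix.diagonal (Fin.snoc (α := fun _ => F) (fun _ : Fin k => ν) (ξ / ν)))⁻¹)ᵀ := by
  have hinv : (Matrix.diagonal (Fin.snoc (α := fun _ => F) (fun _ : Fin k => ν) (ξ / ν)))⁻¹ =
      Matrix.diagonal (Fin.snoc (α := fun _ => F) (fun _ : Fin k => ν⁻¹) (ν / ξ)) := by
    apply Matrix.inv_eq_right_inv
    rw [Matrix.diagonal_mul_diagonal, ← Matrix.diagonal_one]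
    congr 1
    funext i
    refine Fin.lastCases ?_ (fun i => ?_) i
    · simp only [Fin.snoc_last, Pi.one_apply]
      field_simp
    · simp only [Fin.snoc_castSucc, Pi.one_apply]
      field_simp
  rw [hinv, Matrix.diagonal_transpose, Matrix.fromBlocks_diagonal, ← Matrix.diagonal_smul]
  congr 1
  funext i
  rcases i with i | i
  · refine Fin.lastCases ?_ (fun i => ?_) i
    · simp only [gfGam_inl_last, Pi.smul_apply, Sum.elim_inl, Fin.snoc_last, smul_eq_mul]
      field_simp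
    · simp only [gfGam_inl_castSucc, Pi.smul_apply, Sum.elim_inl, Fin.snoc_castSucc, smul_eq_mul]
  · refine Fin.lastCases ?_ (fun i => ?_) i
    · simp only [gfGam_inr_last, Pi.smul_apply, Sum.elim_inr, Fin.snoc_last, smul_eq_mul]
      field_simp
    · simp only [gfGam_inr_castSucc, Pi.smul_apply, Sum.elim_inr, Fin.snoc_castSucc, smul_eq_mul]
      field_simp

theorem plus_quad_ne (m : ℕ) (hm : 1 ≤ m) : ∃ v, plusQF m F v ≠ 0 := by
  obtain ⟨w, hw, -⟩ := Cfsg.Agent.Lib.Helper8.PlusCoset.exists_prime_nonsing (F := F) m hm 1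
  exact ⟨w, hw⟩

end gfgam

section transfer

variable {F : Type*} [Field F] [Fintype F]

/-- Membership of a Levi element in `Ω`, for a carrier equal to the hyperbolic form. -/
theorem levi_mem_omega_gen (m : ℕ) (hm : 1 ≤ m) (h : Fintype.card F ≠ 2 ∨ m ≠ 2)
    (Qf : (Fin m ⊕ Fin m → F) → F) (hQf : Qf = Cfsg.quadFormPlus m F)
    (A : GL (Fin m) F) (s : ↥(Cfsg.isometryGroup F Qf))
    (hs : ((s : GL (Fin m ⊕ Fin m) F) : Matrix (Fin m ⊕ Fin m) (Fin m ⊕ Fin m) F) =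
      Matrix.fromBlocks (A : Matrix (Fin m) (Fin m) F) 0 0 ((A : Matrix (Fin m) (Fin m) F)⁻¹)ᵀ) :
    s ∈ Cfsg.Omega F Qf ↔ IsSquare (A : Matrix (Fin m) (Fin m) F).det := by
  subst hQf
  have e : s = leviIsom m F A := isom_ext (by rw [hs, leviIsom_coe])
  rw [e]
  exact leviIsom_mem_omega_iff hm h A

theorem neg_one_mem_gen (hodd : Odd (Fintype.card F)) (m : ℕ)
    (hnot : ¬ (Odd m ∧ Fintype.card F % 4 = 3))
    (Qf : (Fin m ⊕ Fin m → F) → F) (hQf : Qf = Cfsg.quadFormPlus m F) :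
    ∃ g : ↥(Cfsg.isometryGroup F Qf), g ∈ Cfsg.Omega F Qf ∧
      ((g : GL (Fin m ⊕ Fin m) F) : Matrix (Fin m ⊕ Fin m) (Fin m ⊕ Fin m) F) = -1 := by
  subst hQf
  exact (Cfsg.Agent.Lib.Helper44.plus_neg_one_iff hodd m).mpr hnot

/-- `|Inndiag : Inn| = 4` for `PΩ⁺_{2m}(q)` with `q ≡ 1 (mod 4)`. -/
theorem gf_index_four (hodd : Odd (Fintype.card F)) (hq : Fintype.card F % 4 = 1) (m : ℕ)
    (hm : 3 ≤ m) :
    (Cfsg.Inn (Cfsg.POmega F ⇑(plusQF m F))).relIndex
      ((pN m (F := F)).map (semiAut ⇑(plusQF m F))) = 4 := by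
  have h0 : (Cfsg.Inn (Cfsg.POmega F (Cfsg.quadFormPlus m F))).relIndex
      (Cfsg.inndiagPOmegaPlus m F) = 4 := by
    obtain ⟨-, h2, h3⟩ := Cfsg.Agent.Lib.Helper44.plus_inndiag_inn hodd m hm
    rcases Nat.even_or_odd m with he | ho
    · obtain ⟨φ, hs, hk⟩ := h3 he
      rw [Cfsg.Agent.Lib.Helper8.GraphInvSplit.relIndex_of_hom _ _ φ hs hk]
      simp [Nat.card_eq_fintype_card]
    · obtain ⟨φ, hs, hk⟩ := h2 ⟨ho, hq⟩
      rw [Cfsg.Agent.Lib.Helper8.GraphInvSplit.relIndex_of_hom _ _ φ hs hk]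
      simp [Nat.card_eq_fintype_card]
  have key : ∀ Qf : (Fin m ⊕ Fin m → F) → F, Qf = Cfsg.quadFormPlus m F →
      (Cfsg.Inn (Cfsg.POmega F Qf)).relIndex
        (Subgroup.closure {β : MulAut (Cfsg.POmega F Qf) | ∃ g : GL (Fin m ⊕ Fin m) F,
          g ∈ Cfsg.Geo.quadSimilarityGroup (F := F) Qf ∧
          Cfsg.PreservesSingularClasses Qf (g : Matrix (Fin m ⊕ Fin m) (Fin m ⊕ Fin m) F) ∧
          Cfsg.IsInducedBySemilinearPOmega Qf g (RingEquiv.refl F) β}) = 4 := by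
    intro Qf hQf
    subst hQf
    exact h0
  have h1 := key _ (plusQF_coe m F)
  rw [Cfsg.Agent.Lib.Helper8.PlusSemi.closure_eq_map (plusQF m F) (plusQF_nondegenerate m F) m
    (finrank_plus m F) (stdE m F) (stdE_isMTS m F)] at h1
  exact h1

/-- The inner automorphisms are inner-diagonal. -/
theorem inn_le_pN (m : ℕ) (hm : 3 ≤ m) :
    Cfsg.Inn (Cfsg.POmega F ⇑(plusQF m F)) ≤ (pN m (F := F)).map (semiAut ⇑(plusQF m F)) := by
  have hQ := plusQF_nondegenerate m F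
  have hcd := Cfsg.Agent.Lib.Helper44.exists_eq_prodElt_all (plusQF m F) hQ
    (Or.inr (by rw [Cfsg.Agent.Lib.Helper44.plus_card]; omega))
  rw [Cfsg.Agent.Lib.Helper44.inn_eq_map]
  rintro β ⟨ω, hω, rfl⟩
  obtain ⟨ω', hω'⟩ : ∃ ω' : ↥(Cfsg.Geo.quadSimilarityGroup (F := F) ⇑(plusQF m F)),
      (ω' : GL (Fin m ⊕ Fin m) F) = (ω : GL (Fin m ⊕ Fin m) F) :=
    ⟨⟨ω, Cfsg.Agent.Lib.Helper44.isometryGroup_le_sim _ ω.2⟩, rfl⟩
  refine ⟨simToSemi _ ω', ?_, ?_⟩
  · rw [SetLike.mem_coe, mem_pN]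
    refine ⟨?_, rfl⟩
    rw [pcls_simToSemi_iff, hω']
    have hev := Cfsg.Agent.Lib.Helper44.even_rank_of_mem_commutator (plusQF m F) hQ hcd hω
    obtain ⟨l, hl, rfl⟩ := hcd ω
    rw [Cfsg.Agent.Lib.Helper44.prodElt_coe, preserves_iff_prod (plusQF m F) hQ m
      (finrank_plus m F) (stdE m F) (stdE_isMTS m F) l hl]
    have hr := Cfsg.Agent.Lib.Helper44.rank_prodElt (plusQF m F) hQ l hl
    rw [Nat.even_iff] at hev ⊢
    omega
  · rw [semiAut_simToSemi]
    exact simAut_of_isom _ ω ω' hω'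

end transfer

end Cfsg.Agent.Lib.Helper14
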