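import Mathlib
import Cfsg.Prelude.Def_LieTypeDatum
import Cfsg.Agent.Lib.Helper14.GfD

/-!
The image in `Inndiag / Inn` of the centralizer of the standard graph-field automorphism of
`PΩ⁺_{2k+2}(F)`, and the number of `Inn`-classes in its `Inndiag`-class.
-/

set_option autoImplicit false

namespace Cfsg.Agent.Lib.Helper14

open Matrix Module
open Cfsg.Agent.Lib.Helper44 (simAut simMult simMult_spec dickson isomAut)
open Cfsg.Agent.Lib.Helper43.FieldAut (IsFixEmb)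
open Cfsg.Agent.Lib.Helper8.PlusCoset (PS pcls pN mem_pN)

section gfcount

universe u u₀

variable {F : Type u} [Field F] [Fintype F] {F₀ : Type u₀} [Field F₀] [Fintype F₀]

set_option maxHeartbeats 3200000 in
/-- Embedded similarities with square multiplier induce inner automorphisms. -/
theorem gf_square_mem_inn (h2c : (2 : F) ≠ 0) (σ : RingAut F) (hσ : orderOf σ = 2) (k : ℕ)
    (hk2 : 2 ≤ k) (j : F₀ →+* F) (hj : IsFixEmb σ j) (a₀ b₀ : F₀)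
    (hab₀ : ∀ z₁ z₂ : F₀, z₁ ^ 2 + a₀ * z₁ * z₂ + b₀ * z₂ ^ 2 = 0 → z₁ = 0 ∧ z₂ = 0)
    (θ θ' : F) (hne : θ ≠ θ') (hsum : θ + θ' = -j a₀) (hprod : θ * θ' = j b₀)
    (d : ↥(Cfsg.Geo.quadSimilarityGroup (F := F₀) ⇑(minusQF k F₀ a₀ b₀)))
    (hd : d ∈ hpSub k hk2 a₀ b₀ hab₀ _ rfl)
    (hsq : IsSquare (simMult ⇑(minusQF k F₀ a₀ b₀) d : F₀)) :
    simAut ⇑(plusQF (k + 1) F) (gfHom k j a₀ b₀ θ θ' hne hsum hprod d) ∈
      Cfsg.Inn (Cfsg.POmega F ⇑(plusQF (k + 1) F)) := by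
  have h2₀ : (2 : F₀) ≠ 0 := fun h => h2c (by rw [← map_ofNat j 2, h, map_zero])
  have hQ₀ := Cfsg.Agent.Lib.Helper44.minusQF_nondegenerate_all k F₀ a₀ b₀ hab₀
  have hQ := plusQF_nondegenerate (k + 1) F
  obtain ⟨t, ht⟩ := hsq
  have ht0 : t ≠ 0 := by
    rintro rfl
    exact (simMult ⇑(minusQF k F₀ a₀ b₀) d).ne_zero (by rw [ht, mul_zero])
  obtain ⟨G, hG⟩ : ∃ G : Matrix ((Fin k ⊕ Fin k) ⊕ Fin 2) ((Fin k ⊕ Fin k) ⊕ Fin 2) F₀,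
      G = ((d : GL ((Fin k ⊕ Fin k) ⊕ Fin 2) F₀) :
        Matrix ((Fin k ⊕ Fin k) ⊕ Fin 2) ((Fin k ⊕ Fin k) ⊕ Fin 2) F₀) := ⟨_, rfl⟩
  have hGsim : ∀ v, minusQF k F₀ a₀ b₀ (G *ᵥ v) = (t * t) * minusQF k F₀ a₀ b₀ v := by
    intro v
    rw [hG, ← ht]
    exact simMult_spec _ d v
  have hGdet : G.det = (t * t) ^ (k + 1) := by
    rw [mem_hpSub, minus_preserves_odd h2₀ k a₀ b₀ hab₀, ht] at hd
    rw [hG]
    exact hd
  have hdet1 : (t⁻¹ • G).det = 1 := by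
    rw [Matrix.det_smul, minus_card_idx, hGdet]
    have e : (t * t) ^ (k + 1) = t ^ (2 * k + 2) := by ring
    rw [e, ← mul_pow, inv_mul_cancel₀ ht0, one_pow]
  obtain ⟨g₁, hg₁⟩ : ∃ g₁ : ↥(Cfsg.isometryGroup F₀ ⇑(minusQF k F₀ a₀ b₀)),
      ((g₁ : GL ((Fin k ⊕ Fin k) ⊕ Fin 2) F₀) :
        Matrix ((Fin k ⊕ Fin k) ⊕ Fin 2) ((Fin k ⊕ Fin k) ⊕ Fin 2) F₀) = t⁻¹ • G :=
    ⟨⟨Matrix.GeneralLinearGroup.mkOfDetNeZero (t⁻¹ • G) (by rw [hdet1]; exact one_ne_zero),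
      (mem_isometryGroup_iff _ _).mpr (fun v => by
        show minusQF k F₀ a₀ b₀ ((t⁻¹ • G) *ᵥ v) = minusQF k F₀ a₀ b₀ v
        rw [Matrix.smul_mulVec, QuadraticMap.map_smul, hGsim, smul_eq_mul]
        field_simp)⟩, rfl⟩
  obtain ⟨l, hl, rfl⟩ := exists_eq_prodElt h2₀ (minusQF k F₀ a₀ b₀) hQ₀ g₁
  rw [Cfsg.Agent.Lib.Helper44.prodElt_coe] at hg₁
  have hlen : Even l.length := by
    have h := det_prod_reflectionMatrix (minusQF k F₀ a₀ b₀) l hl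
    rw [hg₁, hdet1] at h
    by_contra hodd
    rw [Nat.not_even_iff_odd] at hodd
    rw [hodd.neg_one_pow] at h
    apply h2₀
    linear_combination h
  obtain ⟨l', hl'def⟩ : ∃ l' : List (Fin (k + 1) ⊕ Fin (k + 1) → F),
      l' = l.map (fun u : (Fin k ⊕ Fin k) ⊕ Fin 2 → F₀ => gfA k θ θ' *ᵥ fun i => j (u i)) :=
    ⟨_, rfl⟩
  have hl' : ∀ u ∈ l', plusQF (k + 1) F u ≠ 0 := by
    intro u hu
    rw [hl'def] at hu
    obtain ⟨u', hu', rfl⟩ := List.mem_map.mp hu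
    rw [gf_compat k j a₀ b₀ θ θ' hsum hprod]
    exact (map_ne_zero j).mpr (hl u' hu')
  have hmat : ((gfHom k j a₀ b₀ θ θ' hne hsum hprod d : GL (Fin (k + 1) ⊕ Fin (k + 1)) F) :
        Matrix (Fin (k + 1) ⊕ Fin (k + 1)) (Fin (k + 1) ⊕ Fin (k + 1)) F) =
      j t • (((prodElt (plusQF (k + 1) F) hQ l' hl' :
        ↥(Cfsg.isometryGroup F ⇑(plusQF (k + 1) F))) : GL (Fin (k + 1) ⊕ Fin (k + 1)) F) :
          Matrix (Fin (k + 1) ⊕ Fin (k + 1)) (Fin (k + 1) ⊕ Fin (k + 1)) F) := by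
    rw [Cfsg.Agent.Lib.Helper44.prodElt_coe]
    subst hl'def
    unfold gfHom
    rw [rframeHom_coe, ← rframe_prod_refl j _ _ _ _ (gfA_mul_gfA' k θ θ' hne)
      (gfA'_mul_gfA k θ θ' hne) (gf_compat k j a₀ b₀ θ θ' hsum hprod), hg₁, hG,
      Matrix.map_smul' _ _ _ (map_mul j), Matrix.mul_smul, Matrix.smul_mul, smul_smul,
      ← map_mul, mul_inv_cancel₀ ht0, map_one, one_smul]
  have hΩ : prodElt (plusQF (k + 1) F) hQ l' hl' ∈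
      commutator ↥(Cfsg.isometryGroup F ⇑(plusQF (k + 1) F)) := by
    rw [prodElt_mem_commutator_iff h2c]
    refine ⟨by rw [hl'def, List.length_map]; exact hlen, ?_⟩
    apply List.prod_induction IsSquare (fun a b ha hb => ha.mul hb) IsSquare.one
    intro x hx
    obtain ⟨u, hu, rfl⟩ := List.mem_map.mp hx
    rw [hl'def] at hu
    obtain ⟨u', hu', rfl⟩ := List.mem_map.mp hu
    rw [gf_compat k j a₀ b₀ θ θ' hsum hprod]
    exact isSquare_of_fix σ hσ j hj _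
  obtain ⟨s', hs'⟩ : ∃ s' : ↥(Cfsg.Geo.quadSimilarityGroup (F := F) ⇑(plusQF (k + 1) F)),
      (s' : GL (Fin (k + 1) ⊕ Fin (k + 1)) F) =
        (prodElt (plusQF (k + 1) F) hQ l' hl' : GL (Fin (k + 1) ⊕ Fin (k + 1)) F) :=
    ⟨⟨_, Cfsg.Agent.Lib.Helper44.isometryGroup_le_sim _
      (prodElt (plusQF (k + 1) F) hQ l' hl').2⟩, rfl⟩
  have e : simAut ⇑(plusQF (k + 1) F) (gfHom k j a₀ b₀ θ θ' hne hsum hprod d) =
      isomAut ⇑(plusQF (k + 1) F) (prodElt (plusQF (k + 1) F) hQ l' hl') := by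
    rw [← simAut_of_isom _ _ s' hs']
    exact Cfsg.Agent.Lib.Helper44.simAut_eq_of_smul _ _ s' (j t) (by rw [hs', hmat])
  rw [e, Cfsg.Agent.Lib.Helper44.inn_eq_map]
  exact ⟨_, hΩ, rfl⟩

set_option maxHeartbeats 3200000 in
/-- Embedded class-preserving similarities with non-square multiplier induce inner automorphisms
iff `k + 1` is odd and `q₀ ≡ 1 (mod 4)`. -/
theorem gf_nsq_mem_inn_iff (h2c : (2 : F) ≠ 0) (σ : RingAut F) (hσ : orderOf σ = 2) (k : ℕ)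
    (hk2 : 2 ≤ k) (j : F₀ →+* F) (hj : IsFixEmb σ j) (a₀ b₀ : F₀)
    (hab₀ : ∀ z₁ z₂ : F₀, z₁ ^ 2 + a₀ * z₁ * z₂ + b₀ * z₂ ^ 2 = 0 → z₁ = 0 ∧ z₂ = 0)
    (θ θ' : F) (hne : θ ≠ θ') (hsum : θ + θ' = -j a₀) (hprod : θ * θ' = j b₀)
    (h1 : σ θ = θ') (h2 : σ θ' = θ)
    (d : ↥(Cfsg.Geo.quadSimilarityGroup (F := F₀) ⇑(minusQF k F₀ a₀ b₀)))
    (hd : d ∈ hpSub k hk2 a₀ b₀ hab₀ _ rfl)
    (hnsq : ¬ IsSquare (simMult ⇑(minusQF k F₀ a₀ b₀) d : F₀)) :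
    simAut ⇑(plusQF (k + 1) F) (gfHom k j a₀ b₀ θ θ' hne hsum hprod d) ∈
      Cfsg.Inn (Cfsg.POmega F ⇑(plusQF (k + 1) F)) ↔
      (Odd (k + 1) ∧ Fintype.card F₀ % 4 = 1) := by
  obtain ⟨μ₀, hμ₀def⟩ : ∃ μ₀ : F₀, μ₀ = (simMult ⇑(minusQF k F₀ a₀ b₀) d : F₀) := ⟨_, rfl⟩
  rw [← hμ₀def] at hnsq
  have hμ₀0 : μ₀ ≠ 0 := fun h => hnsq ⟨0, by rw [h, mul_zero]⟩
  have hjμ0 : j μ₀ ≠ 0 := (map_ne_zero j).mpr hμ₀0
  have h2₀ : (2 : F₀) ≠ 0 := fun h => h2c (by rw [← map_ofNat j 2, h, map_zero])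
  obtain ⟨ξ, hξ0, hξ⟩ := Cfsg.Agent.Lib.Helper43.FieldAut.exists_norm_eq σ (lam := j μ₀) hjμ0
    ((hj _).mpr ⟨μ₀, rfl⟩)
  rw [hσ, Finset.prod_range_succ, Finset.prod_range_one, pow_zero, pow_one] at hξ
  have hξ' : ξ * σ ξ = j μ₀ := hξ
  obtain ⟨ν, hν⟩ := isSquare_of_fix σ hσ j hj μ₀
  have hν0 : ν ≠ 0 := by
    rintro rfl
    exact hjμ0 (by rw [hν, mul_zero])
  obtain ⟨Γ, hΓdef⟩ : ∃ Γ : Matrix (Fin (k + 1) ⊕ Fin (k + 1)) (Fin (k + 1) ⊕ Fin (k + 1)) F,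
      Γ = Matrix.diagonal (gfGam k (j μ₀) ξ (σ ξ)) := ⟨_, rfl⟩
  have hΓdet : Γ.det = (j μ₀) ^ (k + 1) := by
    rw [hΓdef, gfGam_det, hξ', pow_succ]
  have hΓsim : ∀ v, plusQF (k + 1) F (Γ *ᵥ v) = j μ₀ * plusQF (k + 1) F v := by
    intro v
    have e := congrFun (plusQF_coe (k + 1) F)
    rw [e, e, hΓdef]
    exact gfGam_sim k (j μ₀) ξ (σ ξ) hξ' v
  obtain ⟨g₁, hg₁⟩ : ∃ g₁ : ↥(Cfsg.Geo.quadSimilarityGroup (F := F) ⇑(plusQF (k + 1) F)),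
      ((g₁ : GL (Fin (k + 1) ⊕ Fin (k + 1)) F) :
        Matrix (Fin (k + 1) ⊕ Fin (k + 1)) (Fin (k + 1) ⊕ Fin (k + 1)) F) = Γ :=
    ⟨⟨Matrix.GeneralLinearGroup.mkOfDetNeZero Γ (by rw [hΓdet]; exact pow_ne_zero _ hjμ0),
      ⟨Units.mk0 (j μ₀) hjμ0, fun v => hΓsim v⟩⟩, rfl⟩
  have hcomm : Cfsg.reflectionMatrix ⇑(plusQF (k + 1) F) (gfV k) *
        ((g₁ : GL (Fin (k + 1) ⊕ Fin (k + 1)) F) :
          Matrix (Fin (k + 1) ⊕ Fin (k + 1)) (Fin (k + 1) ⊕ Fin (k + 1)) F).map σ =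
      ((g₁ : GL (Fin (k + 1) ⊕ Fin (k + 1)) F) :
          Matrix (Fin (k + 1) ⊕ Fin (k + 1)) (Fin (k + 1) ⊕ Fin (k + 1)) F) *
        Cfsg.reflectionMatrix ⇑(plusQF (k + 1) F) (gfV k) := by
    rw [hg₁, hΓdef, gfGam_map, (hj (j μ₀)).mpr ⟨μ₀, rfl⟩, sigma_sigma σ hσ]
    exact gfGam_comm k (j μ₀) ξ (σ ξ)
  obtain ⟨d₁, hd₁⟩ := rframe_exact j (minusQF k F₀ a₀ b₀) (plusQF (k + 1) F) (gfA k θ θ')
    (gfA' k θ θ') (gfA_mul_gfA' k θ θ' hne) (gfA'_mul_gfA k θ θ' hne)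
    (gf_compat k j a₀ b₀ θ θ' hsum hprod) (minus_quad_ne k a₀ b₀) σ hj _
    (gf_frame_fixed k σ θ θ' h1 h2) g₁ hcomm
  have hd₁' : gfHom k j a₀ b₀ θ θ' hne hsum hprod d₁ = g₁ := hd₁
  have hne' : ∃ v, plusQF (k + 1) F v ≠ 0 := plus_quad_ne (k + 1) (by omega)
  have hg₁mult : (simMult ⇑(plusQF (k + 1) F) g₁ : F) = j μ₀ :=
    Cfsg.Agent.Lib.Helper44.simMult_unique _ hne' g₁ _ (by
      intro v
      rw [hg₁]
      exact hΓsim v)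
  have hd₁mult : (simMult ⇑(minusQF k F₀ a₀ b₀) d₁ : F₀) = μ₀ := by
    apply j.injective
    rw [← hg₁mult, ← hd₁']
    exact (rframeHom_simMult j _ _ _ _ _ _ _ hne' d₁).symm
  have hd₁P : d₁ ∈ hpSub k hk2 a₀ b₀ hab₀ _ rfl := by
    rw [mem_hpSub, ← gf_preserves_iff k hk2 j a₀ b₀ hab₀ θ θ' hne hsum hprod d₁, hd₁', hg₁,
      plusQF_coe, Cfsg.Agent.Lib.Helper44.plus_preserves_iff h2c Γ (j μ₀) hjμ0
        (by rw [hΓdet]; exact (pow_ne_zero _ hjμ0).isUnit) (fun x => by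
          have e := congrFun (plusQF_coe (k + 1) F)
          rw [← e, ← e]
          exact hΓsim x)]
    exact hΓdet
  have hdd : d * d₁⁻¹ ∈ hpSub k hk2 a₀ b₀ hab₀ _ rfl :=
    Subgroup.mul_mem _ hd (Subgroup.inv_mem _ hd₁P)
  have hsq1 : IsSquare (simMult ⇑(minusQF k F₀ a₀ b₀) (d * d₁⁻¹) : F₀) := by
    have e : d = (d * d₁⁻¹) * d₁ := by rw [inv_mul_cancel_right]
    have hmul : (simMult ⇑(minusQF k F₀ a₀ b₀) d : F₀) =
        (simMult ⇑(minusQF k F₀ a₀ b₀) (d * d₁⁻¹) : F₀) * μ₀ := by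
      conv_lhs => rw [e]
      rw [Cfsg.Agent.Lib.Helper44.simMult_mul _ (minus_quad_ne k a₀ b₀), Units.val_mul, hd₁mult]
    rw [← hμ₀def] at hmul
    have h1' : (simMult ⇑(minusQF k F₀ a₀ b₀) (d * d₁⁻¹) : F₀) = 1 :=
      mul_right_cancel₀ hμ₀0 (hmul.symm.trans (one_mul μ₀).symm)
    rw [h1']
    exact IsSquare.one
  have hin := gf_square_mem_inn h2c σ hσ k hk2 j hj a₀ b₀ hab₀ θ θ' hne hsum hprod (d * d₁⁻¹)
    hdd hsq1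
  have hiff1 : simAut ⇑(plusQF (k + 1) F) (gfHom k j a₀ b₀ θ θ' hne hsum hprod d) ∈
        Cfsg.Inn (Cfsg.POmega F ⇑(plusQF (k + 1) F)) ↔
      simAut ⇑(plusQF (k + 1) F) g₁ ∈ Cfsg.Inn (Cfsg.POmega F ⇑(plusQF (k + 1) F)) := by
    have e : gfHom k j a₀ b₀ θ θ' hne hsum hprod d =
        gfHom k j a₀ b₀ θ θ' hne hsum hprod (d * d₁⁻¹) * g₁ := by
      rw [← hd₁', ← map_mul, inv_mul_cancel_right]
    rw [e, map_mul]
    exact Subgroup.mul_mem_cancel_left _ hin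
  rw [hiff1]
  have hq := Cfsg.Agent.Lib.Helper8.OCent.card_eq_pow_order σ j hj
  rw [hσ] at hq
  have hodd₀ : Odd (Fintype.card F₀) := card_odd_of_two_ne_zero h2₀
  have hodd : Odd (Fintype.card F) := card_odd_of_two_ne_zero h2c
  have hq4 : Fintype.card F % 4 = 1 := by
    rw [hq]
    obtain ⟨n, hn⟩ := hodd₀
    rw [hn]
    have e : (2 * n + 1) ^ 2 = 4 * (n * n + n) + 1 := by ring
    rw [e]
    omega
  obtain ⟨Dm, hDm⟩ : ∃ Dm : Matrix (Fin (k + 1)) (Fin (k + 1)) F,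
      Dm = Matrix.diagonal (Fin.snoc (α := fun _ => F) (fun _ : Fin k => ν) (ξ / ν)) := ⟨_, rfl⟩
  have hDdet : Dm.det = ν ^ k * (ξ / ν) := by
    rw [hDm]
    exact snoc_diag_det k ν (ξ / ν)
  have hDdet0 : Dm.det ≠ 0 := by
    rw [hDdet]
    exact mul_ne_zero (pow_ne_zero _ hν0) (div_ne_zero hξ0 hν0)
  obtain ⟨A, hA⟩ : ∃ A : GL (Fin (k + 1)) F, (A : Matrix (Fin (k + 1)) (Fin (k + 1)) F) = Dm :=
    ⟨Matrix.GeneralLinearGroup.mkOfDetNeZero _ hDdet0, rfl⟩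
  have hσξ : σ ξ = ν * ν / ξ := by
    rw [← hν, ← hξ']
    field_simp
  have hlevi : Γ = ν • Matrix.fromBlocks (A : Matrix (Fin (k + 1)) (Fin (k + 1)) F) 0 0
      ((A : Matrix (Fin (k + 1)) (Fin (k + 1)) F)⁻¹)ᵀ := by
    rw [hA, hDm, hΓdef, hσξ, hν]
    exact gfGam_levi k ν ξ hν0 hξ0
  have hsisom : ∀ x, plusQF (k + 1) F ((ν⁻¹ • Γ) *ᵥ x) = plusQF (k + 1) F x := by
    intro x
    rw [Matrix.smul_mulVec, QuadraticMap.map_smul, hΓsim, hν, smul_eq_mul]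
    field_simp
  obtain ⟨s, hs⟩ : ∃ s : ↥(Cfsg.isometryGroup F ⇑(plusQF (k + 1) F)),
      ((s : GL (Fin (k + 1) ⊕ Fin (k + 1)) F) :
        Matrix (Fin (k + 1) ⊕ Fin (k + 1)) (Fin (k + 1) ⊕ Fin (k + 1)) F) = ν⁻¹ • Γ :=
    ⟨mkIsom (plusQF (k + 1) F) (plusQF_nondegenerate (k + 1) F) (ν⁻¹ • Γ) hsisom, rfl⟩
  obtain ⟨s', hs'⟩ : ∃ s' : ↥(Cfsg.Geo.quadSimilarityGroup (F := F) ⇑(plusQF (k + 1) F)),
      (s' : GL (Fin (k + 1) ⊕ Fin (k + 1)) F) = (s : GL (Fin (k + 1) ⊕ Fin (k + 1)) F) :=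
    ⟨⟨s, Cfsg.Agent.Lib.Helper44.isometryGroup_le_sim _ s.2⟩, rfl⟩
  have e2 : simAut ⇑(plusQF (k + 1) F) g₁ = isomAut ⇑(plusQF (k + 1) F) s := by
    rw [← simAut_of_isom _ s s' hs']
    apply Cfsg.Agent.Lib.Helper44.simAut_eq_of_smul _ g₁ s' ν
    rw [hs', hs, hg₁, smul_smul, mul_inv_cancel₀ hν0, one_smul]
  have hsmat : ((s : GL (Fin (k + 1) ⊕ Fin (k + 1)) F) :
        Matrix (Fin (k + 1) ⊕ Fin (k + 1)) (Fin (k + 1) ⊕ Fin (k + 1)) F) =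
      Matrix.fromBlocks (A : Matrix (Fin (k + 1)) (Fin (k + 1)) F) 0 0
        ((A : Matrix (Fin (k + 1)) (Fin (k + 1)) F)⁻¹)ᵀ := by
    rw [hs, hlevi, smul_smul, inv_mul_cancel₀ hν0, one_smul]
  have hneg := neg_one_mem_gen hodd (k + 1) (by rintro ⟨-, h3⟩; omega) _ (plusQF_coe (k + 1) F)
  rw [e2, Cfsg.Agent.Lib.Helper44.isomAut_mem_inn_iff (plusQF (k + 1) F)
      (plusQF_nondegenerate (k + 1) F) (stdE (k + 1) F)
      (by rw [(stdE_isMTS (k + 1) F).1]; omega) (stdE_isMTS (k + 1) F).2 hneg s,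
    levi_mem_omega_gen (k + 1) (by omega) (Or.inr (by omega)) _ (plusQF_coe (k + 1) F) A s hsmat,
    hA, hDdet,
    isSquare_levi_det_iff ν ξ hν0 (not_isSquare_of_norm σ hσ j hj ξ μ₀ hnsq hξ') k,
    isSquare_sqrt_iff h2c σ hσ j hj ν μ₀ hnsq hν.symm]
  obtain ⟨n, hn⟩ := hodd₀
  constructor
  · rintro ⟨h, ho⟩
    exact ⟨ho, by omega⟩
  · rintro ⟨ho, h⟩
    exact ⟨by omega, ho⟩

omit [Fintype F] in
/-- A class-preserving similarity with non-square multiplier. -/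
theorem gf_exists_nsq [Fintype F] (h2 : (2 : F) ≠ 0) (k : ℕ) (hk2 : 2 ≤ k) (a b : F)
    (hab : ∀ z₁ z₂ : F, z₁ ^ 2 + a * z₁ * z₂ + b * z₂ ^ 2 = 0 → z₁ = 0 ∧ z₂ = 0) :
    ∃ d₁ : ↥(Cfsg.Geo.quadSimilarityGroup (F := F) ⇑(minusQF k F a b)),
      d₁ ∈ hpSub k hk2 a b hab _ rfl ∧ ¬ IsSquare (simMult ⇑(minusQF k F a b) d₁ : F) := by
  obtain ⟨w, c, hc, hw⟩ := Cfsg.Agent.Lib.Helper44.exists_norm_not_isSquare h2 a b hab
  have hc0 : c ≠ 0 := fun h => hc ⟨0, by rw [h, mul_zero]⟩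
  have hdet0 : (Cfsg.Agent.Lib.Helper44.minusSimMat k a b c w).det ≠ 0 := by
    rw [Cfsg.Agent.Lib.Helper44.minusSimMat_det k a b c w hw]
    exact pow_ne_zero _ hc0
  obtain ⟨d₁, hd₁⟩ : ∃ d₁ : ↥(Cfsg.Geo.quadSimilarityGroup (F := F) ⇑(minusQF k F a b)),
      ((d₁ : GL ((Fin k ⊕ Fin k) ⊕ Fin 2) F) :
        Matrix ((Fin k ⊕ Fin k) ⊕ Fin 2) ((Fin k ⊕ Fin k) ⊕ Fin 2) F) =
        Cfsg.Agent.Lib.Helper44.minusSimMat k a b c w :=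
    ⟨⟨Matrix.GeneralLinearGroup.mkOfDetNeZero _ hdet0, ⟨Units.mk0 c hc0, fun v => by
      have e := congrFun (minusQF_coe k F a b)
      rw [e, e]
      exact Cfsg.Agent.Lib.Helper44.minusSimMat_quad k a b c w hw v⟩⟩, rfl⟩
  have hd₁mult : (simMult ⇑(minusQF k F a b) d₁ : F) = c := by
    apply Cfsg.Agent.Lib.Helper44.simMult_unique _ (minus_quad_ne k a b)
    intro v
    have e := congrFun (minusQF_coe k F a b)
    rw [hd₁, e, e]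
    exact Cfsg.Agent.Lib.Helper44.minusSimMat_quad k a b c w hw v
  have hd₁P : d₁ ∈ hpSub k hk2 a b hab _ rfl := by
    rw [mem_hpSub, minus_preserves_odd h2 k a b hab, hd₁mult, hd₁]
    exact Cfsg.Agent.Lib.Helper44.minusSimMat_det k a b c w hw
  exact ⟨d₁, hd₁P, by rw [hd₁mult]; exact hc⟩

omit [Fintype F] in
theorem relIndex_sup_of_le {G : Type*} [Group G] (K H C : Subgroup G) (hCK : C ≤ K)
    (h4 : K.relIndex H = 4) : (K ⊔ C).relIndex H = 4 := by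
  rw [sup_eq_left.mpr hCK]
  exact h4

omit [Fintype F] in
theorem relIndex_sup_of_two {G : Type*} [Group G] (K H C : Subgroup G) [K.Normal]
    (hKH : K ≤ H) (hCH : C ≤ H) (h4 : K.relIndex H = 4) (a : G) (ha : a ∈ C)
    (hx : ∀ b ∈ C, Xor (b * a ∈ K) (b ∈ K)) : (K ⊔ C).relIndex H = 2 := by
  have hKC : K.relIndex (K ⊔ C) = 2 := by
    rw [sup_comm, Subgroup.relIndex_sup_right]
    show (K.subgroupOf C).index = 2
    rw [Subgroup.index_eq_two_iff]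
    refine ⟨⟨a, ha⟩, ?_⟩
    rintro ⟨b, hb⟩
    exact hx b hb
  have hprod := Subgroup.relIndex_mul_relIndex K (K ⊔ C) H le_sup_left (sup_le hKH hCH)
  rw [hKC, h4] at hprod
  omega

set_option maxHeartbeats 3200000 in
/-- The number of `Inn`-classes in the `Inndiag`-class of the standard graph-field
automorphism, odd characteristic. -/
theorem gf_count_odd (h2c : (2 : F) ≠ 0) (k : ℕ) (hk2 : 2 ≤ k) (j : F₀ →+* F) (a₀ b₀ : F₀)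
    (hab₀ : ∀ z₁ z₂ : F₀, z₁ ^ 2 + a₀ * z₁ * z₂ + b₀ * z₂ ^ 2 = 0 → z₁ = 0 ∧ z₂ = 0)
    (θ θ' : F) (hne : θ ≠ θ') (hsum : θ + θ' = -j a₀) (hprod : θ * θ' = j b₀)
    (X₀ : PS (k + 1) F) (hj : IsFixEmb (X₀ : SemiGL (Fin (k + 1) ⊕ Fin (k + 1)) F).right j)
    (hσ : orderOf (X₀ : SemiGL (Fin (k + 1) ⊕ Fin (k + 1)) F).right = 2)
    (hXl : ((X₀ : SemiGL (Fin (k + 1) ⊕ Fin (k + 1)) F).left :
        Matrix (Fin (k + 1) ⊕ Fin (k + 1)) (Fin (k + 1) ⊕ Fin (k + 1)) F) =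
      Cfsg.reflectionMatrix ⇑(plusQF (k + 1) F) (gfV k))
    (h1 : (X₀ : SemiGL (Fin (k + 1) ⊕ Fin (k + 1)) F).right θ = θ')
    (h2 : (X₀ : SemiGL (Fin (k + 1) ⊕ Fin (k + 1)) F).right θ' = θ) :
    ((Odd (k + 1) ∧ Fintype.card F₀ % 4 = 1) →
      (Cfsg.Inn (Cfsg.POmega F ⇑(plusQF (k + 1) F)) ⊔
        ((pN (k + 1) (F := F)).map (semiAut ⇑(plusQF (k + 1) F)) ⊓
          Subgroup.centralizer {semiAut ⇑(plusQF (k + 1) F) X₀})).relIndex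
        ((pN (k + 1) (F := F)).map (semiAut ⇑(plusQF (k + 1) F))) = 4) ∧
    (¬ (Odd (k + 1) ∧ Fintype.card F₀ % 4 = 1) →
      (Cfsg.Inn (Cfsg.POmega F ⇑(plusQF (k + 1) F)) ⊔
        ((pN (k + 1) (F := F)).map (semiAut ⇑(plusQF (k + 1) F)) ⊓
          Subgroup.centralizer {semiAut ⇑(plusQF (k + 1) F) X₀})).relIndex
        ((pN (k + 1) (F := F)).map (semiAut ⇑(plusQF (k + 1) F))) = 2) := by
  have hCH : (pN (k + 1) (F := F)).map (semiAut ⇑(plusQF (k + 1) F)) ⊓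
      Subgroup.centralizer {semiAut ⇑(plusQF (k + 1) F) X₀} ≤
      (pN (k + 1) (F := F)).map (semiAut ⇑(plusQF (k + 1) F)) := inf_le_left
  rw [gf_centralizer_eq_map k hk2 j a₀ b₀ hab₀ θ θ' hne hsum hprod X₀ hj hXl h1 h2] at hCH ⊢
  obtain ⟨σ, hσdef⟩ : ∃ σ : RingAut F, σ = (X₀ : SemiGL (Fin (k + 1) ⊕ Fin (k + 1)) F).right :=
    ⟨_, rfl⟩
  rw [← hσdef] at hj hσ h1 h2
  have h2₀ : (2 : F₀) ≠ 0 := fun h => h2c (by rw [← map_ofNat j 2, h, map_zero])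
  have hq := Cfsg.Agent.Lib.Helper8.OCent.card_eq_pow_order σ j hj
  rw [hσ] at hq
  have hodd₀ : Odd (Fintype.card F₀) := card_odd_of_two_ne_zero h2₀
  have hodd : Odd (Fintype.card F) := card_odd_of_two_ne_zero h2c
  have hq4 : Fintype.card F % 4 = 1 := by
    rw [hq]
    obtain ⟨n, hn⟩ := hodd₀
    rw [hn]
    have e : (2 * n + 1) ^ 2 = 4 * (n * n + n) + 1 := by ring
    rw [e]
    omega
  have hKH := inn_le_pN (F := F) (k + 1) (by omega)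
  have h4 := gf_index_four hodd hq4 (k + 1) (by omega)
  obtain ⟨d₁, hd₁P, hd₁n⟩ := gf_exists_nsq h2₀ k hk2 a₀ b₀ hab₀
  have hmemK : ∀ d ∈ hpSub k hk2 a₀ b₀ hab₀ _ rfl,
      IsSquare (simMult ⇑(minusQF k F₀ a₀ b₀) d : F₀) →
      simAut ⇑(plusQF (k + 1) F) (gfHom k j a₀ b₀ θ θ' hne hsum hprod d) ∈
        Cfsg.Inn (Cfsg.POmega F ⇑(plusQF (k + 1) F)) :=
    fun d hd hsq => gf_square_mem_inn h2c σ hσ k hk2 j hj a₀ b₀ hab₀ θ θ' hne hsum hprod d hd hsq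
  have hiffK : ∀ d ∈ hpSub k hk2 a₀ b₀ hab₀ _ rfl,
      ¬ IsSquare (simMult ⇑(minusQF k F₀ a₀ b₀) d : F₀) →
      (simAut ⇑(plusQF (k + 1) F) (gfHom k j a₀ b₀ θ θ' hne hsum hprod d) ∈
        Cfsg.Inn (Cfsg.POmega F ⇑(plusQF (k + 1) F)) ↔
          (Odd (k + 1) ∧ Fintype.card F₀ % 4 = 1)) :=
    fun d hd hn => gf_nsq_mem_inn_iff h2c σ hσ k hk2 j hj a₀ b₀ hab₀ θ θ' hne hsum hprod h1 h2 d
      hd hn
  constructor
  · intro hcond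
    apply relIndex_sup_of_le _ _ _ _ h4
    rintro β ⟨d, hd, rfl⟩
    rw [MonoidHom.comp_apply]
    by_cases hsq : IsSquare (simMult ⇑(minusQF k F₀ a₀ b₀) d : F₀)
    · exact hmemK d hd hsq
    · exact (hiffK d hd hsq).mpr hcond
  · intro hcond
    apply relIndex_sup_of_two _ _ _ hKH hCH h4
      (simAut ⇑(plusQF (k + 1) F) (gfHom k j a₀ b₀ θ θ' hne hsum hprod d₁))
      ⟨d₁, hd₁P, rfl⟩
    rintro β ⟨d, hd, rfl⟩
    rw [MonoidHom.comp_apply]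
    by_cases hsq : IsSquare (simMult ⇑(minusQF k F₀ a₀ b₀) d : F₀)
    · refine Or.inr ⟨hmemK d hd hsq, ?_⟩
      intro hba
      have h3 := (Subgroup.mul_mem_cancel_left _ (hmemK d hd hsq)).mp hba
      exact hcond ((hiffK d₁ hd₁P hd₁n).mp h3)
    · refine Or.inl ⟨?_, fun hbK => hcond ((hiffK d hd hsq).mp hbK)⟩
      rw [← map_mul, ← map_mul]
      apply hmemK (d * d₁) (Subgroup.mul_mem _ hd hd₁P)
      rw [Cfsg.Agent.Lib.Helper44.simMult_mul _ (minus_quad_ne k a₀ b₀), Units.val_mul]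
      exact isSquare_mul_of_not_isSquare hsq hd₁n

omit [Fintype F₀] in
/-- In characteristic two a similarity is a scalar multiple of an isometry. -/
theorem char2_sim_decomp_gen {ι : Type} [Fintype ι] [DecidableEq ι] (h2 : (2 : F) = 0)
    (Q : QuadraticForm F (ι → F)) (d : ↥(Cfsg.Geo.quadSimilarityGroup (F := F) ⇑Q)) :
    ∃ (t : F) (s : ↥(Cfsg.isometryGroup F ⇑Q)), t ≠ 0 ∧
      ((d : GL ι F) : Matrix ι ι F) = t • ((s : GL ι F) : Matrix ι ι F) := by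
  haveI : CharP F 2 := CharTwo.of_one_ne_zero_of_two_eq_zero one_ne_zero h2
  obtain ⟨μ, hμdef⟩ : ∃ μ : F, μ = (simMult ⇑Q d : F) := ⟨_, rfl⟩
  have hμ0 : μ ≠ 0 := by
    rw [hμdef]
    exact (simMult ⇑Q d).ne_zero
  obtain ⟨D, hD⟩ : ∃ D : Matrix ι ι F, D = ((d : GL ι F) : Matrix ι ι F) := ⟨_, rfl⟩
  have hμ : ∀ v, Q (D *ᵥ v) = μ * Q v := by
    intro v
    rw [hμdef, hD]
    exact simMult_spec ⇑Q d v
  have hDu : IsUnit D.det := by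
    rw [hD]
    exact (Matrix.isUnit_iff_isUnit_det _).mp (Units.isUnit _)
  obtain ⟨t, ht⟩ := FiniteField.isSquare_of_char_two (ringChar.eq F 2) μ
  have ht0 : t ≠ 0 := by
    rintro rfl
    exact hμ0 (by rw [ht, mul_zero])
  have hdet : (t⁻¹ • D).det ≠ 0 := by
    rw [Matrix.det_smul]
    exact mul_ne_zero (pow_ne_zero _ (inv_ne_zero ht0)) hDu.ne_zero
  refine ⟨t, ⟨Matrix.GeneralLinearGroup.mkOfDetNeZero _ hdet, ?_⟩, ht0, ?_⟩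
  · rw [mem_isometryGroup_iff]
    intro v
    show Q ((t⁻¹ • D) *ᵥ v) = Q v
    rw [Matrix.smul_mulVec, QuadraticMap.map_smul, hμ, ht, smul_eq_mul]
    field_simp
  · rw [← hD]
    show D = t • (t⁻¹ • D)
    rw [smul_smul, mul_inv_cancel₀ ht0, one_smul]

omit [Fintype F₀] in
/-- In characteristic two `Inndiag(PΩ⁺) = Inn`. -/
theorem pN_le_inn_char2 (h2c : (2 : F) = 0) (m : ℕ) (hm : 3 ≤ m) :
    (pN m (F := F)).map (semiAut ⇑(plusQF m F)) ≤ Cfsg.Inn (Cfsg.POmega F ⇑(plusQF m F)) := by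
  have hQ := plusQF_nondegenerate m F
  rintro β ⟨y, hy, rfl⟩
  obtain ⟨hy1, hy2⟩ := (mem_pN m y).mp hy
  obtain ⟨g, rfl⟩ := exists_sim_of_right_eq_one _ y hy2
  obtain ⟨t, s, ht, hs⟩ := char2_sim_decomp_gen h2c (plusQF m F) g
  have hpres := (pcls_simToSemi_iff m g).mp hy1
  rw [hs, preserves_smul _ t ht] at hpres
  obtain ⟨l, hl, rfl⟩ := Cfsg.Agent.Lib.Helper44.exists_eq_prodElt_all (plusQF m F) hQ
    (Or.inr (by rw [Cfsg.Agent.Lib.Helper44.plus_card]; omega)) s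
  rw [Cfsg.Agent.Lib.Helper44.prodElt_coe, preserves_iff_prod (plusQF m F) hQ m
    (finrank_plus m F) (stdE m F) (stdE_isMTS m F) l hl] at hpres
  have hsΩ : prodElt (plusQF m F) hQ l hl ∈ Cfsg.Omega F ⇑(plusQF m F) := by
    rw [Cfsg.Agent.Lib.Helper8.OmegaMinus.mem_omega_iff_even_rank_fun_gen h2c _ (plusQF m F) rfl
      hQ (Or.inr (Or.inl (by rw [Cfsg.Agent.Lib.Helper44.plus_card]; omega)))]
    have hr := Cfsg.Agent.Lib.Helper44.rank_prodElt (plusQF m F) hQ l hl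
    rw [Nat.even_iff] at hpres ⊢
    omega
  obtain ⟨s', hs'⟩ : ∃ s' : ↥(Cfsg.Geo.quadSimilarityGroup (F := F) ⇑(plusQF m F)),
      (s' : GL (Fin m ⊕ Fin m) F) = (prodElt (plusQF m F) hQ l hl : GL (Fin m ⊕ Fin m) F) :=
    ⟨⟨_, Cfsg.Agent.Lib.Helper44.isometryGroup_le_sim _ (prodElt (plusQF m F) hQ l hl).2⟩, rfl⟩
  have e : semiAut ⇑(plusQF m F) (simToSemi _ g) =
      isomAut ⇑(plusQF m F) (prodElt (plusQF m F) hQ l hl) := by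
    rw [semiAut_simToSemi, ← simAut_of_isom _ _ s' hs']
    exact Cfsg.Agent.Lib.Helper44.simAut_eq_of_smul _ g s' t (by rw [hs', hs])
  rw [e, Cfsg.Agent.Lib.Helper44.inn_eq_map]
  exact ⟨_, hsΩ, rfl⟩

end gfcount

end Cfsg.Agent.Lib.Helper14
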