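import Mathlib
import Cfsg.Prelude.Def_LieTypeDatum
import Cfsg.Agent.Lib.Helper14.GfE
import Cfsg.Agent.Lib.Helper43.FieldAut.GraphMain

/-!
Involutory graph-field automorphisms of `PΩ⁺_{2m}(F)`, `m ≥ 5`: conjugacy under `Inndiag`, the
centralizer in `Inndiag`, and the number of `Inn`-classes in the `Inndiag`-class.
-/

set_option autoImplicit false

namespace Cfsg.Agent.Lib.Helper14

open Matrix Module
open Cfsg.Agent.Lib.Helper44 (simAut simMult simMult_spec dickson isomAut)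
open Cfsg.Agent.Lib.Helper43.FieldAut (IsFixEmb fixF mem_fixF card_fixF_pow card_fixF_eq)
open Cfsg.Agent.Lib.Helper8.PlusCoset

section grp

theorem conj_relIndex_eq {G : Type*} [Group G] (H K : Subgroup G) [H.Normal] [K.Normal]
    (h ψ : G) :
    (K ⊔ (H ⊓ Subgroup.centralizer {h * ψ * h⁻¹})).relIndex H =
      (K ⊔ (H ⊓ Subgroup.centralizer {ψ})).relIndex H := by
  rw [Cfsg.Agent.Lib.Helper43.FieldAut.inf_centralizer_conj]
  conv_lhs =>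
    rw [← Cfsg.Agent.Lib.Helper43.FieldAut.normal_map_conj K h, ← Subgroup.map_sup]
  conv_lhs =>
    arg 2
    rw [← Cfsg.Agent.Lib.Helper43.FieldAut.normal_map_conj H h]
  rw [Subgroup.relIndex_map_map_of_injective _ _ (MulAut.conj h).injective]

theorem conj_centralizer_equiv {G : Type*} [Group G] (H : Subgroup G) [H.Normal] (h ψ : G) :
    Nonempty (↥(H ⊓ Subgroup.centralizer {h * ψ * h⁻¹}) ≃*
      ↥(H ⊓ Subgroup.centralizer {ψ})) := by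
  rw [Cfsg.Agent.Lib.Helper43.FieldAut.inf_centralizer_conj]
  exact ⟨((MulAut.conj h).subgroupMap (H ⊓ Subgroup.centralizer {ψ})).symm⟩

theorem conj_rewrite {G : Type*} [Group G] (A C B Z Ψ : G) (e : A⁻¹ * C = B * Z)
    (hcomm : Z * Ψ = Ψ * Z) : A⁻¹ * (C * Ψ * C⁻¹) * A = B * Ψ * B⁻¹ := by
  calc A⁻¹ * (C * Ψ * C⁻¹) * A = (A⁻¹ * C) * Ψ * (A⁻¹ * C)⁻¹ := by group
    _ = (B * Z) * Ψ * (B * Z)⁻¹ := by rw [e]
    _ = B * (Z * Ψ) * Z⁻¹ * B⁻¹ := by group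
    _ = B * (Ψ * Z) * Z⁻¹ * B⁻¹ := by rw [hcomm]
    _ = B * Ψ * B⁻¹ := by group

end grp

section defs

variable {F : Type*} [Field F]

/-- `Inndiag(PΩ⁺)` for a general carrier function. -/
def inndiagGen (m : ℕ) (Qf : (Fin m ⊕ Fin m → F) → F) : Subgroup (MulAut (Cfsg.POmega F Qf)) :=
  Subgroup.closure {β : MulAut (Cfsg.POmega F Qf) | ∃ g : GL (Fin m ⊕ Fin m) F,
    g ∈ Cfsg.Geo.quadSimilarityGroup (F := F) Qf ∧
    Cfsg.PreservesSingularClasses Qf (g : Matrix (Fin m ⊕ Fin m) (Fin m ⊕ Fin m) F) ∧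
    Cfsg.IsInducedBySemilinearPOmega Qf g (RingEquiv.refl F) β}

/-- The graph-field class for a general carrier function. -/
def IsGfClassGen (m : ℕ) (Qf : (Fin m ⊕ Fin m → F) → F) (β : MulAut (Cfsg.POmega F Qf)) : Prop :=
  ∃ (α γ φ : MulAut (Cfsg.POmega F Qf)) (σ : F ≃+* F) (v : Fin m ⊕ Fin m → F)
      (r : GL (Fin m ⊕ Fin m) F),
    σ ≠ RingEquiv.refl F ∧ Qf v ≠ 0 ∧ (∀ i, σ (v i) = v i) ∧
    (r : Matrix (Fin m ⊕ Fin m) (Fin m ⊕ Fin m) F) = Cfsg.reflectionMatrix Qf v ∧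
    Cfsg.IsInducedBySemilinearPOmega Qf r (RingEquiv.refl F) γ ∧
    Cfsg.IsFieldAutPOmegaOf Qf σ φ ∧ α * β * α⁻¹ = γ * φ

theorem fld_mul (m : ℕ) (τ σ : RingAut F) : fld m (τ * σ) = fld m τ * fld m σ := by
  apply Subtype.ext
  show SemidirectProduct.inr (τ * σ) = SemidirectProduct.inr τ * SemidirectProduct.inr σ
  exact map_mul _ _ _

theorem plus_gfV_ne (k : ℕ) : plusQF (k + 1) F (gfV k) ≠ 0 := by
  rw [plusQF_coe, plus_gfV]
  exact neg_ne_zero.mpr one_ne_zero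

end defs

section main

universe u u₀

variable {F : Type u} [Field F] [Fintype F] {F₀ : Type u₀} [Field F₀] [Fintype F₀]

theorem two_eq_zero_iff_p {p f : ℕ} [Fact p.Prime] (hF : Fintype.card F = p ^ f) :
    (2 : F) = 0 ↔ p = 2 := by
  have hp : p.Prime := Fact.out
  constructor
  · intro h
    by_contra hp2
    have hodd : Odd (Fintype.card F) := by
      rw [hF]
      exact (hp.odd_of_ne_two hp2).pow
    exact two_ne_zero_of_card_odd hodd h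
  · intro h
    by_contra h2
    have hodd := card_odd_of_two_ne_zero h2
    have hf : f ≠ 0 := by
      rintro rfl
      have h1 := Fintype.one_lt_card (α := F)
      rw [hF] at h1
      simp at h1
    rw [hF, h] at hodd
    exact (Nat.not_even_iff_odd.mpr hodd) ((Nat.even_pow' hf).mpr even_two)

/-- Every semisimilarity is a class-preserving similarity times an element commuting with the
standard graph-field semisimilarity. -/
theorem gf_decomp {p f : ℕ} [Fact p.Prime] (hF : Fintype.card F = p ^ f) (k : ℕ) (σ : RingAut F)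
    (Γ₀ : PS (k + 1) F) (hΓ1 : Γ₀.1.right = 1)
    (hΓ2 : (Γ₀.1.left : Matrix (Fin (k + 1) ⊕ Fin (k + 1)) (Fin (k + 1) ⊕ Fin (k + 1)) F) =
      Cfsg.reflectionMatrix ⇑(plusQF (k + 1) F) (gfV k))
    (b : PS (k + 1) F) :
    ∃ b₁ : PS (k + 1) F, b₁ ∈ pN (k + 1) (F := F) ∧ ∃ z : PS (k + 1) F,
      z * (Γ₀ * fld (k + 1) σ) = (Γ₀ * fld (k + 1) σ) * z ∧ b = b₁ * z := by
  have hm1 : 1 ≤ k + 1 := by omega
  have hQv₀ := plus_gfV_ne (F := F) k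
  obtain ⟨τ, hτ⟩ : ∃ τ : RingAut F, τ = b.1.right := ⟨_, rfl⟩
  have hfΓ : ∀ ρ : RingAut F, fld (k + 1) ρ * Γ₀ = Γ₀ * fld (k + 1) ρ := fun ρ =>
    comm_refl_of_fixed (k + 1) hm1 (fld (k + 1) ρ) Γ₀ (gfV k) hQv₀ hΓ1 hΓ2
      (by rw [sact_fld]; exact funext (fun i => gfV_fixed k ρ i))
  have hff : fld (k + 1) τ * fld (k + 1) σ = fld (k + 1) σ * fld (k + 1) τ := by
    rw [← fld_mul, ← fld_mul, Cfsg.Agent.Lib.Helper43.FieldAut.ringAut_comm hF]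
  have hz1 : fld (k + 1) τ * (Γ₀ * fld (k + 1) σ) = (Γ₀ * fld (k + 1) σ) * fld (k + 1) τ := by
    rw [← mul_assoc, hfΓ τ, mul_assoc, hff, mul_assoc]
  have hz2 : Γ₀ * (Γ₀ * fld (k + 1) σ) = (Γ₀ * fld (k + 1) σ) * Γ₀ := by
    rw [mul_assoc Γ₀ (fld (k + 1) σ) Γ₀, hfΓ σ]
  have hbr : (b * (fld (k + 1) τ)⁻¹).1.right = 1 := by
    rw [Subgroup.coe_mul, SemidirectProduct.mul_right, Subgroup.coe_inv,
      SemidirectProduct.inv_right, fld_right, ← hτ, mul_inv_cancel]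
  rcases Int.units_eq_one_or (pcls (k + 1) b) with h | h
  · refine ⟨b * (fld (k + 1) τ)⁻¹, (mem_pN (k + 1) _).mpr ⟨?_, hbr⟩, fld (k + 1) τ, hz1,
      by rw [inv_mul_cancel_right]⟩
    rw [map_mul, map_inv, pcls_fld, h]
    simp
  · refine ⟨b * (fld (k + 1) τ)⁻¹ * Γ₀⁻¹, (mem_pN (k + 1) _).mpr ⟨?_, ?_⟩,
      Γ₀ * fld (k + 1) τ, ?_, by group⟩
    · rw [map_mul, map_mul, map_inv, map_inv, pcls_fld, h,
        pcls_refl (k + 1) Γ₀ hΓ1 (gfV k) hQv₀ hΓ2]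
      simp
    · rw [Subgroup.coe_mul, SemidirectProduct.mul_right, hbr, Subgroup.coe_inv,
        SemidirectProduct.inv_right, hΓ1]
      simp
    · rw [mul_assoc, hz1, ← mul_assoc, hz2, mul_assoc]

set_option maxHeartbeats 1600000 in
/-- An involutory graph-field automorphism is conjugate under `Inndiag` to the standard one. -/
theorem gf_class_rep (k : ℕ) (hk : 4 ≤ k) {p f : ℕ} [Fact p.Prime]
    (hF : Fintype.card F = p ^ f)
    (Γ₀ : PS (k + 1) F) (hΓ1 : Γ₀.1.right = 1)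
    (hΓ2 : (Γ₀.1.left : Matrix (Fin (k + 1) ⊕ Fin (k + 1)) (Fin (k + 1) ⊕ Fin (k + 1)) F) =
      Cfsg.reflectionMatrix ⇑(plusQF (k + 1) F) (gfV k))
    (x : MulAut (Cfsg.POmega F ⇑(plusQF (k + 1) F)))
    (hx : IsGfClassGen (k + 1) ⇑(plusQF (k + 1) F) x) (hx2 : orderOf x = 2) :
    ∃ (σ : RingAut F) (b₁ : PS (k + 1) F), orderOf σ = 2 ∧ b₁ ∈ pN (k + 1) (F := F) ∧
      x = semiAut ⇑(plusQF (k + 1) F) b₁ * semiAut ⇑(plusQF (k + 1) F) (Γ₀ * fld (k + 1) σ) *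
        (semiAut ⇑(plusQF (k + 1) F) b₁)⁻¹ := by
  have hm3 : 3 ≤ k + 1 := by omega
  have hAut : Cfsg.gammaPOmega F ⇑(plusQF (k + 1) F) = ⊤ :=
    gammaPOmega_eq_top (plusQF (k + 1) F) (plusQF_nondegenerate (k + 1) F)
      (by simp only [Fintype.card_sum, Fintype.card_fin]; omega)
      (Or.inl (by simp only [Fintype.card_sum, Fintype.card_fin]; omega))
  obtain ⟨α, γ, φ, σ, v, rr, hσ1, hQv, hv, hrr, hγ, hφ, hconj⟩ := hx
  obtain ⟨a, rfl⟩ := semiAut_surjective _ hAut α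
  have hφ' : φ = semiAut ⇑(plusQF (k + 1) F) (fld (k + 1) σ) := fld_of_isField (k + 1) σ φ hφ
  obtain ⟨Γ, hΓ1', hΓ2'⟩ := exists_refl (k + 1) v hQv
  have hγ' : γ = semiAut ⇑(plusQF (k + 1) F) Γ := by
    apply (induced_iff_semiAut _ Γ γ).mp
    have e1 : Γ.1.left = rr := Units.ext (hΓ2'.trans hrr.symm)
    rw [e1, hΓ1']
    exact hγ
  subst hφ' hγ'
  rw [← map_mul] at hconj
  have hXr : (Γ * fld (k + 1) σ).1.right = σ := by
    rw [Subgroup.coe_mul, SemidirectProduct.mul_right, hΓ1', one_mul]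
    rfl
  obtain ⟨ho, -⟩ := order_facts (k + 1) hm3 x (semiAut ⇑(plusQF (k + 1) F) a)
    (Γ * fld (k + 1) σ) hconj Nat.prime_two hx2 (by rw [hXr]; exact hσ1)
  rw [hXr] at ho
  have hXc : pcls (k + 1) (Γ * fld (k + 1) σ) = -1 := by
    rw [map_mul, pcls_refl (k + 1) Γ hΓ1' v hQv hΓ2', pcls_fld, mul_one]
  have hYo : semiAut ⇑(plusQF (k + 1) F) (Γ * fld (k + 1) σ) ^ 2 = 1 := by
    rw [← hconj, conj_pow, ← hx2, pow_orderOf_eq_one, mul_one, mul_inv_cancel]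
  obtain ⟨c, -, hc2⟩ := gf_conj (k + 1) hm3 (Γ * fld (k + 1) σ) (by rw [hXr]; exact ho) hYo hXc
    (gfV k) (fun i => gfV_fixed k _ i) (plus_gfV_ne k) Γ₀ hΓ1 hΓ2
  rw [hXr] at hc2
  obtain ⟨b₁, hb₁, z, hz, hdec⟩ := gf_decomp hF k σ Γ₀ hΓ1 hΓ2 (a⁻¹ * c)
  refine ⟨σ, b₁, ho, hb₁, ?_⟩
  have hx' : x = (semiAut ⇑(plusQF (k + 1) F) a)⁻¹ *
      semiAut ⇑(plusQF (k + 1) F) (Γ * fld (k + 1) σ) * semiAut ⇑(plusQF (k + 1) F) a := by
    rw [← hconj]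
    group
  have hcomm : semiAut ⇑(plusQF (k + 1) F) z * semiAut ⇑(plusQF (k + 1) F) (Γ₀ * fld (k + 1) σ) =
      semiAut ⇑(plusQF (k + 1) F) (Γ₀ * fld (k + 1) σ) * semiAut ⇑(plusQF (k + 1) F) z := by
    rw [← map_mul, ← map_mul, hz]
  have e : (semiAut ⇑(plusQF (k + 1) F) a)⁻¹ * semiAut ⇑(plusQF (k + 1) F) c =
      semiAut ⇑(plusQF (k + 1) F) b₁ * semiAut ⇑(plusQF (k + 1) F) z := by
    rw [← map_inv, ← map_mul, ← map_mul, hdec]
  rw [hx', hc2]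
  exact conj_rewrite _ _ _ _ _ e hcomm

set_option maxHeartbeats 3200000 in
/-- **Involutory graph-field automorphisms of `PΩ⁺`**, for a general carrier function. -/
theorem gf_main (k : ℕ) (hk : 4 ≤ k) (hk2 : 2 ≤ k) (Qf : (Fin (k + 1) ⊕ Fin (k + 1) → F) → F)
    (hQf : ⇑(plusQF (k + 1) F) = Qf) (x : MulAut (Cfsg.POmega F Qf))
    (hx : IsGfClassGen (k + 1) Qf x) (hx2 : orderOf x = 2)
    {p f : ℕ} [Fact p.Prime] (hF : Fintype.card F = p ^ f)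
    (hF₀ : Fintype.card F₀ = p ^ (f / 2)) :
    Even f ∧
    (∀ y : MulAut (Cfsg.POmega F Qf), IsGfClassGen (k + 1) Qf y → orderOf y = 2 →
      Cfsg.IsConjUnder (inndiagGen (k + 1) Qf) x y) ∧
    (∃ (a₀ b₀ : F₀)
      (hab₀ : ∀ z₁ z₂ : F₀, z₁ ^ 2 + a₀ * z₁ * z₂ + b₀ * z₂ ^ 2 = 0 → z₁ = 0 ∧ z₂ = 0),
      ∀ (Q₀f : ((Fin k ⊕ Fin k) ⊕ Fin 2 → F₀) → F₀) (hQ₀f : ⇑(minusQF k F₀ a₀ b₀) = Q₀f),
        Nonempty (↥(inndiagGen (k + 1) Qf ⊓ Subgroup.centralizer {x}) ≃*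
          ↥((hpSub k hk2 a₀ b₀ hab₀ Q₀f hQ₀f).map (simAut Q₀f)))) ∧
    ((2 : F) = 0 →
      Cfsg.splitClassCount (inndiagGen (k + 1) Qf) (Cfsg.Inn (Cfsg.POmega F Qf)) x = 1) ∧
    ((2 : F) ≠ 0 → (Odd (k + 1) ∧ Fintype.card F₀ % 4 = 1) →
      Cfsg.splitClassCount (inndiagGen (k + 1) Qf) (Cfsg.Inn (Cfsg.POmega F Qf)) x = 4) ∧
    ((2 : F) ≠ 0 → ¬ (Odd (k + 1) ∧ Fintype.card F₀ % 4 = 1) →
      Cfsg.splitClassCount (inndiagGen (k + 1) Qf) (Cfsg.Inn (Cfsg.POmega F Qf)) x = 2) := by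
  subst hQf
  have hm3 : 3 ≤ k + 1 := by omega
  obtain ⟨Γ₀, hΓ1, hΓ2⟩ := exists_refl (k + 1) (gfV k) (plus_gfV_ne (F := F) k)
  obtain ⟨σ, b₁, hσ2, hb₁, hxe⟩ := gf_class_rep k hk hF Γ₀ hΓ1 hΓ2 x hx hx2
  have hI : inndiagGen (k + 1) ⇑(plusQF (k + 1) F) =
      (pN (k + 1) (F := F)).map (semiAut ⇑(plusQF (k + 1) F)) :=
    Cfsg.Agent.Lib.Helper8.PlusSemi.closure_eq_map (plusQF (k + 1) F)
      (plusQF_nondegenerate (k + 1) F) (k + 1) (finrank_plus (k + 1) F) (stdE (k + 1) F)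
      (stdE_isMTS (k + 1) F)
  rw [hI]
  have hAut : Cfsg.gammaPOmega F ⇑(plusQF (k + 1) F) = ⊤ :=
    gammaPOmega_eq_top (plusQF (k + 1) F) (plusQF_nondegenerate (k + 1) F)
      (by simp only [Fintype.card_sum, Fintype.card_fin]; omega)
      (Or.inl (by simp only [Fintype.card_sum, Fintype.card_fin]; omega))
  haveI hHn : ((pN (k + 1) (F := F)).map (semiAut ⇑(plusQF (k + 1) F))).Normal :=
    (pN_normal (k + 1)).map _ (semiAut_surjective _ hAut)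
  -- the fixed field
  obtain ⟨hdiv, hc0⟩ := card_fixF_eq hF σ two_pos hσ2
  haveI : Fintype (fixF σ) := Fintype.ofFinite _
  have hcard : Fintype.card F₀ = Fintype.card (fixF σ) := by
    rw [hF₀, ← hc0, Nat.card_eq_fintype_card]
  obtain ⟨ι⟩ : Nonempty (F₀ ≃+* fixF σ) := ⟨FiniteField.ringEquivOfCardEq hcard⟩
  obtain ⟨j, hjdef⟩ : ∃ j : F₀ →+* F, j = (fixF σ).subtype.comp (ι : F₀ →+* fixF σ) :=
    ⟨_, rfl⟩
  have hj : IsFixEmb σ j := by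
    intro y
    constructor
    · intro hy
      refine ⟨ι.symm ⟨y, (mem_fixF σ).mpr hy⟩, ?_⟩
      rw [hjdef]
      change ((ι (ι.symm ⟨y, (mem_fixF σ).mpr hy⟩) : fixF σ) : F) = y
      rw [RingEquiv.apply_symm_apply]
    · rintro ⟨z, rfl⟩
      rw [hjdef]
      exact (mem_fixF σ).mp (ι z).2
  -- the splitting element
  have hσne : σ ≠ 1 := by
    intro h
    rw [h, orderOf_one] at hσ2
    omega
  obtain ⟨θ, hθ⟩ : ∃ θ : F, σ θ ≠ θ := by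
    by_contra hcon
    push Not at hcon
    exact hσne (RingEquiv.ext hcon)
  obtain ⟨θ', hθ'⟩ : ∃ θ' : F, θ' = σ θ := ⟨_, rfl⟩
  have h1 : σ θ = θ' := hθ'.symm
  have h2 : σ θ' = θ := by rw [hθ', sigma_sigma σ hσ2]
  have hne : θ ≠ θ' := by
    rw [hθ']
    exact Ne.symm hθ
  obtain ⟨s₀, hs₀⟩ := (hj (θ + θ')).mp (by rw [map_add, h1, h2, add_comm])
  obtain ⟨b₀, hb₀⟩ := (hj (θ * θ')).mp (by rw [map_mul, h1, h2, mul_comm])
  have hsum : θ + θ' = -j (-s₀) := by rw [map_neg, neg_neg, hs₀]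
  have hprod : θ * θ' = j b₀ := hb₀.symm
  have hab₀ : ∀ z₁ z₂ : F₀, z₁ ^ 2 + (-s₀) * z₁ * z₂ + b₀ * z₂ ^ 2 = 0 → z₁ = 0 ∧ z₂ = 0 := by
    intro z₁ z₂ h
    have h' : (j z₁ - θ * j z₂) * (j z₁ - θ' * j z₂) = 0 := by
      have e := congrArg j h
      simp only [map_add, map_mul, map_pow, map_neg, map_zero] at e
      rw [hs₀, hb₀] at e
      linear_combination e
    have hz₂ : z₂ = 0 := by
      by_contra hz
      have hjz : j z₂ ≠ 0 := (map_ne_zero j).mpr hz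
      rcases mul_eq_zero.mp h' with h3 | h3
      · apply hθ
        have e : θ = j (z₁ / z₂) := by
          rw [map_div₀]
          field_simp
          linear_combination -h3
        rw [e]
        exact (hj _).mpr ⟨_, rfl⟩
      · have e : θ' = j (z₁ / z₂) := by
          rw [map_div₀]
          field_simp
          linear_combination -h3
        have h4 : σ θ' = θ' := by
          rw [e]
          exact (hj _).mpr ⟨_, rfl⟩
        rw [h2] at h4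
        exact hne h4
    subst hz₂
    rw [map_zero, mul_zero, sub_zero, mul_zero, sub_zero] at h'
    exact ⟨j.injective (by rw [map_zero]; exact mul_self_eq_zero.mp h'), rfl⟩
  -- the standard semisimilarity
  obtain ⟨X₀, hX₀⟩ : ∃ X₀ : PS (k + 1) F, X₀ = Γ₀ * fld (k + 1) σ := ⟨_, rfl⟩
  have hXr : (X₀ : SemiGL (Fin (k + 1) ⊕ Fin (k + 1)) F).right = σ := by
    rw [hX₀, Subgroup.coe_mul, SemidirectProduct.mul_right, hΓ1, one_mul]
    rfl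
  have hXl : ((X₀ : SemiGL (Fin (k + 1) ⊕ Fin (k + 1)) F).left :
        Matrix (Fin (k + 1) ⊕ Fin (k + 1)) (Fin (k + 1) ⊕ Fin (k + 1)) F) =
      Cfsg.reflectionMatrix ⇑(plusQF (k + 1) F) (gfV k) := by
    rw [hX₀, Subgroup.coe_mul, mul_left_mat, hΓ1, fld_left, hΓ2,
      Matrix.map_one _ (map_zero _) (map_one _), Matrix.mul_one]
  have hjX : IsFixEmb (X₀ : SemiGL (Fin (k + 1) ⊕ Fin (k + 1)) F).right j := by
    rw [hXr]
    exact hj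
  have hσX : orderOf (X₀ : SemiGL (Fin (k + 1) ⊕ Fin (k + 1)) F).right = 2 := by
    rw [hXr]
    exact hσ2
  have h1X : (X₀ : SemiGL (Fin (k + 1) ⊕ Fin (k + 1)) F).right θ = θ' := by
    rw [hXr]
    exact h1
  have h2X : (X₀ : SemiGL (Fin (k + 1) ⊕ Fin (k + 1)) F).right θ' = θ := by
    rw [hXr]
    exact h2
  rw [← hX₀] at hxe
  subst hxe
  refine ⟨even_iff_two_dvd.mpr hdiv, ?_, ⟨-s₀, b₀, hab₀, ?_⟩, ?_, ?_, ?_⟩
  · intro y hy hy2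
    obtain ⟨σ', b₁', hσ'2, hb₁', hye⟩ := gf_class_rep k hk hF Γ₀ hΓ1 hΓ2 y hy hy2
    have hσ'ne : σ' ≠ 1 := by
      intro h
      rw [h, orderOf_one] at hσ'2
      omega
    have hsq : ∀ ρ : RingAut F, orderOf ρ = 2 → ρ * ρ = 1 := by
      intro ρ hρ
      rw [← pow_two, ← hρ, pow_orderOf_eq_one]
    have hσσ' : σ' = σ := Cfsg.Agent.Lib.Helper43.FieldAut.involution_unique hF σ' σ hσ'ne
      (hsq σ' hσ'2) hσne (hsq σ hσ2)
    rw [hσσ', ← hX₀] at hye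
    refine ⟨semiAut ⇑(plusQF (k + 1) F) b₁' * (semiAut ⇑(plusQF (k + 1) F) b₁)⁻¹,
      ⟨b₁' * b₁⁻¹, Subgroup.mul_mem _ hb₁' (Subgroup.inv_mem _ hb₁), by rw [map_mul, map_inv]⟩,
      ?_⟩
    rw [hye]
    group
  · intro Q₀f hQ₀f
    obtain ⟨e1⟩ := conj_centralizer_equiv
      ((pN (k + 1) (F := F)).map (semiAut ⇑(plusQF (k + 1) F)))
      (semiAut ⇑(plusQF (k + 1) F) b₁) (semiAut ⇑(plusQF (k + 1) F) X₀)
    obtain ⟨e2⟩ := gf_centralizer_equiv k (by omega) hk2 j (-s₀) b₀ hab₀ θ θ' hne hsum hprod X₀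
      hjX hXl h1X h2X Q₀f hQ₀f
    exact ⟨e1.trans e2⟩
  · intro h2c
    have hle := pN_le_inn_char2 h2c (k + 1) hm3
    rw [Cfsg.Agent.Lib.Helper43.FieldAut.splitClassCount_eq _ _ (inn_le_pN (k + 1) hm3),
      Subgroup.relIndex_eq_one]
    exact le_trans hle le_sup_left
  · intro h2c hcond
    rw [Cfsg.Agent.Lib.Helper43.FieldAut.splitClassCount_eq _ _ (inn_le_pN (k + 1) hm3),
      conj_relIndex_eq]
    exact (gf_count_odd h2c k hk2 j (-s₀) b₀ hab₀ θ θ' hne hsum hprod X₀ hjX hσX hXl h1X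
      h2X).1 hcond
  · intro h2c hcond
    rw [Cfsg.Agent.Lib.Helper43.FieldAut.splitClassCount_eq _ _ (inn_le_pN (k + 1) hm3),
      conj_relIndex_eq]
    exact (gf_count_odd h2c k hk2 j (-s₀) b₀ hab₀ θ θ' hne hsum hprod X₀ hjX hσX hXl h1X
      h2X).2 hcond

/-- **Involutory graph-field automorphisms of `PΩ⁺_{2k+2}(F)`, `k ≥ 4`.** -/
theorem gf_final {p f : ℕ} [Fact p.Prime] (hF : Fintype.card F = p ^ f) (k : ℕ) (hk : 4 ≤ k)
    (x : MulAut (Cfsg.POmega F (Cfsg.quadFormPlus (k + 1) F)))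
    (hx : Cfsg.IsGraphFieldAutClassPOmegaPlus (k + 1) x) (hx2 : orderOf x = 2)
    (hF₀ : Fintype.card F₀ = p ^ (f / 2)) :
    Even f ∧
    (∀ y : MulAut (Cfsg.POmega F (Cfsg.quadFormPlus (k + 1) F)),
      Cfsg.IsGraphFieldAutClassPOmegaPlus (k + 1) y → orderOf y = 2 →
        Cfsg.IsConjUnder (Cfsg.inndiagPOmegaPlus (k + 1) F) x y) ∧
    (∃ a₀ b₀ : F₀, (∀ z₁ z₂ : F₀, z₁ ^ 2 + a₀ * z₁ * z₂ + b₀ * z₂ ^ 2 = 0 → z₁ = 0 ∧ z₂ = 0) ∧
      Nonempty (↥(Cfsg.inndiagPOmegaPlus (k + 1) F ⊓ Subgroup.centralizer {x}) ≃*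
        ↥(Cfsg.inndiagPOmegaMinus k F₀ a₀ b₀))) ∧
    (p = 2 → Cfsg.splitClassCount (Cfsg.inndiagPOmegaPlus (k + 1) F)
      (Cfsg.Inn (Cfsg.POmega F (Cfsg.quadFormPlus (k + 1) F))) x = 1) ∧
    ((p ≠ 2 ∧ Odd (k + 1) ∧ p ^ (f / 2) % 4 = 1) →
      Cfsg.splitClassCount (Cfsg.inndiagPOmegaPlus (k + 1) F)
        (Cfsg.Inn (Cfsg.POmega F (Cfsg.quadFormPlus (k + 1) F))) x = 4) ∧
    ((p ≠ 2 ∧ ¬ (Odd (k + 1) ∧ p ^ (f / 2) % 4 = 1)) →
      Cfsg.splitClassCount (Cfsg.inndiagPOmegaPlus (k + 1) F)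
        (Cfsg.Inn (Cfsg.POmega F (Cfsg.quadFormPlus (k + 1) F))) x = 2) := by
  have hk2 : 2 ≤ k := by omega
  obtain ⟨h1, h2, ⟨a₀, b₀, hab₀, h3⟩, h4, h5, h6⟩ := gf_main k hk hk2 _ (plusQF_coe (k + 1) F) x
    hx hx2 hF (F₀ := F₀) hF₀
  have hp2 := two_eq_zero_iff_p hF
  refine ⟨h1, h2, ⟨a₀, b₀, hab₀, ?_⟩, ?_, ?_, ?_⟩
  · rw [inndiag_eq_map k hk2 a₀ b₀ hab₀]
    exact h3 _ (minusQF_coe k F₀ a₀ b₀)
  · intro hp
    exact h4 (hp2.mpr hp)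
  · rintro ⟨hp, hodd, hmod⟩
    exact h5 (fun h => hp (hp2.mp h)) ⟨hodd, by rw [hF₀]; exact hmod⟩
  · rintro ⟨hp, hn⟩
    exact h6 (fun h => hp (hp2.mp h)) (fun h => hn ⟨h.1, by rw [← hF₀]; exact h.2⟩)

end main

end Cfsg.Agent.Lib.Helper14
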