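import Mathlib
import Cfsg.Agent.Lib.Helper14.Spinor3

set_option autoImplicit false

namespace Cfsg.Agent.Lib.Helper14

open Matrix

section gram

/-- Multiplying by a non-zero square does not change squareness. -/
theorem isSquare_sq_mul_iff {F : Type*} [Field F] {s x : F} (hs : s ≠ 0) :
    IsSquare (s * s * x) ↔ IsSquare x := by
  constructor
  · rintro ⟨y, hy⟩
    refine ⟨y / s, ?_⟩
    field_simp
    linear_combination hy
  · rintro ⟨y, rfl⟩
    exact ⟨s * y, by ring⟩

/-- Squareness of the Gram determinant of a bilinear form does not depend on the basis. -/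
theorem isSquare_gram_det_iff' {F : Type*} [Field F] {κ : Type*} [Fintype κ] [DecidableEq κ]
    {ι : Type*} [Fintype ι] [DecidableEq ι]
    (B : LinearMap.BilinForm F (κ → F)) (b : Module.Basis ι F (κ → F)) :
    IsSquare (Matrix.of (fun i j : ι => B (b i) (b j))).det ↔
      IsSquare (LinearMap.BilinForm.toMatrix' B).det := by
  classical
  let e : ι ≃ κ := b.indexEquiv (Pi.basisFun F κ)
  let b' : Module.Basis κ F (κ → F) := b.reindex e
  have h1 : (Matrix.of (fun i j : ι => B (b i) (b j))).det
      = (LinearMap.BilinForm.toMatrix b' B).det := by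
    have : Matrix.of (fun i j : ι => B (b i) (b j))
        = (LinearMap.BilinForm.toMatrix b' B).submatrix e e := by
      ext i j
      simp [LinearMap.BilinForm.toMatrix_apply, b']
    rw [this, Matrix.det_submatrix_equiv_self]
  have h2 := LinearMap.BilinForm.toMatrix_mul_basis_toMatrix (b := Pi.basisFun F κ) b' B
  rw [LinearMap.BilinForm.toMatrix_basisFun] at h2
  have h3 : ((Pi.basisFun F κ).toMatrix b').det ≠ 0 := by
    have h4 := Module.Basis.toMatrix_mul_toMatrix_flip (Pi.basisFun F κ) b'
    intro h0
    have h5 := congrArg Matrix.det h4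
    rw [Matrix.det_mul, h0, zero_mul, Matrix.det_one] at h5
    exact zero_ne_one h5
  rw [h1, ← h2, Matrix.det_mul, Matrix.det_mul, Matrix.det_transpose]
  constructor
  · rintro ⟨y, hy⟩
    refine ⟨y / ((Pi.basisFun F κ).toMatrix b').det, ?_⟩
    field_simp
    linear_combination hy
  · rintro ⟨y, hy⟩
    exact ⟨((Pi.basisFun F κ).toMatrix b').det * y, by rw [hy]; ring⟩

end gram

section ortho

variable {ι : Type} [Fintype ι] [DecidableEq ι] {F : Type*} [Field F]

/-- A product of reflections fixes every vector orthogonal to all the reflecting vectors. -/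
theorem prod_refl_ortho_fix (Q : QuadraticForm F (ι → F)) (l : List (ι → F)) (x : ι → F)
    (hx : ∀ u ∈ l, QuadraticMap.polar ⇑Q u x = 0) :
    (l.map (Cfsg.reflectionMatrix ⇑Q)).prod *ᵥ x = x := by
  induction l with
  | nil => simp
  | cons a l ih =>
    rw [List.map_cons, List.prod_cons, ← mulVec_mulVec,
      ih (fun u hu => hx u (List.mem_cons_of_mem _ hu)), reflectionMatrix_mulVec,
      hx a List.mem_cons_self]
    simp

/-- A product of reflections along pairwise orthogonal vectors negates each of them. -/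
theorem prod_refl_ortho_neg (Q : QuadraticForm F (ι → F)) (l : List (ι → F))
    (hl : ∀ u ∈ l, Q u ≠ 0)
    (hp : l.Pairwise (fun u v => QuadraticMap.polar ⇑Q u v = 0)) (x : ι → F) (hx : x ∈ l) :
    (l.map (Cfsg.reflectionMatrix ⇑Q)).prod *ᵥ x = -x := by
  induction l with
  | nil => simp at hx
  | cons a l ih =>
    rw [List.pairwise_cons] at hp
    rw [List.map_cons, List.prod_cons, ← mulVec_mulVec]
    rcases List.mem_cons.mp hx with rfl | hx'
    · rw [prod_refl_ortho_fix Q l x
        (fun u hu => by rw [QuadraticMap.polar_comm]; exact hp.1 u hu),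
        reflectionMatrix_mulVec, polar_self_eq]
      have hne : Q x ≠ 0 := hl x List.mem_cons_self
      have e : (Q x)⁻¹ * (2 * Q x) = 2 := by field_simp
      rw [e, two_smul]
      abel
    · rw [ih (fun u hu => hl u (List.mem_cons_of_mem _ hu)) hp.2 hx', mulVec_neg,
        reflectionMatrix_mulVec, hp.1 x hx']
      simp

variable [Fintype F]

/-- `-1 ∈ Ω(Q)` iff the discriminant is a square, in even dimension over a finite field of odd
order. -/
theorem neg_one_mem_omega_iff_disc (h2 : (2 : F) ≠ 0) (he : Even (Fintype.card ι))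
    (Q : QuadraticForm F (ι → F)) (hQ : (QuadraticMap.polarBilin Q).Nondegenerate) :
    (∃ g : ↥(Cfsg.isometryGroup F ⇑Q), g ∈ Cfsg.Omega F ⇑Q ∧
      ((g : Matrix.GeneralLinearGroup ι F) : Matrix ι ι F) = -1) ↔
    IsSquare (Matrix.of (fun i j : ι =>
      QuadraticMap.polar ⇑Q (Pi.single i 1) (Pi.single j 1))).det := by
  letI : Invertible (2 : F) := invertibleOfNonzero h2
  have hsymm : (QuadraticMap.polarBilin Q).IsSymm := by
    rw [LinearMap.isSymm_def]
    intro x y
    simp only [QuadraticMap.polarBilin_apply_apply, RingHom.id_apply]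
    exact QuadraticMap.polar_comm _ _ _
  obtain ⟨v, hv⟩ := LinearMap.BilinForm.exists_orthogonal_basis hsymm
  have hvne : ∀ i, Q (v i) ≠ 0 := by
    intro i h0
    apply hv.not_isOrtho_basis_self_of_separatingLeft hQ.1 i
    show QuadraticMap.polarBilin Q (v i) (v i) = 0
    rw [QuadraticMap.polarBilin_apply_apply, polar_self_eq, h0, mul_zero]
  have hortho : ∀ i j, i ≠ j → QuadraticMap.polar ⇑Q (v i) (v j) = 0 := by
    intro i j hij
    have := LinearMap.isOrthoᵢ_def.mp hv i j hij
    simpa using this
  set l : List (ι → F) := List.ofFn v with hl_def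
  have hl : ∀ u ∈ l, Q u ≠ 0 := by
    intro u hu
    rw [hl_def, List.mem_ofFn] at hu
    obtain ⟨i, rfl⟩ := hu
    exact hvne i
  have hp : l.Pairwise (fun u v => QuadraticMap.polar ⇑Q u v = 0) := by
    rw [hl_def, List.pairwise_ofFn]
    intro i j hij
    exact hortho i j (ne_of_lt hij)
  have hM : (l.map (Cfsg.reflectionMatrix ⇑Q)).prod = -1 := by
    have hlin : ((l.map (Cfsg.reflectionMatrix ⇑Q)).prod).mulVecLin =
        (-1 : Matrix ι ι F).mulVecLin := by
      apply v.ext
      intro i
      rw [Matrix.mulVecLin_apply, Matrix.mulVecLin_apply,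
        prod_refl_ortho_neg Q l hl hp (v i) (by rw [hl_def, List.mem_ofFn]; exact ⟨i, rfl⟩),
        Matrix.neg_mulVec, Matrix.one_mulVec]
    rw [ext_iff_mulVec]
    intro x
    have := congrArg (fun f => f x) hlin
    simpa only [Matrix.mulVecLin_apply] using this
  rw [exists_mem_omega_iff h2 Q hQ _ rfl l hl _ hM]
  have hlen : l.length = Fintype.card ι := by
    rw [hl_def, List.length_ofFn, Module.finrank_fintype_fun_eq_card]
  have hprod : (l.map ⇑Q).prod = ∏ i, Q (v i) := by
    rw [hl_def, List.map_ofFn, List.prod_ofFn]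
    rfl
  rw [hlen, hprod]
  have hgram : Matrix.of (fun i j : ι =>
      QuadraticMap.polar ⇑Q (Pi.single i 1) (Pi.single j 1)) =
      LinearMap.BilinForm.toMatrix' (QuadraticMap.polarBilin Q) := by
    ext i j
    simp [LinearMap.BilinForm.toMatrix'_apply]
  rw [hgram, ← isSquare_gram_det_iff' (QuadraticMap.polarBilin Q) v]
  have hdiag : Matrix.of (fun i j => QuadraticMap.polarBilin Q (v i) (v j)) =
      Matrix.diagonal (fun i => 2 * Q (v i)) := by
    ext i j
    by_cases hij : i = j
    · subst hij
      simp [polar_self_eq]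
    · simp [Matrix.diagonal_apply, hij, hortho i j hij]
  have hcard : (Finset.univ : Finset (Fin (Module.finrank F (ι → F)))).card = Fintype.card ι := by
    simp
  rw [hdiag, Matrix.det_diagonal, Finset.prod_mul_distrib, Finset.prod_const, hcard]
  obtain ⟨k, hk⟩ := he
  have hpow : (2 : F) ^ Fintype.card ι = 2 ^ k * 2 ^ k := by rw [hk, pow_add]
  rw [hpow, isSquare_sq_mul_iff (pow_ne_zero k h2)]
  simp [hk]

end ortho

end Cfsg.Agent.Lib.Helper14
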