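import Mathlib
import Cfsg.Agent.Lib.Helper14.NondegG

/-!
# Stabilisers of a pair of non-isometric nondegenerate halves
-/

set_option autoImplicit false

namespace Cfsg.Agent.Lib.Helper14

open Module Matrix Cfsg.Agent.Lib.Helper99 Cfsg.Agent.Lib.Helper44

section noniso

variable {ι : Type} [Fintype ι] [DecidableEq ι] {F : Type*} [Field F]

/-- An isometry mapping `W` onto `W'` witnesses that the two subspaces are isometric. -/
theorem areIsometricFor_of_map (Q : (ι → F) → F) (h : ↥(Cfsg.isometryGroup F Q))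
    (W W' : Submodule F (ι → F))
    (hmap : W.map (Matrix.mulVecLin ((h : Matrix.GeneralLinearGroup ι F) : Matrix ι ι F)) = W') :
    Cfsg.Geo.AreIsometricFor Q W W' := by
  refine ⟨(Submodule.equivMapOfInjective _ (isom_mulVecLin_injective h) W).trans
    (LinearEquiv.ofEq _ _ hmap), ?_⟩
  intro w
  have h1 : (((Submodule.equivMapOfInjective _ (isom_mulVecLin_injective h) W).trans
      (LinearEquiv.ofEq _ _ hmap)) w : ι → F) =
      ((h : Matrix.GeneralLinearGroup ι F) : Matrix ι ι F) *ᵥ (w : ι → F) := rfl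
  rw [h1]
  exact isom_preserves h _

variable [Fintype F]

/-- Balanced case with non-isometric halves. -/
theorem nondeg_core_noniso (Q : QuadraticForm F (ι → F))
    (hQ : (QuadraticMap.polarBilin Q).Nondegenerate) (hn : 13 ≤ Fintype.card ι)
    (W : Submodule F (ι → F)) (hW : Cfsg.Geo.IsNondegenerateOn (QuadraticMap.polar ⇑Q) W)
    (hbal : 2 * finrank F W = Fintype.card ι)
    (hni : ¬ Cfsg.Geo.AreIsometricFor (⇑Q) W (Cfsg.Agent.Lib.Helper44.orth Q W))
    (hirr' : IrrHyp Q (Cfsg.Agent.Lib.Helper44.orth Q W))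
    (M : Subgroup ↥(Cfsg.isometryGroup F ⇑Q))
    (hPM : ∀ g ∈ commutator ↥(Cfsg.isometryGroup F ⇑Q),
      (∀ x ∈ W, ((g : Matrix.GeneralLinearGroup ι F) : Matrix ι ι F) *ᵥ x ∈ W) → g ∈ M) :
    (∀ g ∈ M, ∀ x ∈ W, ((g : Matrix.GeneralLinearGroup ι F) : Matrix ι ι F) *ᵥ x ∈ W) ∨
      commutator ↥(Cfsg.isometryGroup F ⇑Q) ≤ M := by
  have hD := orthDecomp_of_nondegOn Q hQ W hW
  have S : NSetup Q W (Cfsg.Agent.Lib.Helper44.orth Q W) M := ⟨hQ, by omega, hD, hPM⟩
  rcases nondeg_max S (by omega) hirr' with h | h | ⟨h, hh, hperp⟩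
  · left; exact h
  · right; exact h
  · exfalso
    apply hni
    apply areIsometricFor_of_map (⇑Q) h
    apply Submodule.eq_of_le_of_finrank_eq
    · rintro _ ⟨x, hx, rfl⟩
      rw [Cfsg.Agent.Lib.Helper44.mem_orth_iff]
      intro y hy
      exact hperp y hy x hx
    · have h1 := finrank_map_isom (⇑Q) h W
      have h2 := Cfsg.Agent.Lib.Helper44.finrank_orth Q hQ W
      rw [Module.finrank_fintype_fun_eq_card] at h2
      rw [h1, h2]
      omega

/-- The stabiliser in `Ω` of a pair of non-isometric orthogonal halves is the stabiliser of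
either half. -/
theorem decompStab_two_eq (Q : QuadraticForm F (ι → F))
    (D : Fin 2 → Submodule F (ι → F))
    (hD1 : D 1 = Cfsg.Agent.Lib.Helper44.orth Q (D 0))
    (hni : ¬ Cfsg.Geo.AreIsometricFor (⇑Q) (D 0) (D 1)) :
    Cfsg.Geo.decompositionStabilizer D ⊓ Cfsg.Geo.omegaGL ⇑Q =
      Cfsg.Geo.subspaceStabilizer (D 0) ⊓ Cfsg.Geo.omegaGL ⇑Q := by
  apply le_antisymm
  · intro g hg
    obtain ⟨hgD, hgΩ⟩ := Subgroup.mem_inf.mp hg
    obtain ⟨g', -, rfl⟩ := Cfsg.Agent.Lib.Helper44.exists_of_mem_omegaGL hgΩ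
    refine Subgroup.mem_inf.mpr ⟨?_, hgΩ⟩
    obtain ⟨σ, hσ⟩ := hgD
    apply Cfsg.Agent.Lib.Helper44.mem_subspaceStabilizer_of_isom g' (D 0)
    have h0 := hσ 0
    rw [Matrix.toLin'_apply'] at h0
    have hcases : σ 0 = 0 ∨ σ 0 = 1 := by
      generalize σ 0 = j
      fin_cases j
      · left; rfl
      · right; rfl
    rcases hcases with h | h
    · rw [h] at h0
      intro x hx
      rw [← h0]
      exact ⟨x, hx, rfl⟩
    · rw [h] at h0
      exact absurd (areIsometricFor_of_map (⇑Q) g' (D 0) (D 1) h0) hni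
  · intro g hg
    obtain ⟨hgW, hgΩ⟩ := Subgroup.mem_inf.mp hg
    obtain ⟨g', -, rfl⟩ := Cfsg.Agent.Lib.Helper44.exists_of_mem_omegaGL hgΩ
    refine Subgroup.mem_inf.mpr ⟨?_, hgΩ⟩
    have h0 : ∀ x ∈ D 0, ((g' : Matrix.GeneralLinearGroup ι F) : Matrix ι ι F) *ᵥ x ∈ D 0 :=
      fun x hx => (hgW x).mp hx
    have h1 : ∀ x ∈ D 1, ((g' : Matrix.GeneralLinearGroup ι F) : Matrix ι ι F) *ᵥ x ∈ D 1 := by
      rw [hD1]
      exact stab_orth Q g' (D 0) h0
    refine ⟨1, fun i => ?_⟩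
    rw [Matrix.toLin'_apply', Equiv.Perm.one_apply]
    fin_cases i
    · exact Cfsg.Agent.Lib.Helper44.map_eq_of_forall_mem (⇑Q) g' (D 0) h0
    · exact Cfsg.Agent.Lib.Helper44.map_eq_of_forall_mem (⇑Q) g' (D 1) h1

end noniso

end Cfsg.Agent.Lib.Helper14
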