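import Mathlib
import Cfsg.Agent.Lib.Helper14.OmegaPerfect

set_option autoImplicit false

namespace Cfsg.Agent.Lib.Helper14

open Matrix Module

section siegelgen

variable {ι : Type} [Fintype ι] [DecidableEq ι] {F : Type*} [Field F]

/-- The set of long root elements (Siegel transformations attached to a totally singular
line). -/
def longRootSet (Q : QuadraticForm F (ι → F)) : Set ↥(Cfsg.isometryGroup F ⇑Q) :=
  {g | ∃ (u v : ι → F) (c : F), Q u = 0 ∧ Q v = 0 ∧ QuadraticMap.polar ⇑Q u v = 0 ∧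
    ((g : Matrix.GeneralLinearGroup ι F) : Matrix ι ι F) = Cfsg.siegelMatrix ⇑Q u v c}

theorem eich_singular_mem (Q : QuadraticForm F (ι → F))
    (hQ : (QuadraticMap.polarBilin Q).Nondegenerate) {u v : ι → F} (hu : Q u = 0) (hv : Q v = 0)
    (huv : QuadraticMap.polar ⇑Q u v = 0) : eichElt Q hQ u v hu huv ∈ longRootSet Q :=
  ⟨u, v, 1, hu, hv, huv, by rw [eichElt_coe, eichMat_of_singular Q u hv]⟩

/-- In dimension at least five over a finite field, `Ω` is generated by the long root
elements. -/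
theorem omega_eq_closure_longRoot [Fintype F] (Q : QuadraticForm F (ι → F))
    (hQ : (QuadraticMap.polarBilin Q).Nondegenerate) (hn : 5 ≤ Fintype.card ι) :
    commutator ↥(Cfsg.isometryGroup F ⇑Q) = Subgroup.closure (longRootSet Q) := by
  rw [omega_eq_closure_eich Q hQ hn]
  apply le_antisymm
  · rw [Subgroup.closure_le]
    rintro g ⟨u, w, hu, huw, hg⟩
    by_cases hu0 : u = 0
    · have : g = 1 := by
        apply isom_ext
        rw [hg, hu0, eichMat_zero_left]
        rfl
      rw [this]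
      exact Subgroup.one_mem _
    have hTop : Cfsg.Agent.Lib.Helper99.QNondegOn Q ⊤ :=
      fun v _ hv => hQ.1 v (fun x => hv x Submodule.mem_top)
    obtain ⟨û, -, hQû, huû⟩ := Cfsg.Agent.Lib.Helper99.exists_hyp_partner Q ⊤ hTop
      (Submodule.mem_top (x := u)) hu0 hu
    have hM := Cfsg.Agent.Lib.Helper99.hyp_nondegOn Q hTop (Submodule.mem_top (x := u))
      (Submodule.mem_top (x := û)) hu hQû huû
    have hMmem : ∀ m, m ∈ ((⊤ : Submodule F (ι → F)) ⊓ Cfsg.Agent.Lib.Helper99.qperp Q u û) ↔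
        QuadraticMap.polar ⇑Q m u = 0 ∧ QuadraticMap.polar ⇑Q m û = 0 := by
      intro m
      rw [Submodule.mem_inf, Cfsg.Agent.Lib.Helper99.mem_qperp]
      simp
    have hrank := finrank_le_inf_ker_ker (QuadraticMap.polarBilin Q u)
      (QuadraticMap.polarBilin Q û)
    have hle : LinearMap.ker (QuadraticMap.polarBilin Q u) ⊓
        LinearMap.ker (QuadraticMap.polarBilin Q û) ≤
        (⊤ : Submodule F (ι → F)) ⊓ Cfsg.Agent.Lib.Helper99.qperp Q u û := by
      intro m hm
      rw [hMmem]
      exact ⟨by rw [QuadraticMap.polar_comm]; exact LinearMap.mem_ker.mp hm.1,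
        by rw [QuadraticMap.polar_comm]; exact LinearMap.mem_ker.mp hm.2⟩
    have hM3 : 3 ≤ finrank F
        ↥((⊤ : Submodule F (ι → F)) ⊓ Cfsg.Agent.Lib.Helper99.qperp Q u û) := by
      have := Submodule.finrank_mono hle
      rw [Module.finrank_fintype_fun_eq_card] at hrank
      omega
    obtain ⟨s1, hs1M, hs10, hQs1⟩ := Cfsg.Agent.Lib.Helper99.exists_isotropic Q _ hM3
    obtain ⟨s2, hs2M, hQs2, hs12⟩ := Cfsg.Agent.Lib.Helper99.exists_hyp_partner Q _ hM hs1M
      hs10 hQs1
    obtain ⟨m, hm, α, β, hw⟩ := Cfsg.Agent.Lib.Helper99.hyp_decomp Q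
      (Submodule.mem_top (x := u)) (Submodule.mem_top (x := û)) hu hQû huû
      (Submodule.mem_top (x := w))
    have hmu := ((hMmem m).mp hm).1
    have hβ : β = 0 := by
      have h := huw
      rw [hw, QuadraticMap.polar_add_right, QuadraticMap.polar_add_right,
        QuadraticMap.polar_smul_right, QuadraticMap.polar_smul_right,
        QuadraticMap.polar_comm (⇑Q) u m, hmu, polar_self_eq, hu, huû] at h
      simpa using h
    obtain ⟨m', hm', a, b, hmdec⟩ := Cfsg.Agent.Lib.Helper99.hyp_decomp Q hs1M hs2M hQs1 hQs2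
      hs12 hm
    have hm'M := (Submodule.mem_inf.mp hm').1
    have hm'q := (Cfsg.Agent.Lib.Helper99.mem_qperp Q s1 s2 m').mp (Submodule.mem_inf.mp hm').2
    obtain ⟨t, ht⟩ : ∃ t, t = m' + s2 - Q m' • s1 := ⟨_, rfl⟩
    have hQt : Q t = 0 := by
      rw [ht, quad_sub_smul, hQs1, QuadraticMap.map_add (⇑Q) m' s2, hQs2, hm'q.2,
        QuadraticMap.polar_add_left, hm'q.1, QuadraticMap.polar_comm (⇑Q) s2 s1, hs12]
      ring
    have hus1 : QuadraticMap.polar ⇑Q u s1 = 0 := by
      rw [QuadraticMap.polar_comm]; exact ((hMmem s1).mp hs1M).1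
    have hus2 : QuadraticMap.polar ⇑Q u s2 = 0 := by
      rw [QuadraticMap.polar_comm]; exact ((hMmem s2).mp hs2M).1
    have hum' : QuadraticMap.polar ⇑Q u m' = 0 := by
      rw [QuadraticMap.polar_comm]; exact ((hMmem m').mp hm'M).1
    have hut : QuadraticMap.polar ⇑Q u t = 0 := by
      rw [ht, QuadraticMap.polar_sub_right, QuadraticMap.polar_add_right,
        QuadraticMap.polar_smul_right, hum', hus2, hus1]
      simp
    have h1 : QuadraticMap.polar ⇑Q u ((Q m' + a) • s1) = 0 := by
      rw [QuadraticMap.polar_smul_right, hus1, smul_zero]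
    have h2 : QuadraticMap.polar ⇑Q u ((b - 1) • s2) = 0 := by
      rw [QuadraticMap.polar_smul_right, hus2, smul_zero]
    have h12 : QuadraticMap.polar ⇑Q u (t + (Q m' + a) • s1) = 0 := by
      rw [QuadraticMap.polar_add_right, hut, h1, add_zero]
    have h123 : QuadraticMap.polar ⇑Q u (t + (Q m' + a) • s1 + (b - 1) • s2) = 0 := by
      rw [QuadraticMap.polar_add_right, h12, h2, add_zero]
    have hαu : QuadraticMap.polar ⇑Q u (α • u) = 0 := by
      rw [QuadraticMap.polar_smul_right, polar_self_eq, hu]; simp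
    have hw2 : w = (t + (Q m' + a) • s1 + (b - 1) • s2) + α • u := by
      rw [hw, hβ, hmdec, ht]; module
    have hQ1 : Q ((Q m' + a) • s1) = 0 := by rw [QuadraticMap.map_smul, hQs1, smul_zero]
    have hQ2 : Q ((b - 1) • s2) = 0 := by rw [QuadraticMap.map_smul, hQs2, smul_zero]
    have e : g = eichElt Q hQ u t hu hut * eichElt Q hQ u ((Q m' + a) • s1) hu h1 *
        eichElt Q hQ u ((b - 1) • s2) hu h2 := by
      apply isom_ext
      rw [hg]
      show eichMat Q u w = eichMat Q u t * eichMat Q u ((Q m' + a) • s1) *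
        eichMat Q u ((b - 1) • s2)
      rw [eichMat_mul Q hu hut h1, eichMat_mul Q hu h12 h2]
      have h3 := eichMat_mul Q hu h123 hαu
      rw [eichMat_smul_self Q hu, mul_one] at h3
      rw [h3, ← hw2]
    rw [e]
    exact Subgroup.mul_mem _ (Subgroup.mul_mem _
      (Subgroup.subset_closure (eich_singular_mem Q hQ hu hQt hut))
      (Subgroup.subset_closure (eich_singular_mem Q hQ hu hQ1 h1)))
      (Subgroup.subset_closure (eich_singular_mem Q hQ hu hQ2 h2))
  · apply Subgroup.closure_mono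
    rintro g ⟨u, v, c, hu, hv, huv, hg⟩
    have hQcv : Q (c • v) = 0 := by rw [QuadraticMap.map_smul, hv, smul_zero]
    refine ⟨u, c • v, hu, by rw [QuadraticMap.polar_smul_right, huv, smul_zero], ?_⟩
    rw [hg, siegel_smul_right, eichMat_of_singular Q u hQcv]

end siegelgen

end Cfsg.Agent.Lib.Helper14
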