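import Mathlib
import Cfsg.Agent.Lib.Helper14.SubfB

/-!
# Overgroups of a subfield subgroup containing a rational long root element with an irrational
coefficient
-/

set_option autoImplicit false

namespace Cfsg.Agent.Lib.Helper14

open Matrix Module

section fieldC

/-- A subring of `F` containing the subfield `F₀` of prime index and an element outside `F₀` is
everything. -/
theorem subring_univ_of_prime {F : Type*} [Field F] [Fintype F] (F₀ : Subfield F) (r : ℕ)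
    (hr : r.Prime) (hcard : Fintype.card F = Nat.card F₀ ^ r) (S : Set F)
    (hadd : ∀ x y, x ∈ S → y ∈ S → x + y ∈ S) (hmul : ∀ x y, x ∈ S → y ∈ S → x * y ∈ S)
    (hF₀ : ∀ x ∈ F₀, x ∈ S) {c : F} (hc : c ∈ S) (hc0 : c ∉ F₀) : ∀ x, x ∈ S := by
  classical
  have hfr : finrank ↥F₀ F = r := by
    have h1 := Module.natCard_eq_pow_finrank (K := ↥F₀) (V := F)
    rw [Nat.card_eq_fintype_card, hcard] at h1
    have h2 : 1 < Nat.card ↥F₀ := Finite.one_lt_card
    exact (Nat.pow_right_injective h2 h1).symm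
  obtain ⟨A, hA⟩ : ∃ A : Subalgebra ↥F₀ F, ∀ x, x ∈ A ↔ x ∈ S := by
    refine ⟨{ carrier := S
              mul_mem' := fun {x y} hx hy => hmul x y hx hy
              add_mem' := fun {x y} hx hy => hadd x y hx hy
              algebraMap_mem' := fun x => hF₀ _ x.2 }, fun x => Iff.rfl⟩
  have hfield : IsField ↥A := Subalgebra.isField_of_algebraic A
  obtain ⟨L, hL⟩ : ∃ L : IntermediateField ↥F₀ F, L.toSubalgebra = A :=
    ⟨Subalgebra.toIntermediateField' A hfield, rfl⟩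
  have htower := Module.finrank_mul_finrank ↥F₀ ↥L F
  rw [hfr] at htower
  have hdvd : finrank ↥F₀ ↥L ∣ r := Dvd.intro _ htower
  rcases (Nat.dvd_prime hr).mp hdvd with h1 | h1
  · exfalso
    rw [IntermediateField.finrank_eq_one_iff] at h1
    have hcL : c ∈ L := by
      have : c ∈ L.toSubalgebra := by rw [hL]; exact (hA c).mpr hc
      exact this
    rw [h1, IntermediateField.mem_bot] at hcL
    obtain ⟨y, hy⟩ := hcL
    apply hc0
    rw [← hy]
    exact y.2
  · intro x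
    have htop : L.toSubalgebra.toSubmodule = ⊤ := by
      apply Submodule.eq_top_of_finrank_eq
      rw [hfr, ← h1]
      rfl
    have hx : x ∈ L.toSubalgebra.toSubmodule := by rw [htop]; exact Submodule.mem_top
    have hx2 : x ∈ A := by rw [← hL]; exact hx
    exact (hA x).mp hx2

theorem li2_symm_sf {K V : Type*} [Field K] [AddCommGroup V] [Module K V] {a b : V}
    (h : LinearIndependent K ![a, b]) : LinearIndependent K ![b, a] := by
  have h2 := h.comp ![1, 0] (by decide)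
  convert h2 using 1
  funext i
  fin_cases i <;> rfl

end fieldC

section subfC

variable {ι : Type} [Fintype ι] [DecidableEq ι] {F : Type*} [Field F]

theorem polar_sum_smul_right {κ : Type*} (Q : QuadraticForm F (ι → F)) (v : ι → F) (s : Finset κ)
    (c : κ → F) (f : κ → ι → F) :
    QuadraticMap.polar ⇑Q v (∑ i ∈ s, c i • f i) = ∑ i ∈ s, c i * QuadraticMap.polar ⇑Q v (f i) := by
  have e : QuadraticMap.polar ⇑Q v (∑ i ∈ s, c i • f i) =
      QuadraticMap.polarBilin Q v (∑ i ∈ s, c i • f i) := rfl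
  rw [e, map_sum]
  apply Finset.sum_congr rfl
  intro i _
  rw [map_smul]
  rfl

/-- Setup: a rational structure for `Q` over the subfield `F₀` and an overgroup `M` of the
subfield subgroup of `Ω`. -/
structure RatSetup (Q : QuadraticForm F (ι → F)) (F₀ : Subfield F)
    (P : Matrix.GeneralLinearGroup ι F) (M : Subgroup ↥(Cfsg.isometryGroup F ⇑Q)) : Prop where
  hQ : (QuadraticMap.polarBilin Q).Nondegenerate
  hn : 13 ≤ Fintype.card ι
  hP : Cfsg.Geo.IsQuadFormRationalStructure (⇑Q) F₀ P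
  hM : ∀ g ∈ commutator ↥(Cfsg.isometryGroup F ⇑Q),
      (g : Matrix.GeneralLinearGroup ι F) ∈ Cfsg.Geo.subfieldSubgroup F₀ P → g ∈ M

variable {Q : QuadraticForm F (ι → F)} {F₀ : Subfield F} {P : Matrix.GeneralLinearGroup ι F}
  {M : Subgroup ↥(Cfsg.isometryGroup F ⇑Q)}

/-- The rational quadratic form of a setup. -/
noncomputable abbrev RatSetup.Q₀ (D : RatSetup Q F₀ P M) : QuadraticForm ↥F₀ (ι → ↥F₀) :=
  ratForm Q F₀ P D.hP

theorem RatSetup.hQ₀ (D : RatSetup Q F₀ P M) : (QuadraticMap.polarBilin D.Q₀).Nondegenerate :=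
  ratForm_nondegenerate Q D.hQ F₀ P D.hP

/-- `a, b` span a rational totally singular subspace. -/
def RatSetup.TS (D : RatSetup Q F₀ P M) (a b : ι → ↥F₀) : Prop :=
  D.Q₀ a = 0 ∧ D.Q₀ b = 0 ∧ QuadraticMap.polar ⇑D.Q₀ a b = 0

/-- `c` is a coefficient of `M` on the rational pair `(a, b)`. -/
def Co (Q : QuadraticForm F (ι → F)) (F₀ : Subfield F) (P : Matrix.GeneralLinearGroup ι F)
    (M : Subgroup ↥(Cfsg.isometryGroup F ⇑Q)) (a b : ι → ↥F₀) (c : F) : Prop :=
  EIn Q M (ratEmb F₀ P a) (c • ratEmb F₀ P b)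

theorem RatSetup.sing (D : RatSetup Q F₀ P M) {a : ι → ↥F₀} (ha : D.Q₀ a = 0) :
    Q (ratEmb F₀ P a) = 0 := rat_sing Q F₀ P D.hP ha

theorem RatSetup.pz (D : RatSetup Q F₀ P M) {a b : ι → ↥F₀}
    (h : QuadraticMap.polar ⇑D.Q₀ a b = 0) :
    QuadraticMap.polar ⇑Q (ratEmb F₀ P a) (ratEmb F₀ P b) = 0 := rat_polar_zero Q F₀ P D.hP h

theorem RatSetup.p1 (D : RatSetup Q F₀ P M) {a b : ι → ↥F₀}
    (h : QuadraticMap.polar ⇑D.Q₀ a b = 1) :
    QuadraticMap.polar ⇑Q (ratEmb F₀ P a) (ratEmb F₀ P b) = 1 := rat_polar_one Q F₀ P D.hP h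

theorem RatSetup.pzs (D : RatSetup Q F₀ P M) {a b : ι → ↥F₀}
    (h : QuadraticMap.polar ⇑D.Q₀ a b = 0) (c : F) :
    QuadraticMap.polar ⇑Q (ratEmb F₀ P a) (c • ratEmb F₀ P b) = 0 := by
  rw [QuadraticMap.polar_smul_right, D.pz h, smul_zero]

theorem RatSetup.sym0 (D : RatSetup Q F₀ P M) {a b : ι → ↥F₀}
    (h : QuadraticMap.polar ⇑D.Q₀ a b = 0) : QuadraticMap.polar ⇑D.Q₀ b a = 0 := by
  rw [QuadraticMap.polar_comm]; exact h

theorem RatSetup.TS.symm {D : RatSetup Q F₀ P M} {a b : ι → ↥F₀} (h : D.TS a b) : D.TS b a :=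
  ⟨h.2.1, h.1, D.sym0 h.2.2⟩

theorem RatSetup.Co_rat [Fintype F] (D : RatSetup Q F₀ P M) {a b : ι → ↥F₀} (h : D.TS a b)
    (c : ↥F₀) : Co Q F₀ P M a b (c : F) := by
  unfold Co
  rw [← ratEmb_smul]
  apply ratE Q D.hQ (by have := D.hn; omega) F₀ P D.hP M D.hM h.1
  rw [QuadraticMap.polar_smul_right, h.2.2, smul_zero]

theorem RatSetup.Co_add (D : RatSetup Q F₀ P M) {a b : ι → ↥F₀} (h : D.TS a b) {c c' : F}
    (hc : Co Q F₀ P M a b c) (hc' : Co Q F₀ P M a b c') : Co Q F₀ P M a b (c + c') := by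
  unfold Co at *
  rw [add_smul]
  exact EIn_add Q D.hQ M (D.sing h.1) (D.pzs h.2.2 c) (D.pzs h.2.2 c') hc hc'

theorem RatSetup.Co_swap (D : RatSetup Q F₀ P M) {a b : ι → ↥F₀} (h : D.TS a b) {c : F}
    (hc : Co Q F₀ P M a b c) : Co Q F₀ P M b a c := by
  unfold Co at *
  have h1 := EIn_swap Q M (D.sing h.1)
    (by rw [QuadraticMap.map_smul, D.sing h.2.1, smul_zero]) hc
  have h2 := (EIn_smul_left Q M (ratEmb F₀ P b) (-(ratEmb F₀ P a)) c).mp h1
  have h3 := EIn_neg Q D.hQ M (D.sing h.2.1)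
    (by rw [smul_neg, QuadraticMap.polar_neg_right, D.pzs (D.sym0 h.2.2), neg_zero]) h2
  rwa [smul_neg, neg_neg] at h3

theorem RatSetup.Co_mul (D : RatSetup Q F₀ P M) {a b d b' : ι → ↥F₀} (hab : D.TS a b)
    (hd : D.Q₀ d = 0) (hda : QuadraticMap.polar ⇑D.Q₀ d a = 0)
    (hdb : QuadraticMap.polar ⇑D.Q₀ d b = 0) (hb'a : QuadraticMap.polar ⇑D.Q₀ b' a = 0)
    (hb'd : QuadraticMap.polar ⇑D.Q₀ b' d = 0) (hb'b : QuadraticMap.polar ⇑D.Q₀ b' b = 1)
    {c₁ c₂ : F} (h1 : Co Q F₀ P M a b c₁) (h2 : Co Q F₀ P M d b' c₂) :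
    Co Q F₀ P M a d (c₁ * c₂) := by
  unfold Co at *
  have key := EIn_comm Q D.hQ M (u' := ratEmb F₀ P d) (w' := c₂ • ratEmb F₀ P b')
    (u := ratEmb F₀ P a) (w := c₁ • ratEmb F₀ P b) (D.sing hd) (D.pzs (D.sym0 hb'd) c₂)
    (D.sing hab.1) (D.pzs hab.2.2 c₁) (D.pz hda) (D.pzs hdb c₁)
    (by rw [QuadraticMap.polar_smul_left, D.pz hb'a, smul_zero]) h2 h1
  rw [QuadraticMap.polar_smul_left, QuadraticMap.polar_smul_right, D.p1 hb'b, smul_eq_mul,
    smul_eq_mul, mul_one, mul_comm] at key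
  exact key

theorem RatSetup.Co_plane [Fintype F] (D : RatSetup Q F₀ P M) {a b d : ι → ↥F₀}
    (hab : D.TS a b) (had : D.TS a d) (hbd : QuadraticMap.polar ⇑D.Q₀ b d = 0)
    (hli : LinearIndependent ↥F₀ ![a, d, b]) {c : F} (hc : Co Q F₀ P M a b c) :
    Co Q F₀ P M a d c := by
  classical
  haveI : Fintype ↥F₀ := Fintype.ofFinite _
  have hn := D.hn
  obtain ⟨b', hb', hv⟩ := exists_sing_polar_eq D.Q₀ D.hQ₀ ![a, d, b] hli ![0, 0, 1] (by omega)
  have h0 : QuadraticMap.polar ⇑D.Q₀ a b' = 0 := by simpa using hv 0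
  have h1 : QuadraticMap.polar ⇑D.Q₀ d b' = 0 := by simpa using hv 1
  have h2 : QuadraticMap.polar ⇑D.Q₀ b b' = 1 := by simpa using hv 2
  have hone : Co Q F₀ P M d b' 1 := by
    have := D.Co_rat (a := d) (b := b') ⟨had.2.1, hb', h1⟩ 1
    simpa using this
  have := D.Co_mul hab had.2.1 (D.sym0 had.2.2) (D.sym0 hbd) (D.sym0 h0) (D.sym0 h1)
    (by rw [QuadraticMap.polar_comm]; exact h2) hc hone
  rwa [mul_one] at this

theorem RatSetup.Co_univ [Fintype F] (D : RatSetup Q F₀ P M) (r : ℕ) (hr : r.Prime)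
    (hcard : Fintype.card F = Nat.card F₀ ^ r) {a b : ι → ↥F₀} (hab : D.TS a b)
    (hli : LinearIndependent ↥F₀ ![a, b]) {c : F} (hc0 : c ∉ F₀) (hc : Co Q F₀ P M a b c) :
    ∀ c', Co Q F₀ P M a b c' := by
  classical
  haveI : Fintype ↥F₀ := Fintype.ofFinite _
  have hn := D.hn
  obtain ⟨d, hd, hdv, hdn⟩ := exists_sing_orth_notMem D.Q₀ D.hQ₀ ![a, b] (by omega)
  have hda : QuadraticMap.polar ⇑D.Q₀ a d = 0 := by simpa using hdv 0
  have hdb : QuadraticMap.polar ⇑D.Q₀ b d = 0 := by simpa using hdv 1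
  have hli3 : LinearIndependent ↥F₀ ![d, a, b] := li_cons hli d hdn
  have hli_adb : LinearIndependent ↥F₀ ![a, d, b] := by
    have h := hli3.comp ![1, 0, 2] (by decide)
    convert h using 1
    funext i
    fin_cases i <;> rfl
  have hli_abd : LinearIndependent ↥F₀ ![a, b, d] := by
    have h := hli3.comp ![1, 2, 0] (by decide)
    convert h using 1
    funext i
    fin_cases i <;> rfl
  have hli_ad : LinearIndependent ↥F₀ ![a, d] := by
    have h := hli3.comp ![1, 0] (by decide)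
    convert h using 1
    funext i
    fin_cases i <;> rfl
  obtain ⟨b', hb', hv⟩ := exists_sing_polar_eq D.Q₀ D.hQ₀ ![a, d, b] hli_adb ![0, 0, 1]
    (by omega)
  have h0 : QuadraticMap.polar ⇑D.Q₀ a b' = 0 := by simpa using hv 0
  have h1 : QuadraticMap.polar ⇑D.Q₀ d b' = 0 := by simpa using hv 1
  have h2 : QuadraticMap.polar ⇑D.Q₀ b b' = 1 := by simpa using hv 2
  have had : D.TS a d := ⟨hab.1, hd, hda⟩
  have hli_b'ad : LinearIndependent ↥F₀ ![b', a, d] := by
    apply li_cons_polar D.Q₀ hli_ad b' b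
    · intro i
      fin_cases i
      · exact D.sym0 hab.2.2
      · exact hdb
    · rw [h2]
      exact one_ne_zero
  have hli_db'a : LinearIndependent ↥F₀ ![d, b', a] := by
    have h := hli_b'ad.comp ![2, 0, 1] (by decide)
    convert h using 1
    funext i
    fin_cases i <;> rfl
  have hmul : ∀ x y, Co Q F₀ P M a b x → Co Q F₀ P M a b y → Co Q F₀ P M a b (x * y) := by
    intro x y hx hy
    have e1 : Co Q F₀ P M a d y := D.Co_plane hab had hdb hli_adb hy
    have e2 : Co Q F₀ P M d a y := D.Co_swap had e1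
    have e3 : Co Q F₀ P M d b' y :=
      D.Co_plane (a := d) (b := a) (d := b') had.symm ⟨hd, hb', h1⟩ h0 hli_db'a e2
    have e4 : Co Q F₀ P M a d (x * y) :=
      D.Co_mul hab hd (D.sym0 hda) (D.sym0 hdb) (D.sym0 h0) (D.sym0 h1)
        (by rw [QuadraticMap.polar_comm]; exact h2) hx e3
    exact D.Co_plane (a := a) (b := d) (d := b) had hab (D.sym0 hdb) hli_abd e4
  exact subring_univ_of_prime F₀ r hr hcard {x | Co Q F₀ P M a b x}
    (fun x y hx hy => D.Co_add hab hx hy) hmul (fun x hx => D.Co_rat hab ⟨x, hx⟩) hc hc0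

theorem RatSetup.Co_right [Fintype F] (D : RatSetup Q F₀ P M) {a b d : ι → ↥F₀}
    (hab : D.TS a b) (had : D.TS a d) (hlib : LinearIndependent ↥F₀ ![a, b])
    (hlid : LinearIndependent ↥F₀ ![a, d]) (h : ∀ c, Co Q F₀ P M a b c) :
    ∀ c, Co Q F₀ P M a d c := by
  classical
  haveI : Fintype ↥F₀ := Fintype.ofFinite _
  have hn := D.hn
  obtain ⟨e, he, hev, hen⟩ := exists_sing_orth_notMem D.Q₀ D.hQ₀ ![a, b, d] (by omega)
  have hea : QuadraticMap.polar ⇑D.Q₀ a e = 0 := by simpa using hev 0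
  have heb : QuadraticMap.polar ⇑D.Q₀ b e = 0 := by simpa using hev 1
  have hed : QuadraticMap.polar ⇑D.Q₀ d e = 0 := by simpa using hev 2
  have hen1 : e ∉ Submodule.span ↥F₀ (Set.range ![a, b]) := by
    intro hh
    apply hen
    refine Submodule.span_mono ?_ hh
    rintro _ ⟨i, rfl⟩
    fin_cases i
    · exact ⟨0, rfl⟩
    · exact ⟨1, rfl⟩
  have hen2 : e ∉ Submodule.span ↥F₀ (Set.range ![a, d]) := by
    intro hh
    apply hen
    refine Submodule.span_mono ?_ hh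
    rintro _ ⟨i, rfl⟩
    fin_cases i
    · exact ⟨0, rfl⟩
    · exact ⟨2, rfl⟩
  have hl1 : LinearIndependent ↥F₀ ![e, a, b] := li_cons hlib e hen1
  have hl2 : LinearIndependent ↥F₀ ![e, a, d] := li_cons hlid e hen2
  have hl1' : LinearIndependent ↥F₀ ![a, e, b] := by
    have h := hl1.comp ![1, 0, 2] (by decide)
    convert h using 1
    funext i
    fin_cases i <;> rfl
  have hl2' : LinearIndependent ↥F₀ ![a, d, e] := by
    have h := hl2.comp ![1, 2, 0] (by decide)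
    convert h using 1
    funext i
    fin_cases i <;> rfl
  intro c
  have hae : D.TS a e := ⟨hab.1, he, hea⟩
  have h1 : Co Q F₀ P M a e c := D.Co_plane hab hae heb hl1' (h c)
  exact D.Co_plane hae had (D.sym0 hed) hl2' h1

theorem RatSetup.Co_all [Fintype F] (D : RatSetup Q F₀ P M) {a b a' b' : ι → ↥F₀}
    (hab : D.TS a b) (hab' : D.TS a' b') (hli : LinearIndependent ↥F₀ ![a, b])
    (hli' : LinearIndependent ↥F₀ ![a', b']) (h : ∀ c, Co Q F₀ P M a b c) :
    ∀ c, Co Q F₀ P M a' b' c := by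
  classical
  haveI : Fintype ↥F₀ := Fintype.ofFinite _
  have hn := D.hn
  obtain ⟨e, he, hev, hen⟩ := exists_sing_orth_notMem D.Q₀ D.hQ₀ ![a, b, a', b'] (by omega)
  have hea : QuadraticMap.polar ⇑D.Q₀ a e = 0 := by simpa using hev 0
  have hea' : QuadraticMap.polar ⇑D.Q₀ a' e = 0 := by simpa using hev 2
  have ha0 : a ≠ 0 := by simpa using hli.ne_zero 0
  have ha0' : a' ≠ 0 := by simpa using hli'.ne_zero 0
  have hen1 : e ∉ Submodule.span ↥F₀ (Set.range ![a]) := by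
    intro hh
    apply hen
    refine Submodule.span_mono ?_ hh
    rintro _ ⟨i, rfl⟩
    fin_cases i
    exact ⟨0, rfl⟩
  have hen2 : e ∉ Submodule.span ↥F₀ (Set.range ![a']) := by
    intro hh
    apply hen
    refine Submodule.span_mono ?_ hh
    rintro _ ⟨i, rfl⟩
    fin_cases i
    exact ⟨2, rfl⟩
  have hl1 : LinearIndependent ↥F₀ ![e, a] := li_cons (li_one ha0) e hen1
  have hl2 : LinearIndependent ↥F₀ ![e, a'] := li_cons (li_one ha0') e hen2
  have hae : D.TS a e := ⟨hab.1, he, hea⟩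
  have hae' : D.TS a' e := ⟨hab'.1, he, hea'⟩
  have h1 : ∀ c, Co Q F₀ P M a e c := D.Co_right hab hae hli (li2_symm_sf hl1) h
  have h2 : ∀ c, Co Q F₀ P M e a c := fun c => D.Co_swap hae (h1 c)
  have h3 : ∀ c, Co Q F₀ P M e a' c := D.Co_right hae.symm hae'.symm hl1 hl2 h2
  have h4 : ∀ c, Co Q F₀ P M a' e c := fun c => D.Co_swap hae'.symm (h3 c)
  exact D.Co_right hae' hab' (li2_symm_sf hl2) hli' h4

theorem RatSetup.rootIn_rat [Fintype F] (D : RatSetup Q F₀ P M)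
    (hall : ∀ a b, D.TS a b → LinearIndependent ↥F₀ ![a, b] → ∀ c, Co Q F₀ P M a b c)
    (a : ι → ↥F₀) (ha : D.Q₀ a = 0) : rootIn Q M (ratEmb F₀ P a) := by
  classical
  haveI : Fintype ↥F₀ := Fintype.ofFinite _
  have hn := D.hn
  by_cases ha0 : a = 0
  · rw [ha0, map_zero]
    exact rootIn_zero Q M
  have hstep : ∀ y ∈ Cfsg.Agent.Lib.Helper44.orth D.Q₀ (Submodule.span ↥F₀ {a}), ∀ c : F,
      EIn Q M (ratEmb F₀ P a) (c • ratEmb F₀ P y) := by
    have hfr : finrank ↥F₀ ↥(Submodule.span ↥F₀ {a}) ≤ 1 :=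
      Cfsg.Agent.Lib.Helper44.finrank_span_singleton_le_one a
    obtain ⟨e, f, heT, hfT, hQe, hQf, hef⟩ :=
      exists_hyp_in_orth D.Q₀ D.hQ₀ (Submodule.span ↥F₀ {a}) (by omega)
    have horth : ∀ y ∈ Cfsg.Agent.Lib.Helper44.orth D.Q₀ (Submodule.span ↥F₀ {a}),
        QuadraticMap.polar ⇑D.Q₀ a y = 0 := fun y hy =>
      (Cfsg.Agent.Lib.Helper44.mem_orth_iff D.Q₀ _ y).mp hy a (Submodule.mem_span_singleton_self a)
    apply sing_induction D.Q₀ hQe hQf hef
      (fun y => ∀ c : F, EIn Q M (ratEmb F₀ P a) (c • ratEmb F₀ P y)) _ heT hfT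
    · intro y₁ y₂ hy₁ hy₂ p1 p2 c
      rw [map_add, smul_add]
      exact EIn_add Q D.hQ M (D.sing ha) (D.pzs (horth y₁ hy₁) c) (D.pzs (horth y₂ hy₂) c)
        (p1 c) (p2 c)
    · intro s hs hQs c
      by_cases hsa : s ∈ Submodule.span ↥F₀ {a}
      · obtain ⟨t, rfl⟩ := Submodule.mem_span_singleton.mp hsa
        intro g hg
        rw [ratEmb_smul, smul_smul, eichMat_smul_self Q (D.sing ha)] at hg
        have hg1 : g = 1 := isom_ext hg
        rw [hg1]
        exact M.one_mem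
      · have hli : LinearIndependent ↥F₀ ![a, s] :=
          li2_symm_sf (li_cons (li_one ha0) s (by simpa using hsa))
        exact hall a s ⟨ha, hQs, horth s hs⟩ hli c
  intro w hw g hg
  obtain ⟨a'', -, hv⟩ := exists_sing_polar_eq D.Q₀ D.hQ₀ ![a] (li_one ha0) ![1] (by omega)
  have haa'' : QuadraticMap.polar ⇑D.Q₀ a a'' = 1 := by simpa using hv 0
  obtain ⟨c, hc⟩ := exists_rat_combo F₀ P w
  obtain ⟨y, hy⟩ : ∃ y : ι → (ι → ↥F₀), ∀ i, y i =
      Pi.single i 1 - QuadraticMap.polar ⇑D.Q₀ a (Pi.single i 1) • a'' := ⟨_, fun i => rfl⟩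
  have hyorth : ∀ i, y i ∈ Cfsg.Agent.Lib.Helper44.orth D.Q₀ (Submodule.span ↥F₀ {a}) := by
    intro i
    rw [Cfsg.Agent.Lib.Helper44.mem_orth_iff]
    intro z hz
    obtain ⟨t, rfl⟩ := Submodule.mem_span_singleton.mp hz
    rw [hy, QuadraticMap.polar_smul_left, QuadraticMap.polar_sub_right,
      QuadraticMap.polar_smul_right, haa'']
    simp
  have hpy : ∀ i, QuadraticMap.polar ⇑Q (ratEmb F₀ P a) (ratEmb F₀ P (y i)) = 0 := by
    intro i
    apply D.pz
    exact (Cfsg.Agent.Lib.Helper44.mem_orth_iff D.Q₀ _ (y i)).mp (hyorth i) a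
      (Submodule.mem_span_singleton_self a)
  have h0 : ∑ i, c i * QuadraticMap.polar ⇑Q (ratEmb F₀ P a) (ratEmb F₀ P (Pi.single i 1)) =
      0 := by
    rw [← polar_sum_smul_right, ← hc]
    exact hw
  have hsum : w = ∑ i, c i • ratEmb F₀ P (y i) := by
    have e1 : ∀ i, ratEmb F₀ P (y i) = ratEmb F₀ P (Pi.single i 1) -
        QuadraticMap.polar ⇑Q (ratEmb F₀ P a) (ratEmb F₀ P (Pi.single i 1)) •
          ratEmb F₀ P a'' := by
      intro i
      rw [hy, map_sub, ratEmb_smul, ratForm_polar_coe]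
    simp only [e1, smul_sub, Finset.sum_sub_distrib, smul_smul]
    rw [← hc, ← Finset.sum_smul, h0, zero_smul, sub_zero]
  have hfin : ∀ s : Finset ι, EIn Q M (ratEmb F₀ P a) (∑ i ∈ s, c i • ratEmb F₀ P (y i)) := by
    intro s
    induction s using Finset.induction_on with
    | empty =>
      rw [Finset.sum_empty]
      exact EIn_zero Q M _
    | insert i s hi ih =>
      rw [Finset.sum_insert hi]
      refine EIn_add Q D.hQ M (D.sing ha) ?_ ?_ (hstep (y i) (hyorth i) (c i)) ih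
      · rw [QuadraticMap.polar_smul_right, hpy, smul_zero]
      · rw [polar_sum_smul_right]
        apply Finset.sum_eq_zero
        intro k _
        rw [hpy, mul_zero]
  have hE : EIn Q M (ratEmb F₀ P a) w := by
    rw [hsum]
    exact hfin Finset.univ
  exact hE g hg

theorem RatSetup.omega_le_of_irr [Fintype F] (D : RatSetup Q F₀ P M) (r : ℕ) (hr : r.Prime)
    (hcard : Fintype.card F = Nat.card F₀ ^ r) {a b : ι → ↥F₀} (hab : D.TS a b)
    (hli : LinearIndependent ↥F₀ ![a, b]) {c : F} (hc0 : c ∉ F₀) (hc : Co Q F₀ P M a b c) :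
    commutator ↥(Cfsg.isometryGroup F ⇑Q) ≤ M := by
  classical
  haveI : Fintype ↥F₀ := Fintype.ofFinite _
  have hn := D.hn
  have h1 := D.Co_univ r hr hcard hab hli hc0 hc
  have hall : ∀ a' b', D.TS a' b' → LinearIndependent ↥F₀ ![a', b'] →
      ∀ c, Co Q F₀ P M a' b' c := fun a' b' hab' hli' => D.Co_all hab hab' hli hli' h1
  have hroot := D.rootIn_rat hall
  obtain ⟨e, f, -, -, hQe, hQf, hef⟩ := exists_hyp_in_orth D.Q₀ D.hQ₀ ⊥ (by
    rw [finrank_bot]; omega)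
  apply omega_le_of_rootIn Q D.hQ (by omega) M
  intro r' hr'
  exact rootIn_all Q D.hQ M (D.sing hQe) (D.sing hQf) (by rw [D.p1 hef]; exact one_ne_zero)
    (hroot e hQe) (hroot f hQf) r' hr'

end subfC

end Cfsg.Agent.Lib.Helper14
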