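import Mathlib
import Cfsg.Agent.Lib.Helper14.SubfC

/-!
# Detecting irrational long root elements in overgroups of a subfield subgroup
-/

set_option autoImplicit false

namespace Cfsg.Agent.Lib.Helper14

open Matrix Module

section subfD

variable {ι : Type} [Fintype ι] [DecidableEq ι] {F : Type*} [Field F]

/-- The infinitesimal Eichler map `x ↦ f(u,x) w - f(w,x) u`. -/
def nMap (Q : QuadraticForm F (ι → F)) (u w x : ι → F) : ι → F :=
  QuadraticMap.polar ⇑Q u x • w - QuadraticMap.polar ⇑Q w x • u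

theorem nMap_add (Q : QuadraticForm F (ι → F)) (u w x y : ι → F) :
    nMap Q u w (x + y) = nMap Q u w x + nMap Q u w y := by
  unfold nMap
  rw [QuadraticMap.polar_add_right, QuadraticMap.polar_add_right]
  module

theorem nMap_smul (Q : QuadraticForm F (ι → F)) (u w : ι → F) (c : F) (x : ι → F) :
    nMap Q u w (c • x) = c • nMap Q u w x := by
  unfold nMap
  rw [QuadraticMap.polar_smul_right, QuadraticMap.polar_smul_right]
  simp only [smul_eq_mul]
  module

theorem nMap_conj (Q : QuadraticForm F (ι → F)) (A : Matrix ι ι F)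
    (hA : ∀ x, Q (A *ᵥ x) = Q x) (u w x : ι → F) :
    nMap Q (A *ᵥ u) (A *ᵥ w) (A *ᵥ x) = A *ᵥ nMap Q u w x := by
  unfold nMap
  rw [polar_mulVec Q A hA, polar_mulVec Q A hA, mulVec_sub, mulVec_smul, mulVec_smul]

theorem polar_nMap (Q : QuadraticForm F (ι → F)) (u w x y : ι → F) :
    QuadraticMap.polar ⇑Q (nMap Q u w x) y =
      QuadraticMap.polar ⇑Q u x * QuadraticMap.polar ⇑Q w y -
        QuadraticMap.polar ⇑Q w x * QuadraticMap.polar ⇑Q u y := by
  unfold nMap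
  rw [QuadraticMap.polar_sub_left, QuadraticMap.polar_smul_left, QuadraticMap.polar_smul_left]
  rfl

/-- The alternating form of the infinitesimal map, on rational vectors. -/
noncomputable def nb (Q : QuadraticForm F (ι → F)) (F₀ : Subfield F) (P : Matrix.GeneralLinearGroup ι F)
    (u w : ι → F) (x y : ι → ↥F₀) : F :=
  QuadraticMap.polar ⇑Q u (ratEmb F₀ P x) * QuadraticMap.polar ⇑Q w (ratEmb F₀ P y) -
    QuadraticMap.polar ⇑Q w (ratEmb F₀ P x) * QuadraticMap.polar ⇑Q u (ratEmb F₀ P y)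

theorem nb_add_left (Q : QuadraticForm F (ι → F)) (F₀ : Subfield F)
    (P : Matrix.GeneralLinearGroup ι F) (u w : ι → F) (x x' y : ι → ↥F₀) :
    nb Q F₀ P u w (x + x') y = nb Q F₀ P u w x y + nb Q F₀ P u w x' y := by
  unfold nb
  rw [map_add, QuadraticMap.polar_add_right, QuadraticMap.polar_add_right]
  ring

theorem nb_add_right (Q : QuadraticForm F (ι → F)) (F₀ : Subfield F)
    (P : Matrix.GeneralLinearGroup ι F) (u w : ι → F) (x y y' : ι → ↥F₀) :
    nb Q F₀ P u w x (y + y') = nb Q F₀ P u w x y + nb Q F₀ P u w x y' := by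
  unfold nb
  rw [map_add, QuadraticMap.polar_add_right, QuadraticMap.polar_add_right]
  ring

theorem nb_sub_right (Q : QuadraticForm F (ι → F)) (F₀ : Subfield F)
    (P : Matrix.GeneralLinearGroup ι F) (u w : ι → F) (x y y' : ι → ↥F₀) :
    nb Q F₀ P u w x (y - y') = nb Q F₀ P u w x y - nb Q F₀ P u w x y' := by
  unfold nb
  rw [map_sub, QuadraticMap.polar_sub_right, QuadraticMap.polar_sub_right]
  ring

theorem nb_smul_right (Q : QuadraticForm F (ι → F)) (F₀ : Subfield F)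
    (P : Matrix.GeneralLinearGroup ι F) (u w : ι → F) (x y : ι → ↥F₀) (t : ↥F₀) :
    nb Q F₀ P u w x (t • y) = (t : F) * nb Q F₀ P u w x y := by
  unfold nb
  rw [ratEmb_smul, QuadraticMap.polar_smul_right, QuadraticMap.polar_smul_right]
  simp only [smul_eq_mul]
  ring

theorem nb_antisymm (Q : QuadraticForm F (ι → F)) (F₀ : Subfield F)
    (P : Matrix.GeneralLinearGroup ι F) (u w : ι → F) (x y : ι → ↥F₀) :
    nb Q F₀ P u w x y = -nb Q F₀ P u w y x := by
  unfold nb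
  ring

theorem nb_zero_left (Q : QuadraticForm F (ι → F)) (F₀ : Subfield F)
    (P : Matrix.GeneralLinearGroup ι F) (u w : ι → F) (y : ι → ↥F₀) :
    nb Q F₀ P u w 0 y = 0 := by
  unfold nb
  rw [map_zero, QuadraticMap.polar_zero_right, QuadraticMap.polar_zero_right]
  ring

theorem quad_add_sing {K V : Type*} [Field K] [AddCommGroup V] [Module K V]
    (Q : QuadraticForm K V) {x y : V} (hx : Q x = 0) (hy : Q y = 0)
    (hxy : QuadraticMap.polar ⇑Q x y = 0) : Q (x + y) = 0 := by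
  rw [QuadraticMap.map_add (⇑Q), hx, hy, hxy]
  simp

theorem quad_sub_sing {K V : Type*} [Field K] [AddCommGroup V] [Module K V]
    (Q : QuadraticForm K V) {x y : V} (hx : Q x = 0) (hy : Q y = 0)
    (hxy : QuadraticMap.polar ⇑Q x y = 0) : Q (x - y) = 0 := by
  rw [sub_eq_add_neg]
  apply quad_add_sing Q hx
  · rw [QuadraticMap.map_neg, hy]
  · rw [QuadraticMap.polar_neg_right, hxy, neg_zero]

variable {Q : QuadraticForm F (ι → F)} {F₀ : Subfield F} {P : Matrix.GeneralLinearGroup ι F}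
  {M : Subgroup ↥(Cfsg.isometryGroup F ⇑Q)}

/-- `M` contains a rational long root element with an irrational coefficient. -/
def RatSetup.HasIrr (D : RatSetup Q F₀ P M) : Prop :=
  ∃ (a b : ι → ↥F₀) (c : F), D.TS a b ∧ LinearIndependent ↥F₀ ![a, b] ∧ c ∉ F₀ ∧
    Co Q F₀ P M a b c

theorem RatSetup.orth_singleton (D : RatSetup Q F₀ P M) {a y : ι → ↥F₀}
    (hy : y ∈ Cfsg.Agent.Lib.Helper44.orth D.Q₀ (Submodule.span ↥F₀ {a})) :
    QuadraticMap.polar ⇑D.Q₀ a y = 0 :=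
  (Cfsg.Agent.Lib.Helper44.mem_orth_iff D.Q₀ _ y).mp hy a (Submodule.mem_span_singleton_self a)

theorem RatSetup.mem_orth_singleton (D : RatSetup Q F₀ P M) {a y : ι → ↥F₀}
    (hy : QuadraticMap.polar ⇑D.Q₀ a y = 0) :
    y ∈ Cfsg.Agent.Lib.Helper44.orth D.Q₀ (Submodule.span ↥F₀ {a}) := by
  rw [Cfsg.Agent.Lib.Helper44.mem_orth_iff]
  intro t ht
  obtain ⟨s, rfl⟩ := Submodule.mem_span_singleton.mp ht
  rw [QuadraticMap.polar_smul_left, hy, smul_zero]

/-- A long root element with rational centre and irrational direction yields a rational long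
root element with an irrational coefficient. -/
theorem RatSetup.irr_of_centre [Fintype F] (D : RatSetup Q F₀ P M) {a : ι → ↥F₀}
    (ha : D.Q₀ a = 0) (ha0 : a ≠ 0) {z : ι → F}
    (hz : QuadraticMap.polar ⇑Q (ratEmb F₀ P a) z = 0) (hE : EIn Q M (ratEmb F₀ P a) z)
    (hirr : ∀ (v : ι → ↥F₀) (c : F), z ≠ ratEmb F₀ P v + c • ratEmb F₀ P a) : D.HasIrr := by
  classical
  haveI : Fintype ↥F₀ := Fintype.ofFinite _
  have hn := D.hn
  have hfr : finrank ↥F₀ ↥(Submodule.span ↥F₀ {a}) ≤ 1 :=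
    Cfsg.Agent.Lib.Helper44.finrank_span_singleton_le_one a
  obtain ⟨a', ha'S, hQa', hθ⟩ : ∃ a' ∈ Cfsg.Agent.Lib.Helper44.orth D.Q₀ (Submodule.span ↥F₀ {a}),
      D.Q₀ a' = 0 ∧ QuadraticMap.polar ⇑Q (ratEmb F₀ P a') z ∉ F₀ := by
    by_contra hno
    push Not at hno
    obtain ⟨e, f, heT, hfT, hQe, hQf, hef⟩ :=
      exists_hyp_in_orth D.Q₀ D.hQ₀ (Submodule.span ↥F₀ {a}) (by omega)
    have hall : ∀ y ∈ Cfsg.Agent.Lib.Helper44.orth D.Q₀ (Submodule.span ↥F₀ {a}),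
        QuadraticMap.polar ⇑Q (ratEmb F₀ P y) z ∈ F₀ := by
      apply sing_induction D.Q₀ hQe hQf hef
        (fun y => QuadraticMap.polar ⇑Q (ratEmb F₀ P y) z ∈ F₀) _ heT hfT
      · intro y₁ y₂ _ _ p1 p2
        show QuadraticMap.polar ⇑Q (ratEmb F₀ P (y₁ + y₂)) z ∈ F₀
        rw [map_add, QuadraticMap.polar_add_left]
        exact F₀.add_mem p1 p2
      · intro s hs hQs
        exact hno s hs hQs
    obtain ⟨a'', -, hv⟩ := exists_sing_polar_eq D.Q₀ D.hQ₀ ![a] (li_one ha0) ![1] (by omega)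
    have haa'' : QuadraticMap.polar ⇑D.Q₀ a a'' = 1 := by simpa using hv 0
    obtain ⟨lam, hlam⟩ : ∃ lam, lam = QuadraticMap.polar ⇑Q (ratEmb F₀ P a'') z := ⟨_, rfl⟩
    obtain ⟨v, hv2⟩ := mem_range_of_polar_mem Q D.hQ F₀ P D.hP
      (v := z - lam • ratEmb F₀ P a) (by
        intro y
        obtain ⟨t, ht⟩ : ∃ t, t = QuadraticMap.polar ⇑D.Q₀ a y := ⟨_, rfl⟩
        have hy1 : y - t • a'' ∈ Cfsg.Agent.Lib.Helper44.orth D.Q₀ (Submodule.span ↥F₀ {a}) := by
          apply D.mem_orth_singleton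
          rw [QuadraticMap.polar_sub_right, QuadraticMap.polar_smul_right, haa'', ← ht]
          simp
        have h1 := hall _ hy1
        rw [map_sub, ratEmb_smul, QuadraticMap.polar_sub_left, QuadraticMap.polar_smul_left,
          ← hlam] at h1
        have e : QuadraticMap.polar ⇑Q (z - lam • ratEmb F₀ P a) (ratEmb F₀ P y) =
            QuadraticMap.polar ⇑Q (ratEmb F₀ P y) z - (t : F) • lam := by
          rw [QuadraticMap.polar_sub_left, QuadraticMap.polar_smul_left,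
            QuadraticMap.polar_comm (⇑Q) z, ht, ratForm_polar_coe]
          simp only [smul_eq_mul]
          ring
        rw [e]
        exact h1)
    refine hirr v lam ?_
    rw [hv2]
    abel
  have haa' : QuadraticMap.polar ⇑D.Q₀ a a' = 0 := D.orth_singleton ha'S
  have ha'n : a' ∉ Submodule.span ↥F₀ {a} := by
    intro hmem
    obtain ⟨t, rfl⟩ := Submodule.mem_span_singleton.mp hmem
    apply hθ
    rw [ratEmb_smul, QuadraticMap.polar_smul_left, hz, smul_zero]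
    exact F₀.zero_mem
  have hli : LinearIndependent ↥F₀ ![a, a'] :=
    li2_symm_sf (li_cons (li_one ha0) a' (by simpa using ha'n))
  have hfr2 : finrank ↥F₀ ↥(Submodule.span ↥F₀ (Set.range ![a, a'])) ≤ 2 := by
    have := finrank_range_le_card (R := ↥F₀) ![a, a']
    rwa [Fintype.card_fin] at this
  obtain ⟨e, f, heT, hfT, hQe, hQf, hef⟩ :=
    exists_hyp_in_orth D.Q₀ D.hQ₀ (Submodule.span ↥F₀ (Set.range ![a, a'])) (by omega)
  have hae : QuadraticMap.polar ⇑D.Q₀ a e = 0 :=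
    (Cfsg.Agent.Lib.Helper44.mem_orth_iff D.Q₀ _ e).mp heT a (Submodule.subset_span ⟨0, rfl⟩)
  have ha'e : QuadraticMap.polar ⇑D.Q₀ a' e = 0 :=
    (Cfsg.Agent.Lib.Helper44.mem_orth_iff D.Q₀ _ e).mp heT a' (Submodule.subset_span ⟨1, rfl⟩)
  have haf : QuadraticMap.polar ⇑D.Q₀ a f = 0 :=
    (Cfsg.Agent.Lib.Helper44.mem_orth_iff D.Q₀ _ f).mp hfT a (Submodule.subset_span ⟨0, rfl⟩)
  have ha'f : QuadraticMap.polar ⇑D.Q₀ a' f = 0 :=
    (Cfsg.Agent.Lib.Helper44.mem_orth_iff D.Q₀ _ f).mp hfT a' (Submodule.subset_span ⟨1, rfl⟩)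
  have hfe : QuadraticMap.polar ⇑D.Q₀ f e = 1 := by rw [QuadraticMap.polar_comm]; exact hef
  obtain ⟨θ, hθdef⟩ : ∃ θ, θ = QuadraticMap.polar ⇑Q (ratEmb F₀ P a') z := ⟨_, rfl⟩
  obtain ⟨μ, hμdef⟩ : ∃ μ, μ = QuadraticMap.polar ⇑Q (ratEmb F₀ P e) z := ⟨_, rfl⟩
  have ha'a' : QuadraticMap.polar ⇑Q (ratEmb F₀ P a') (ratEmb F₀ P a') = 0 := by
    rw [polar_self_eq, D.sing hQa', mul_zero]
  -- first conjugation
  have hE1 : EIn Q M (ratEmb F₀ P a') (ratEmb F₀ P e) :=
    ratE Q D.hQ (by omega) F₀ P D.hP M D.hM hQa' ha'e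
  have hmem1 : eichElt Q D.hQ (ratEmb F₀ P a') (ratEmb F₀ P e) (D.sing hQa') (D.pz ha'e) ∈ M :=
    hE1 _ rfl
  have e1 : eichMat Q (ratEmb F₀ P a') (ratEmb F₀ P e) *ᵥ ratEmb F₀ P a = ratEmb F₀ P a := by
    rw [eichMat_mulVec, D.pz (D.sym0 haa'), D.pz (D.sym0 hae)]
    simp
  have e2 : eichMat Q (ratEmb F₀ P a') (ratEmb F₀ P e) *ᵥ z =
      z + θ • ratEmb F₀ P e - μ • ratEmb F₀ P a' := by
    rw [eichMat_mulVec, D.sing hQe, ← hθdef, ← hμdef]
    simp
  have hc1 := EIn_conj Q M hE _ hmem1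
  rw [eichElt_coe, e1, e2] at hc1
  have hz1 : QuadraticMap.polar ⇑Q (ratEmb F₀ P a)
      (z + θ • ratEmb F₀ P e - μ • ratEmb F₀ P a') = 0 := by
    rw [QuadraticMap.polar_sub_right, QuadraticMap.polar_add_right, QuadraticMap.polar_smul_right,
      QuadraticMap.polar_smul_right, hz, D.pz hae, D.pz haa']
    simp
  have hz2 : QuadraticMap.polar ⇑Q (ratEmb F₀ P a)
      (θ • ratEmb F₀ P e - μ • ratEmb F₀ P a') = 0 := by
    rw [QuadraticMap.polar_sub_right, QuadraticMap.polar_smul_right,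
      QuadraticMap.polar_smul_right, D.pz hae, D.pz haa']
    simp
  have hE2 : EIn Q M (ratEmb F₀ P a) (θ • ratEmb F₀ P e - μ • ratEmb F₀ P a') := by
    have := EIn_sub Q D.hQ M (D.sing ha) hz1 hz hc1 hE
    convert this using 1
    abel
  -- second conjugation
  have hE3 : EIn Q M (ratEmb F₀ P f) (ratEmb F₀ P a') :=
    ratE Q D.hQ (by omega) F₀ P D.hP M D.hM hQf (D.sym0 ha'f)
  have hmem3 : eichElt Q D.hQ (ratEmb F₀ P f) (ratEmb F₀ P a') (D.sing hQf)
      (D.pz (D.sym0 ha'f)) ∈ M := hE3 _ rfl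
  have e3 : eichMat Q (ratEmb F₀ P f) (ratEmb F₀ P a') *ᵥ ratEmb F₀ P a = ratEmb F₀ P a := by
    rw [eichMat_mulVec, D.pz (D.sym0 haf), D.pz (D.sym0 haa')]
    simp
  have e4 : eichMat Q (ratEmb F₀ P f) (ratEmb F₀ P a') *ᵥ
      (θ • ratEmb F₀ P e - μ • ratEmb F₀ P a') =
      (θ • ratEmb F₀ P e - μ • ratEmb F₀ P a') + θ • ratEmb F₀ P a' := by
    rw [eichMat_mulVec, D.sing hQa']
    simp only [QuadraticMap.polar_sub_right, QuadraticMap.polar_smul_right, D.p1 hfe,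
      D.pz (D.sym0 ha'f), D.pz ha'e, ha'a', smul_eq_mul, mul_zero, mul_one, sub_zero, zero_mul,
      add_zero, zero_smul]
  have hc3 := EIn_conj Q M hE2 _ hmem3
  rw [eichElt_coe, e3, e4] at hc3
  have hz3 : QuadraticMap.polar ⇑Q (ratEmb F₀ P a)
      ((θ • ratEmb F₀ P e - μ • ratEmb F₀ P a') + θ • ratEmb F₀ P a') = 0 := by
    rw [QuadraticMap.polar_add_right, hz2, QuadraticMap.polar_smul_right, D.pz haa']
    simp
  have hE4 : EIn Q M (ratEmb F₀ P a) (θ • ratEmb F₀ P a') := by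
    have := EIn_sub Q D.hQ M (D.sing ha) hz3 hz2 hc3 hE2
    convert this using 1
    abel
  exact ⟨a, a', θ, ⟨ha, hQa', haa'⟩, hli, by rw [hθdef]; exact hθ, hE4⟩

end subfD

end Cfsg.Agent.Lib.Helper14
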