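import Mathlib
import Cfsg.Agent.Lib.Helper14.SubfD

/-!
# Rationality criteria for the infinitesimal maps of long root elements
-/

set_option autoImplicit false

namespace Cfsg.Agent.Lib.Helper14

open Matrix Module

section subfE

variable {ι : Type} [Fintype ι] [DecidableEq ι] {F : Type*} [Field F]

variable {Q : QuadraticForm F (ι → F)} {F₀ : Subfield F} {P : Matrix.GeneralLinearGroup ι F}
  {M : Subgroup ↥(Cfsg.isometryGroup F ⇑Q)}

/-- An alternating form of type `nb` which is rational on rational totally singular pairs is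
rational. -/
theorem RatSetup.nb_mem [Fintype F] (D : RatSetup Q F₀ P M) (h2 : (2 : F) ≠ 0) (u w : ι → F)
    (h : ∀ a b, D.TS a b → nb Q F₀ P u w a b ∈ F₀) : ∀ x y, nb Q F₀ P u w x y ∈ F₀ := by
  classical
  haveI : Fintype ↥F₀ := Fintype.ofFinite _
  have hn := D.hn
  have h2mem : (2 : F) ∈ F₀ := by
    have e : (2 : F) = 1 + 1 := by norm_num
    rw [e]
    exact F₀.add_mem F₀.one_mem F₀.one_mem
  have hi : ∀ a, D.Q₀ a = 0 → ∀ y ∈ Cfsg.Agent.Lib.Helper44.orth D.Q₀ (Submodule.span ↥F₀ {a}),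
      nb Q F₀ P u w a y ∈ F₀ := by
    intro a ha
    have hfr : finrank ↥F₀ ↥(Submodule.span ↥F₀ {a}) ≤ 1 :=
      Cfsg.Agent.Lib.Helper44.finrank_span_singleton_le_one a
    obtain ⟨e, f, heT, hfT, hQe, hQf, hef⟩ :=
      exists_hyp_in_orth D.Q₀ D.hQ₀ (Submodule.span ↥F₀ {a}) (by omega)
    apply sing_induction D.Q₀ hQe hQf hef (fun y => nb Q F₀ P u w a y ∈ F₀) _ heT hfT
    · intro y₁ y₂ _ _ p1 p2
      show nb Q F₀ P u w a (y₁ + y₂) ∈ F₀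
      rw [nb_add_right]
      exact F₀.add_mem p1 p2
    · intro s hs hQs
      exact h a s ⟨ha, hQs, D.orth_singleton hs⟩
  have hii : ∀ a a', D.Q₀ a = 0 → D.Q₀ a' = 0 → QuadraticMap.polar ⇑D.Q₀ a a' = 1 →
      nb Q F₀ P u w a a' ∈ F₀ := by
    intro a a' ha ha' haa'
    have hfr2 : finrank ↥F₀ ↥(Submodule.span ↥F₀ (Set.range ![a, a'])) ≤ 2 := by
      have := finrank_range_le_card (R := ↥F₀) ![a, a']
      rwa [Fintype.card_fin] at this
    obtain ⟨c, c', hcT, hc'T, hQc, hQc', hcc'⟩ :=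
      exists_hyp_in_orth D.Q₀ D.hQ₀ (Submodule.span ↥F₀ (Set.range ![a, a'])) (by omega)
    have hac : QuadraticMap.polar ⇑D.Q₀ a c = 0 :=
      (Cfsg.Agent.Lib.Helper44.mem_orth_iff D.Q₀ _ c).mp hcT a (Submodule.subset_span ⟨0, rfl⟩)
    have ha'c : QuadraticMap.polar ⇑D.Q₀ a' c = 0 :=
      (Cfsg.Agent.Lib.Helper44.mem_orth_iff D.Q₀ _ c).mp hcT a' (Submodule.subset_span ⟨1, rfl⟩)
    have hac' : QuadraticMap.polar ⇑D.Q₀ a c' = 0 :=
      (Cfsg.Agent.Lib.Helper44.mem_orth_iff D.Q₀ _ c').mp hc'T a (Submodule.subset_span ⟨0, rfl⟩)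
    have ha'c' : QuadraticMap.polar ⇑D.Q₀ a' c' = 0 :=
      (Cfsg.Agent.Lib.Helper44.mem_orth_iff D.Q₀ _ c').mp hc'T a'
        (Submodule.subset_span ⟨1, rfl⟩)
    have hc'c : QuadraticMap.polar ⇑D.Q₀ c' c = 1 := by rw [QuadraticMap.polar_comm]; exact hcc'
    have hA : nb Q F₀ P u w (a + c') (a' - c) ∈ F₀ := by
      apply h
      refine ⟨quad_add_sing D.Q₀ ha hQc' hac', quad_sub_sing D.Q₀ ha' hQc ha'c, ?_⟩
      rw [QuadraticMap.polar_add_left, QuadraticMap.polar_sub_right, QuadraticMap.polar_sub_right,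
        haa', hac, D.sym0 ha'c', hc'c]
      ring
    have hB : nb Q F₀ P u w (a + c) (a' - c') ∈ F₀ := by
      apply h
      refine ⟨quad_add_sing D.Q₀ ha hQc hac, quad_sub_sing D.Q₀ ha' hQc' ha'c', ?_⟩
      rw [QuadraticMap.polar_add_left, QuadraticMap.polar_sub_right, QuadraticMap.polar_sub_right,
        haa', hac', D.sym0 ha'c, hcc']
      ring
    have h1 : nb Q F₀ P u w a c ∈ F₀ := h a c ⟨ha, hQc, hac⟩
    have h2' : nb Q F₀ P u w a c' ∈ F₀ := h a c' ⟨ha, hQc', hac'⟩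
    have h3 : nb Q F₀ P u w c' a' ∈ F₀ := h c' a' ⟨hQc', ha', D.sym0 ha'c'⟩
    have h4 : nb Q F₀ P u w c a' ∈ F₀ := h c a' ⟨hQc, ha', D.sym0 ha'c⟩
    have e : nb Q F₀ P u w a a' = (2 : F)⁻¹ * (nb Q F₀ P u w (a + c') (a' - c) +
        nb Q F₀ P u w (a + c) (a' - c') + nb Q F₀ P u w a c + nb Q F₀ P u w a c' -
        nb Q F₀ P u w c' a' - nb Q F₀ P u w c a') := by
      rw [nb_add_left, nb_sub_right, nb_sub_right, nb_add_left, nb_sub_right, nb_sub_right,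
        nb_antisymm Q F₀ P u w c' c]
      field_simp
      ring
    rw [e]
    exact F₀.mul_mem (F₀.inv_mem h2mem)
      (F₀.sub_mem (F₀.sub_mem (F₀.add_mem (F₀.add_mem (F₀.add_mem hA hB) h1) h2') h3) h4)
  have hiii : ∀ a, D.Q₀ a = 0 → ∀ y, nb Q F₀ P u w a y ∈ F₀ := by
    intro a ha y
    by_cases ha0 : a = 0
    · rw [ha0, nb_zero_left]
      exact F₀.zero_mem
    obtain ⟨a', hQa', hv⟩ := exists_sing_polar_eq D.Q₀ D.hQ₀ ![a] (li_one ha0) ![1] (by omega)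
    have haa' : QuadraticMap.polar ⇑D.Q₀ a a' = 1 := by simpa using hv 0
    obtain ⟨t, ht⟩ : ∃ t, t = QuadraticMap.polar ⇑D.Q₀ a y := ⟨_, rfl⟩
    have hy1 : y - t • a' ∈ Cfsg.Agent.Lib.Helper44.orth D.Q₀ (Submodule.span ↥F₀ {a}) := by
      apply D.mem_orth_singleton
      rw [QuadraticMap.polar_sub_right, QuadraticMap.polar_smul_right, haa', ← ht]
      simp
    have e : y = (y - t • a') + t • a' := by abel
    rw [e, nb_add_right, nb_smul_right]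
    exact F₀.add_mem (hi a ha _ hy1) (F₀.mul_mem t.2 (hii a a' ha hQa' haa'))
  obtain ⟨e, f, -, -, hQe, hQf, hef⟩ := exists_hyp_in_orth D.Q₀ D.hQ₀ ⊥ (by
    rw [finrank_bot]; omega)
  have hfin : ∀ x ∈ (⊤ : Submodule ↥F₀ (ι → ↥F₀)), ∀ y, nb Q F₀ P u w x y ∈ F₀ := by
    apply sing_induction D.Q₀ hQe hQf hef (fun x => ∀ y, nb Q F₀ P u w x y ∈ F₀) ⊤
      Submodule.mem_top Submodule.mem_top
    · intro x₁ x₂ _ _ p1 p2 y
      rw [nb_add_left]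
      exact F₀.add_mem (p1 y) (p2 y)
    · intro s _ hQs y
      exact hiii s hQs y
  intro x y
  exact hfin x Submodule.mem_top y

/-- If the infinitesimal map of `(u, w)` does not preserve the rational structure, then it has
an irrational value on some rational totally singular pair. -/
theorem RatSetup.exists_pair_irr [Fintype F] (D : RatSetup Q F₀ P M) (h2 : (2 : F) ≠ 0)
    (u w : ι → F) {x : ι → ↥F₀} (hx : ∀ z, ratEmb F₀ P z ≠ nMap Q u w (ratEmb F₀ P x)) :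
    ∃ a b, D.TS a b ∧ nb Q F₀ P u w a b ∉ F₀ := by
  by_contra hno
  push Not at hno
  have hall := D.nb_mem h2 u w hno
  obtain ⟨z, hz⟩ := mem_range_of_polar_mem Q D.hQ F₀ P D.hP
    (v := nMap Q u w (ratEmb F₀ P x)) (by
      intro y
      rw [polar_nMap]
      exact hall x y)
  exact hx z hz

/-- An isometry all of whose conjugates of rational infinitesimal maps preserve the rational
structure lies in the subfield subgroup. -/
theorem RatSetup.mem_subfield_of_nMap [Fintype F] (D : RatSetup Q F₀ P M)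
    (g : ↥(Cfsg.isometryGroup F ⇑Q))
    (h : ∀ a b, D.TS a b → ∀ x, ∃ z, ratEmb F₀ P z =
      nMap Q (((g : Matrix.GeneralLinearGroup ι F) : Matrix ι ι F) *ᵥ ratEmb F₀ P a)
        (((g : Matrix.GeneralLinearGroup ι F) : Matrix ι ι F) *ᵥ ratEmb F₀ P b)
        (ratEmb F₀ P x)) :
    (g : Matrix.GeneralLinearGroup ι F) ∈ Cfsg.Geo.subfieldSubgroup F₀ P := by
  classical
  haveI : Fintype ↥F₀ := Fintype.ofFinite _
  have hn := D.hn
  obtain ⟨G, hG⟩ : ∃ G : Matrix ι ι F, G = ((g : Matrix.GeneralLinearGroup ι F) : Matrix ι ι F) :=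
    ⟨_, rfl⟩
  rw [← hG] at h
  have hGiso : ∀ x, Q (G *ᵥ x) = Q x := by
    intro x
    rw [hG]
    exact isom_preserves g x
  -- key closure property
  have hK : ∀ a b, D.TS a b → ∀ v : ι → F, (∃ x, ratEmb F₀ P x = G *ᵥ v) →
      ∃ x', ratEmb F₀ P x' = G *ᵥ nMap Q (ratEmb F₀ P a) (ratEmb F₀ P b) v := by
    intro a b hab v hv
    obtain ⟨x, hx⟩ := hv
    obtain ⟨z, hz⟩ := h a b hab x
    refine ⟨z, ?_⟩
    rw [hz, hx, nMap_conj Q G hGiso]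
  obtain ⟨e, f, -, -, hQe, hQf, hef⟩ := exists_hyp_in_orth D.Q₀ D.hQ₀ ⊥ (by
    rw [finrank_bot]; omega)
  -- a starting vector
  have hcardpos : 0 < Fintype.card ι := by omega
  obtain ⟨i₀⟩ := Fintype.card_pos_iff.mp hcardpos
  obtain ⟨e₀, he₀⟩ : ∃ e₀ : ι → ↥F₀, e₀ = Pi.single i₀ 1 := ⟨_, rfl⟩
  have he₀0 : e₀ ≠ 0 := by
    intro h0
    have := congrFun h0 i₀
    rw [he₀] at this
    simp at this
  obtain ⟨x₀, hx₀⟩ : ∃ x₀, x₀ = (((g⁻¹ : ↥(Cfsg.isometryGroup F ⇑Q)) :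
      Matrix.GeneralLinearGroup ι F) : Matrix ι ι F) *ᵥ ratEmb F₀ P e₀ := ⟨_, rfl⟩
  have hGx₀ : G *ᵥ x₀ = ratEmb F₀ P e₀ := by
    rw [hx₀, hG]
    exact isom_mulVec_inv (⇑Q) g _
  have hx₀0 : x₀ ≠ 0 := by
    intro h0
    rw [h0, mulVec_zero] at hGx₀
    exact he₀0 ((ratEmb_eq_zero_iff F₀ P e₀).mp hGx₀.symm)
  obtain ⟨b, hQb, hβ⟩ : ∃ b, D.Q₀ b = 0 ∧ QuadraticMap.polar ⇑Q (ratEmb F₀ P b) x₀ ≠ 0 := by
    by_contra hno
    push Not at hno
    have hall : ∀ y ∈ (⊤ : Submodule ↥F₀ (ι → ↥F₀)),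
        QuadraticMap.polar ⇑Q (ratEmb F₀ P y) x₀ = 0 := by
      apply sing_induction D.Q₀ hQe hQf hef
        (fun y => QuadraticMap.polar ⇑Q (ratEmb F₀ P y) x₀ = 0) ⊤ Submodule.mem_top
        Submodule.mem_top
      · intro y₁ y₂ _ _ p1 p2
        show QuadraticMap.polar ⇑Q (ratEmb F₀ P (y₁ + y₂)) x₀ = 0
        rw [map_add, QuadraticMap.polar_add_left, p1, p2, add_zero]
      · intro s _ hQs
        exact hno s hQs
    apply hx₀0
    apply eq_zero_of_polar_rat Q D.hQ F₀ P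
    intro y
    rw [QuadraticMap.polar_comm]
    exact hall y Submodule.mem_top
  obtain ⟨β, hβdef⟩ : ∃ β, β = QuadraticMap.polar ⇑Q (ratEmb F₀ P b) x₀ := ⟨_, rfl⟩
  rw [← hβdef] at hβ
  have hb0 : b ≠ 0 := by
    intro h0
    apply hβ
    rw [hβdef, h0, map_zero, QuadraticMap.polar_zero_left]
  obtain ⟨a, hQa, hav, han⟩ := exists_sing_orth_notMem D.Q₀ D.hQ₀ ![b] (by omega)
  have hba : QuadraticMap.polar ⇑D.Q₀ b a = 0 := by simpa using hav 0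
  have hli2 : LinearIndependent ↥F₀ ![a, b] := li_cons (li_one hb0) a han
  obtain ⟨a', hQa', ha'v, ha'n⟩ := exists_sing_orth_notMem D.Q₀ D.hQ₀ ![a, b] (by omega)
  have haa' : QuadraticMap.polar ⇑D.Q₀ a a' = 0 := by simpa using ha'v 0
  have hba' : QuadraticMap.polar ⇑D.Q₀ b a' = 0 := by simpa using ha'v 1
  have hli3 : LinearIndependent ↥F₀ ![a', a, b] := li_cons hli2 a' ha'n
  obtain ⟨b', hQb', hb'v⟩ := exists_sing_polar_eq D.Q₀ D.hQ₀ ![a', a, b] hli3 ![0, 1, 0]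
    (by omega)
  have ha'b' : QuadraticMap.polar ⇑D.Q₀ a' b' = 0 := by simpa using hb'v 0
  have hab' : QuadraticMap.polar ⇑D.Q₀ a b' = 1 := by simpa using hb'v 1
  have hbb' : QuadraticMap.polar ⇑D.Q₀ b b' = 0 := by simpa using hb'v 2
  have ha'0 : a' ≠ 0 := by
    intro h0
    apply ha'n
    rw [h0]
    exact Submodule.zero_mem _
  -- the first rational multiple
  have hC0 : ∃ x₂, ratEmb F₀ P x₂ = G *ᵥ (β • ratEmb F₀ P a') := by
    have s1 := hK a b ⟨hQa, hQb, D.sym0 hba⟩ x₀ ⟨e₀, hGx₀.symm⟩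
    have s2 := hK a' b' ⟨hQa', hQb', ha'b'⟩ _ s1
    have e : nMap Q (ratEmb F₀ P a') (ratEmb F₀ P b')
        (nMap Q (ratEmb F₀ P a) (ratEmb F₀ P b) x₀) = β • ratEmb F₀ P a' := by
      unfold nMap
      simp only [QuadraticMap.polar_sub_right, QuadraticMap.polar_smul_right,
        D.pz (D.sym0 hba'), D.pz (D.sym0 haa'), D.pz (D.sym0 hbb'),
        D.p1 (by rw [QuadraticMap.polar_comm]; exact hab'), ← hβdef, smul_eq_mul, mul_zero,
        mul_one, sub_zero, zero_sub, zero_smul, neg_smul, sub_neg_eq_add, zero_add]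
    rw [e] at s2
    exact s2
  -- the set of rational vectors whose β-multiple is mapped to a rational vector
  have hCadd : ∀ v v' : ι → ↥F₀, (∃ x, ratEmb F₀ P x = G *ᵥ (β • ratEmb F₀ P v)) →
      (∃ x, ratEmb F₀ P x = G *ᵥ (β • ratEmb F₀ P v')) →
      ∃ x, ratEmb F₀ P x = G *ᵥ (β • ratEmb F₀ P (v + v')) := by
    rintro v v' ⟨x, hx⟩ ⟨x', hx'⟩
    refine ⟨x + x', ?_⟩
    rw [map_add, map_add, smul_add, mulVec_add, hx, hx']
  have hCsmul : ∀ (t : ↥F₀) (v : ι → ↥F₀), (∃ x, ratEmb F₀ P x = G *ᵥ (β • ratEmb F₀ P v)) →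
      ∃ x, ratEmb F₀ P x = G *ᵥ (β • ratEmb F₀ P (t • v)) := by
    rintro t v ⟨x, hx⟩
    refine ⟨t • x, ?_⟩
    rw [ratEmb_smul, ratEmb_smul, hx, smul_comm β (t : F), mulVec_smul _ (t : F)]
  have hCN : ∀ a₁ b₁, D.TS a₁ b₁ → ∀ v : ι → ↥F₀,
      (∃ x, ratEmb F₀ P x = G *ᵥ (β • ratEmb F₀ P v)) →
      ∃ x, ratEmb F₀ P x = G *ᵥ (β • ratEmb F₀ P
        (QuadraticMap.polar ⇑D.Q₀ a₁ v • b₁ - QuadraticMap.polar ⇑D.Q₀ b₁ v • a₁)) := by
    intro a₁ b₁ hab₁ v hv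
    have s := hK a₁ b₁ hab₁ _ hv
    have e : nMap Q (ratEmb F₀ P a₁) (ratEmb F₀ P b₁) (β • ratEmb F₀ P v) =
        β • ratEmb F₀ P
          (QuadraticMap.polar ⇑D.Q₀ a₁ v • b₁ - QuadraticMap.polar ⇑D.Q₀ b₁ v • a₁) := by
      rw [nMap_smul, map_sub, ratEmb_smul, ratEmb_smul, ratForm_polar_coe, ratForm_polar_coe]
      rfl
    rw [e] at s
    exact s
  have hα : ∀ s₁ t : ι → ↥F₀, D.Q₀ s₁ = 0 → D.Q₀ t = 0 →
      QuadraticMap.polar ⇑D.Q₀ s₁ t = 0 → s₁ ≠ 0 →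
      t ∉ Submodule.span ↥F₀ (Set.range ![s₁]) →
      (∃ x, ratEmb F₀ P x = G *ᵥ (β • ratEmb F₀ P s₁)) →
      ∃ x, ratEmb F₀ P x = G *ᵥ (β • ratEmb F₀ P t) := by
    intro s₁ t hQs hQt hst hs0 htn hCs
    have hli : LinearIndependent ↥F₀ ![t, s₁] := li_cons (li_one hs0) t htn
    obtain ⟨a₁, hQa₁, hv⟩ := exists_sing_polar_eq D.Q₀ D.hQ₀ ![t, s₁] hli ![0, 1] (by omega)
    have hta₁ : QuadraticMap.polar ⇑D.Q₀ t a₁ = 0 := by simpa using hv 0
    have hsa₁ : QuadraticMap.polar ⇑D.Q₀ s₁ a₁ = 1 := by simpa using hv 1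
    have s := hCN a₁ t ⟨hQa₁, hQt, D.sym0 hta₁⟩ s₁ hCs
    rw [QuadraticMap.polar_comm (⇑D.Q₀) a₁ s₁, hsa₁, D.sym0 hst, one_smul, zero_smul, sub_zero]
      at s
    exact s
  have hall : ∀ t, D.Q₀ t = 0 → ∃ x, ratEmb F₀ P x = G *ᵥ (β • ratEmb F₀ P t) := by
    intro t hQt
    obtain ⟨s₂, hQs₂, hs₂v, hs₂n⟩ := exists_sing_orth_notMem D.Q₀ D.hQ₀ ![a', t] (by omega)
    have ha's₂ : QuadraticMap.polar ⇑D.Q₀ a' s₂ = 0 := by simpa using hs₂v 0
    have hts₂ : QuadraticMap.polar ⇑D.Q₀ t s₂ = 0 := by simpa using hs₂v 1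
    have hs₂n1 : s₂ ∉ Submodule.span ↥F₀ (Set.range ![a']) := by
      intro hh
      apply hs₂n
      refine Submodule.span_mono ?_ hh
      rintro _ ⟨i, rfl⟩
      fin_cases i
      exact ⟨0, rfl⟩
    have hCs₂ := hα a' s₂ hQa' hQs₂ ha's₂ ha'0 hs₂n1 hC0
    have hs₂0 : s₂ ≠ 0 := by
      intro h0
      apply hs₂n
      rw [h0]
      exact Submodule.zero_mem _
    by_cases ht : t ∈ Submodule.span ↥F₀ (Set.range ![s₂])
    · have ht' : t ∈ Submodule.span ↥F₀ {s₂} := by simpa using ht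
      obtain ⟨c, rfl⟩ := Submodule.mem_span_singleton.mp ht'
      exact hCsmul c s₂ hCs₂
    · exact hα s₂ t hQs₂ hQt (D.sym0 hts₂) hs₂0 ht hCs₂
  have hfin : ∀ v ∈ (⊤ : Submodule ↥F₀ (ι → ↥F₀)),
      ∃ x, ratEmb F₀ P x = G *ᵥ (β • ratEmb F₀ P v) := by
    apply sing_induction D.Q₀ hQe hQf hef
      (fun v => ∃ x, ratEmb F₀ P x = G *ᵥ (β • ratEmb F₀ P v)) ⊤ Submodule.mem_top
      Submodule.mem_top
    · intro v₁ v₂ _ _ p1 p2
      exact hCadd v₁ v₂ p1 p2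
    · intro s _ hQs
      exact hall s hQs
  apply mem_subfieldSubgroup_of_rat F₀ P _ β⁻¹ (inv_ne_zero hβ)
  intro x
  obtain ⟨y, hy⟩ := hfin x Submodule.mem_top
  refine ⟨y, ?_⟩
  rw [hy, mulVec_smul, smul_smul, inv_mul_cancel₀ hβ, one_smul, hG]

end subfE

end Cfsg.Agent.Lib.Helper14
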