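import Mathlib
import Cfsg.Agent.Lib.Helper14.SubfE

/-!
# Quadratic subfields: an elementary argument
-/

set_option autoImplicit false

namespace Cfsg.Agent.Lib.Helper14

open Matrix Module

section subfF

variable {ι : Type} [Fintype ι] [DecidableEq ι] {F : Type*} [Field F]

variable {Q : QuadraticForm F (ι → F)} {F₀ : Subfield F} {P : Matrix.GeneralLinearGroup ι F}
  {M : Subgroup ↥(Cfsg.isometryGroup F ⇑Q)}

theorem finrank_of_card [Fintype F] (F₀ : Subfield F) (r : ℕ)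
    (hcard : Fintype.card F = Nat.card F₀ ^ r) : finrank ↥F₀ F = r := by
  have h1 := Module.natCard_eq_pow_finrank (K := ↥F₀) (V := F)
  rw [Nat.card_eq_fintype_card, hcard] at h1
  have h2 : 1 < Nat.card ↥F₀ := Finite.one_lt_card
  exact (Nat.pow_right_injective h2 h1).symm

/-- For a quadratic extension: a long root element of `M` whose infinitesimal map does not
preserve the rational structure yields a rational long root element with irrational
coefficient. -/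
theorem RatSetup.irr_of_two [Fintype F] (D : RatSetup Q F₀ P M) (hfr : finrank ↥F₀ F = 2)
    {u w : ι → F} (hu : Q u = 0) (hw : Q w = 0) (huw : QuadraticMap.polar ⇑Q u w = 0)
    (hE : EIn Q M u w) {x : ι → ↥F₀}
    (hx : ∀ z, ratEmb F₀ P z ≠ nMap Q u w (ratEmb F₀ P x)) : D.HasIrr := by
  classical
  haveI : Fintype ↥F₀ := Fintype.ofFinite _
  have hn := D.hn
  by_contra hno
  obtain ⟨Φ, hΦ⟩ : ∃ Φ : (ι → ↥F₀) →ₗ[↥F₀] F × F, ∀ v, Φ v =
      (QuadraticMap.polar ⇑Q u (ratEmb F₀ P v), QuadraticMap.polar ⇑Q w (ratEmb F₀ P v)) := by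
    refine ⟨{ toFun := fun v => (QuadraticMap.polar ⇑Q u (ratEmb F₀ P v),
                QuadraticMap.polar ⇑Q w (ratEmb F₀ P v))
              map_add' := ?_
              map_smul' := ?_ }, fun v => rfl⟩
    · intro v v'
      rw [map_add, QuadraticMap.polar_add_right, QuadraticMap.polar_add_right]
      rfl
    · intro c v
      simp only [RingHom.id_apply]
      rw [ratEmb_smul, QuadraticMap.polar_smul_right, QuadraticMap.polar_smul_right]
      rfl
  have hker : ∀ v, v ∈ LinearMap.ker Φ → QuadraticMap.polar ⇑Q u (ratEmb F₀ P v) = 0 ∧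
      QuadraticMap.polar ⇑Q w (ratEmb F₀ P v) = 0 := by
    intro v hv
    have h := LinearMap.mem_ker.mp hv
    rw [hΦ] at h
    exact Prod.mk_eq_zero.mp h
  have hdim : 9 ≤ finrank ↥F₀ ↥(LinearMap.ker Φ) := by
    have h1 := LinearMap.finrank_range_add_finrank_ker Φ
    rw [Module.finrank_fintype_fun_eq_card] at h1
    have h3 : finrank ↥F₀ ↥(LinearMap.range Φ) ≤ finrank ↥F₀ (F × F) := Submodule.finrank_le _
    have h4 : finrank ↥F₀ (F × F) = 4 := by rw [Module.finrank_prod, hfr]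
    omega
  -- four independent singular vectors in the kernel
  obtain ⟨a₁, ha₁k, ha₁n, hQ₁⟩ := exists_sing_notMem D.Q₀ (LinearMap.ker Φ) ⊥ (by
    rw [finrank_bot]; omega)
  have hfr1 : finrank ↥F₀ ↥(Submodule.span ↥F₀ (Set.range ![a₁])) ≤ 1 := by
    have := finrank_range_le_card (R := ↥F₀) ![a₁]
    rwa [Fintype.card_fin] at this
  obtain ⟨a₂, ha₂k, ha₂n, hQ₂⟩ := exists_sing_notMem D.Q₀ (LinearMap.ker Φ)
    (Submodule.span ↥F₀ (Set.range ![a₁])) (by omega)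
  have hfr2 : finrank ↥F₀ ↥(Submodule.span ↥F₀ (Set.range ![a₂, a₁])) ≤ 2 := by
    have := finrank_range_le_card (R := ↥F₀) ![a₂, a₁]
    rwa [Fintype.card_fin] at this
  obtain ⟨a₃, ha₃k, ha₃n, hQ₃⟩ := exists_sing_notMem D.Q₀ (LinearMap.ker Φ)
    (Submodule.span ↥F₀ (Set.range ![a₂, a₁])) (by omega)
  have hfr3 : finrank ↥F₀ ↥(Submodule.span ↥F₀ (Set.range ![a₃, a₂, a₁])) ≤ 3 := by
    have := finrank_range_le_card (R := ↥F₀) ![a₃, a₂, a₁]
    rwa [Fintype.card_fin] at this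
  obtain ⟨a₄, ha₄k, ha₄n, hQ₄⟩ := exists_sing_notMem D.Q₀ (LinearMap.ker Φ)
    (Submodule.span ↥F₀ (Set.range ![a₃, a₂, a₁])) (by omega)
  have ha₁0 : a₁ ≠ 0 := fun h0 => ha₁n (by rw [h0]; exact Submodule.zero_mem _)
  have ha₂0 : a₂ ≠ 0 := fun h0 => ha₂n (by rw [h0]; exact Submodule.zero_mem _)
  have ha₃0 : a₃ ≠ 0 := fun h0 => ha₃n (by rw [h0]; exact Submodule.zero_mem _)
  have ha₄0 : a₄ ≠ 0 := fun h0 => ha₄n (by rw [h0]; exact Submodule.zero_mem _)
  have l1 : LinearIndependent ↥F₀ ![a₁] := li_one ha₁0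
  have l2 : LinearIndependent ↥F₀ ![a₂, a₁] := li_cons l1 a₂ ha₂n
  have l3 : LinearIndependent ↥F₀ ![a₃, a₂, a₁] := li_cons l2 a₃ ha₃n
  have l4 : LinearIndependent ↥F₀ ![a₄, a₃, a₂, a₁] := li_cons l3 a₄ ha₄n
  have l12 : LinearIndependent ↥F₀ ![a₁, a₂] := li2_symm_sf l2
  have l34 : LinearIndependent ↥F₀ ![a₃, a₄] := by
    have h := l4.comp ![1, 0] (by decide)
    convert h using 1
    funext i
    fin_cases i <;> rfl
  -- the dichotomy at a rational singular centre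
  have hstar : ∀ a, D.Q₀ a = 0 → a ≠ 0 → a ∈ LinearMap.ker Φ → ∀ b,
      QuadraticMap.polar ⇑D.Q₀ a b = 0 →
      ∃ (v : ι → ↥F₀) (c : F), nMap Q u w (ratEmb F₀ P b) = ratEmb F₀ P v + c • ratEmb F₀ P a := by
    intro a hQa ha0 hak b hab
    obtain ⟨hua, hwa⟩ := hker a hak
    by_contra hirr'
    push Not at hirr'
    apply hno
    have hEa : EIn Q M (ratEmb F₀ P a) (ratEmb F₀ P b) :=
      ratE Q D.hQ (by omega) F₀ P D.hP M D.hM hQa hab
    have hau : QuadraticMap.polar ⇑Q (ratEmb F₀ P a) u = 0 := by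
      rw [QuadraticMap.polar_comm]; exact hua
    have haw : QuadraticMap.polar ⇑Q (ratEmb F₀ P a) w = 0 := by
      rw [QuadraticMap.polar_comm]; exact hwa
    have hpl := EIn_plane Q D.hQ M (D.sing hQa) (D.pz hab) hu hw hau haw huw hEa hE
    refine D.irr_of_centre hQa ha0 ?_ hpl ?_
    · rw [QuadraticMap.polar_sub_right, QuadraticMap.polar_smul_right,
        QuadraticMap.polar_smul_right, hau, haw]
      simp
    · intro v c hvc
      apply hirr' (-v) (-c)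
      unfold nMap
      rw [map_neg, neg_smul, ← neg_add, ← hvc, QuadraticMap.polar_comm (⇑Q) u,
        QuadraticMap.polar_comm (⇑Q) w]
      abel
  have hpair : ∀ a a', D.Q₀ a = 0 → a ≠ 0 → a ∈ LinearMap.ker Φ → D.Q₀ a' = 0 → a' ≠ 0 →
      a' ∈ LinearMap.ker Φ → LinearIndependent ↥F₀ ![a, a'] → ∀ b,
      QuadraticMap.polar ⇑D.Q₀ a b = 0 → QuadraticMap.polar ⇑D.Q₀ a' b = 0 →
      ∃ v, ratEmb F₀ P v = nMap Q u w (ratEmb F₀ P b) := by
    intro a a' hQa ha0 hak hQa' ha'0 ha'k hli b hab ha'b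
    obtain ⟨v, c, h1⟩ := hstar a hQa ha0 hak b hab
    obtain ⟨v', c', h2⟩ := hstar a' hQa' ha'0 ha'k b ha'b
    obtain ⟨y, hy⟩ := exists_polar_eq D.Q₀ D.hQ₀ ![a, a'] hli ![1, 0]
    have hay : QuadraticMap.polar ⇑D.Q₀ a y = 1 := by simpa using hy 0
    have ha'y : QuadraticMap.polar ⇑D.Q₀ a' y = 0 := by simpa using hy 1
    have h3 := congrArg (fun t => QuadraticMap.polar ⇑Q t (ratEmb F₀ P y)) (h1.symm.trans h2)
    simp only [QuadraticMap.polar_add_left, QuadraticMap.polar_smul_left, D.p1 hay, D.pz ha'y,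
      smul_eq_mul, mul_one, mul_zero, add_zero] at h3
    have hc : c ∈ F₀ := by
      have e : c = QuadraticMap.polar ⇑Q (ratEmb F₀ P v') (ratEmb F₀ P y) -
          QuadraticMap.polar ⇑Q (ratEmb F₀ P v) (ratEmb F₀ P y) := by
        rw [← h3]; ring
      rw [e]
      exact F₀.sub_mem (rat_polar_mem Q F₀ P D.hP v' y) (rat_polar_mem Q F₀ P D.hP v y)
    refine ⟨v + (⟨c, hc⟩ : ↥F₀) • a, ?_⟩
    rw [h1, map_add, ratEmb_smul]
  -- decompose an arbitrary rational vector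
  obtain ⟨b', hb'⟩ := exists_polar_eq D.Q₀ D.hQ₀ ![a₄, a₃, a₂, a₁] l4
    ![0, 0, QuadraticMap.polar ⇑D.Q₀ a₂ x, QuadraticMap.polar ⇑D.Q₀ a₁ x]
  have h4b : QuadraticMap.polar ⇑D.Q₀ a₄ b' = 0 := by simpa using hb' 0
  have h3b : QuadraticMap.polar ⇑D.Q₀ a₃ b' = 0 := by simpa using hb' 1
  have h2b : QuadraticMap.polar ⇑D.Q₀ a₂ b' = QuadraticMap.polar ⇑D.Q₀ a₂ x := by
    simpa using hb' 2
  have h1b : QuadraticMap.polar ⇑D.Q₀ a₁ b' = QuadraticMap.polar ⇑D.Q₀ a₁ x := by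
    simpa using hb' 3
  obtain ⟨v₁, hv₁⟩ := hpair a₁ a₂ hQ₁ ha₁0 ha₁k hQ₂ ha₂0 ha₂k l12 (x - b')
    (by rw [QuadraticMap.polar_sub_right, h1b, sub_self])
    (by rw [QuadraticMap.polar_sub_right, h2b, sub_self])
  obtain ⟨v₂, hv₂⟩ := hpair a₃ a₄ hQ₃ ha₃0 ha₃k hQ₄ ha₄0 ha₄k l34 b' h3b h4b
  apply hx (v₁ + v₂)
  rw [map_add, hv₁, hv₂, ← nMap_add, ← map_add, sub_add_cancel]

end subfF

end Cfsg.Agent.Lib.Helper14
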