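import Mathlib
import Cfsg.Agent.Lib.Helper14.SubfE
import Cfsg.Agent.Lib.Helper89.DicksonGen

/-!
# An `SL₂` generated by two opposite long root groups, and Dickson's generation theorem
-/

set_option autoImplicit false

namespace Cfsg.Agent.Lib.Helper14

open Matrix Module Cfsg.Agent.Lib.Helper5.SL2

section rankone

variable {F : Type*} [Field F]

/-- Rank one lemma (from Dickson's generation theorem): a subgroup of `SL₂(F)` containing
`[1 1; 0 1]` and `[1 0; κ 1]` contains `[1 κ; 0 1]`, except in the exceptional case. -/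
theorem uSL_mem_of_gen [Fintype F] (h2 : (2 : F) ≠ 0)
    (G₁ : Subgroup (Matrix.SpecialLinearGroup (Fin 2) F)) (h1 : uSL 1 ∈ G₁) (κ : F)
    (hκ : κ ≠ 0) (hl : lSL κ ∈ G₁) (hex : ¬ ((3 : F) = 0 ∧ κ ^ 2 = -1)) : uSL κ ∈ G₁ := by
  classical
  obtain ⟨L, hL⟩ : ∃ L : Subfield F, L = Subfield.closure {κ} := ⟨_, rfl⟩
  have hκL : κ ∈ L := by
    rw [hL]
    exact Subfield.subset_closure (Set.mem_singleton κ)
  haveI : Fintype ↥L := Fintype.ofFinite _
  obtain ⟨φ, hφ⟩ : ∃ φ : Matrix.SpecialLinearGroup (Fin 2) ↥L →*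
      Matrix.SpecialLinearGroup (Fin 2) F,
      φ = Matrix.SpecialLinearGroup.map (L.subtype : ↥L →+* F) := ⟨_, rfl⟩
  have hu : ∀ t : ↥L, φ (uSL t) = uSL (t : F) := by
    intro t
    rw [hφ]
    apply Subtype.ext
    rw [uSL_coe]
    ext i j
    fin_cases i <;> fin_cases j <;>
      simp [Matrix.SpecialLinearGroup.map_apply_coe, uSL_coe]
  have hlw : ∀ t : ↥L, φ (lSL t) = lSL (t : F) := by
    intro t
    rw [hφ]
    apply Subtype.ext
    rw [lSL_coe]
    ext i j
    fin_cases i <;> fin_cases j <;>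
      simp [Matrix.SpecialLinearGroup.map_apply_coe, lSL_coe]
  have h2' : (2 : ↥L) ≠ 0 := by
    intro h
    apply h2
    have := congrArg (L.subtype) h
    rw [map_ofNat, map_zero] at this
    exact this
  have hgen : Subfield.closure ({⟨κ, hκL⟩} : Set ↥L) = ⊤ := by
    rw [eq_top_iff]
    intro y _
    have hle' : Subfield.closure ({κ} : Set F) ≤
        (Subfield.closure ({⟨κ, hκL⟩} : Set ↥L)).map L.subtype := by
      apply Subfield.closure_le.mpr
      intro z hz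
      rw [Set.mem_singleton_iff] at hz
      exact ⟨⟨κ, hκL⟩, Subfield.subset_closure (Set.mem_singleton _), hz.symm⟩
    have hle : L ≤ (Subfield.closure ({⟨κ, hκL⟩} : Set ↥L)).map L.subtype :=
      hL.le.trans hle'
    obtain ⟨y', hy', hyy'⟩ := hle y.2
    have e : y' = y := Subtype.ext hyy'
    rw [← e]
    exact hy'
  have hex' : ¬ ((3 : ↥L) = 0 ∧ (⟨κ, hκL⟩ : ↥L) ^ 2 = -1) := by
    rintro ⟨h3, hk⟩
    apply hex
    constructor
    · have := congrArg (L.subtype) h3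
      rw [map_ofNat, map_zero] at this
      exact this
    · have := congrArg (L.subtype) hk
      rw [map_pow, map_neg, map_one] at this
      exact this
  have key := Cfsg.Agent.Lib.Helper89.dickson_gen_top (F := ↥L) h2' (G₁.comap φ)
    (by rw [Subgroup.mem_comap, hu]; simpa using h1) ⟨κ, hκL⟩
    (by intro h; exact hκ (congrArg Subtype.val h))
    (by rw [Subgroup.mem_comap, hlw]; exact hl) hgen hex'
  have hmem : uSL (⟨κ, hκL⟩ : ↥L) ∈ G₁.comap φ := by
    rw [key]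
    exact Subgroup.mem_top _
  have := Subgroup.mem_comap.mp hmem
  rwa [hu] at this

end rankone

section rho

variable {ι : Type} [Fintype ι] [DecidableEq ι] {F : Type*} [Field F]

/-- A hyperbolic quadruple: `a, b` and `u, w` span totally singular lines in duality. -/
structure HypQuad (Q : QuadraticForm F (ι → F)) (a b u w : ι → F) : Prop where
  ha : Q a = 0
  hb : Q b = 0
  hu : Q u = 0
  hw : Q w = 0
  hab : QuadraticMap.polar ⇑Q a b = 0
  huw : QuadraticMap.polar ⇑Q u w = 0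
  hau : QuadraticMap.polar ⇑Q a u = 1
  haw : QuadraticMap.polar ⇑Q a w = 0
  hbu : QuadraticMap.polar ⇑Q b u = 0
  hbw : QuadraticMap.polar ⇑Q b w = 1

/-- The matrix of the action of `g ∈ SL₂` on the hyperbolic four-space of a quadruple. -/
noncomputable def rhoMat (Q : QuadraticForm F (ι → F)) (a b u w : ι → F)
    (g : Matrix (Fin 2) (Fin 2) F) : Matrix ι ι F :=
  1 + Matrix.vecMulVec ((g 0 0 - 1) • a + g 1 0 • w) (Cfsg.polarVec ⇑Q u)
    + Matrix.vecMulVec (g 0 1 • a + (g 1 1 - 1) • w) (Cfsg.polarVec ⇑Q b)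
    + Matrix.vecMulVec ((g 0 0 - 1) • b - g 1 0 • u) (Cfsg.polarVec ⇑Q w)
    + Matrix.vecMulVec ((g 1 1 - 1) • u - g 0 1 • b) (Cfsg.polarVec ⇑Q a)

theorem rhoMat_mulVec (Q : QuadraticForm F (ι → F)) (a b u w : ι → F)
    (g : Matrix (Fin 2) (Fin 2) F) (x : ι → F) :
    rhoMat Q a b u w g *ᵥ x = x
      + QuadraticMap.polar ⇑Q u x • ((g 0 0 - 1) • a + g 1 0 • w)
      + QuadraticMap.polar ⇑Q b x • (g 0 1 • a + (g 1 1 - 1) • w)
      + QuadraticMap.polar ⇑Q w x • ((g 0 0 - 1) • b - g 1 0 • u)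
      + QuadraticMap.polar ⇑Q a x • ((g 1 1 - 1) • u - g 0 1 • b) := by
  unfold rhoMat
  rw [add_mulVec, add_mulVec, add_mulVec, add_mulVec, one_mulVec, vecMulVec_mulVec,
    vecMulVec_mulVec, vecMulVec_mulVec, vecMulVec_mulVec, polarVec_dotProduct,
    polarVec_dotProduct, polarVec_dotProduct, polarVec_dotProduct]
  simp only [op_smul_eq_smul]

variable {Q : QuadraticForm F (ι → F)} {a b u w : ι → F}

theorem HypQuad.hba (H : HypQuad Q a b u w) : QuadraticMap.polar ⇑Q b a = 0 := by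
  rw [QuadraticMap.polar_comm]; exact H.hab
theorem HypQuad.hwu (H : HypQuad Q a b u w) : QuadraticMap.polar ⇑Q w u = 0 := by
  rw [QuadraticMap.polar_comm]; exact H.huw
theorem HypQuad.hua (H : HypQuad Q a b u w) : QuadraticMap.polar ⇑Q u a = 1 := by
  rw [QuadraticMap.polar_comm]; exact H.hau
theorem HypQuad.hwa (H : HypQuad Q a b u w) : QuadraticMap.polar ⇑Q w a = 0 := by
  rw [QuadraticMap.polar_comm]; exact H.haw
theorem HypQuad.hub (H : HypQuad Q a b u w) : QuadraticMap.polar ⇑Q u b = 0 := by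
  rw [QuadraticMap.polar_comm]; exact H.hbu
theorem HypQuad.hwb (H : HypQuad Q a b u w) : QuadraticMap.polar ⇑Q w b = 1 := by
  rw [QuadraticMap.polar_comm]; exact H.hbw
theorem HypQuad.haa (H : HypQuad Q a b u w) : QuadraticMap.polar ⇑Q a a = 0 := by
  rw [polar_self_eq, H.ha, mul_zero]
theorem HypQuad.hbb (H : HypQuad Q a b u w) : QuadraticMap.polar ⇑Q b b = 0 := by
  rw [polar_self_eq, H.hb, mul_zero]
theorem HypQuad.huu (H : HypQuad Q a b u w) : QuadraticMap.polar ⇑Q u u = 0 := by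
  rw [polar_self_eq, H.hu, mul_zero]
theorem HypQuad.hww (H : HypQuad Q a b u w) : QuadraticMap.polar ⇑Q w w = 0 := by
  rw [polar_self_eq, H.hw, mul_zero]

theorem quad_add_smul' (Q : QuadraticForm F (ι → F)) (y v : ι → F) (c : F) :
    Q (y + c • v) = Q y + c * c * Q v + c * QuadraticMap.polar ⇑Q y v := by
  rw [QuadraticMap.map_add (⇑Q), QuadraticMap.map_smul, QuadraticMap.polar_smul_right]
  simp only [smul_eq_mul]

theorem HypQuad.quad_add_four (H : HypQuad Q a b u w) (x : ι → F) (c₁ c₂ c₃ c₄ : F) :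
    Q (x + c₁ • a + c₂ • w + c₃ • b + c₄ • u) = Q x + c₁ * c₄ + c₂ * c₃
      + c₁ * QuadraticMap.polar ⇑Q x a + c₂ * QuadraticMap.polar ⇑Q x w
      + c₃ * QuadraticMap.polar ⇑Q x b + c₄ * QuadraticMap.polar ⇑Q x u := by
  rw [quad_add_smul', quad_add_smul', quad_add_smul', quad_add_smul', H.ha, H.hb, H.hu, H.hw]
  simp only [QuadraticMap.polar_add_left, QuadraticMap.polar_smul_left, smul_eq_mul, H.hab,
    H.huw, H.hau, H.haw, H.hbu, H.hbw, H.hba, H.hwu, H.hua, H.hwa, H.hub, H.hwb, H.haa, H.hbb,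
    H.huu, H.hww]
  ring

theorem HypQuad.rho_isometry (H : HypQuad Q a b u w) (g : Matrix (Fin 2) (Fin 2) F)
    (hdet : g 0 0 * g 1 1 - g 0 1 * g 1 0 = 1) (x : ι → F) :
    Q (rhoMat Q a b u w g *ᵥ x) = Q x := by
  rw [rhoMat_mulVec]
  have e : x + QuadraticMap.polar ⇑Q u x • ((g 0 0 - 1) • a + g 1 0 • w)
      + QuadraticMap.polar ⇑Q b x • (g 0 1 • a + (g 1 1 - 1) • w)
      + QuadraticMap.polar ⇑Q w x • ((g 0 0 - 1) • b - g 1 0 • u)
      + QuadraticMap.polar ⇑Q a x • ((g 1 1 - 1) • u - g 0 1 • b) =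
      x + ((g 0 0 - 1) * QuadraticMap.polar ⇑Q u x + g 0 1 * QuadraticMap.polar ⇑Q b x) • a
        + (g 1 0 * QuadraticMap.polar ⇑Q u x + (g 1 1 - 1) * QuadraticMap.polar ⇑Q b x) • w
        + ((g 0 0 - 1) * QuadraticMap.polar ⇑Q w x - g 0 1 * QuadraticMap.polar ⇑Q a x) • b
        + ((g 1 1 - 1) * QuadraticMap.polar ⇑Q a x - g 1 0 * QuadraticMap.polar ⇑Q w x) • u := by
    module
  rw [e, H.quad_add_four, QuadraticMap.polar_comm (⇑Q) x a, QuadraticMap.polar_comm (⇑Q) x w,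
    QuadraticMap.polar_comm (⇑Q) x b, QuadraticMap.polar_comm (⇑Q) x u]
  linear_combination (QuadraticMap.polar ⇑Q u x * QuadraticMap.polar ⇑Q a x +
    QuadraticMap.polar ⇑Q b x * QuadraticMap.polar ⇑Q w x) * hdet

theorem HypQuad.rho_u (H : HypQuad Q a b u w) (g : Matrix (Fin 2) (Fin 2) F) (x : ι → F) :
    QuadraticMap.polar ⇑Q u (rhoMat Q a b u w g *ᵥ x) =
      g 0 0 * QuadraticMap.polar ⇑Q u x + g 0 1 * QuadraticMap.polar ⇑Q b x := by
  rw [rhoMat_mulVec]
  simp only [QuadraticMap.polar_add_right, QuadraticMap.polar_sub_right,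
    QuadraticMap.polar_smul_right, smul_eq_mul, H.hab,
    H.huw, H.hau, H.haw, H.hbu, H.hbw, H.hba, H.hwu, H.hua, H.hwa, H.hub, H.hwb, H.haa, H.hbb,
    H.huu, H.hww]
  ring

theorem HypQuad.rho_b (H : HypQuad Q a b u w) (g : Matrix (Fin 2) (Fin 2) F) (x : ι → F) :
    QuadraticMap.polar ⇑Q b (rhoMat Q a b u w g *ᵥ x) =
      g 1 0 * QuadraticMap.polar ⇑Q u x + g 1 1 * QuadraticMap.polar ⇑Q b x := by
  rw [rhoMat_mulVec]
  simp only [QuadraticMap.polar_add_right, QuadraticMap.polar_sub_right,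
    QuadraticMap.polar_smul_right, smul_eq_mul, H.hab,
    H.huw, H.hau, H.haw, H.hbu, H.hbw, H.hba, H.hwu, H.hua, H.hwa, H.hub, H.hwb, H.haa, H.hbb,
    H.huu, H.hww]
  ring

theorem HypQuad.rho_w (H : HypQuad Q a b u w) (g : Matrix (Fin 2) (Fin 2) F) (x : ι → F) :
    QuadraticMap.polar ⇑Q w (rhoMat Q a b u w g *ᵥ x) =
      g 0 0 * QuadraticMap.polar ⇑Q w x - g 0 1 * QuadraticMap.polar ⇑Q a x := by
  rw [rhoMat_mulVec]
  simp only [QuadraticMap.polar_add_right, QuadraticMap.polar_sub_right,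
    QuadraticMap.polar_smul_right, smul_eq_mul, H.hab,
    H.huw, H.hau, H.haw, H.hbu, H.hbw, H.hba, H.hwu, H.hua, H.hwa, H.hub, H.hwb, H.haa, H.hbb,
    H.huu, H.hww]
  ring

theorem HypQuad.rho_a (H : HypQuad Q a b u w) (g : Matrix (Fin 2) (Fin 2) F) (x : ι → F) :
    QuadraticMap.polar ⇑Q a (rhoMat Q a b u w g *ᵥ x) =
      g 1 1 * QuadraticMap.polar ⇑Q a x - g 1 0 * QuadraticMap.polar ⇑Q w x := by
  rw [rhoMat_mulVec]
  simp only [QuadraticMap.polar_add_right, QuadraticMap.polar_sub_right,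
    QuadraticMap.polar_smul_right, smul_eq_mul, H.hab,
    H.huw, H.hau, H.haw, H.hbu, H.hbw, H.hba, H.hwu, H.hua, H.hwa, H.hub, H.hwb, H.haa, H.hbb,
    H.huu, H.hww]
  ring

theorem HypQuad.rho_mul (H : HypQuad Q a b u w) (g h : Matrix (Fin 2) (Fin 2) F) :
    rhoMat Q a b u w g * rhoMat Q a b u w h = rhoMat Q a b u w (g * h) := by
  rw [ext_iff_mulVec]
  intro x
  rw [← mulVec_mulVec]
  obtain ⟨y, hy⟩ : ∃ y, y = rhoMat Q a b u w h *ᵥ x := ⟨_, rfl⟩
  have c1 := H.rho_u h x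
  have c2 := H.rho_b h x
  have c3 := H.rho_w h x
  have c4 := H.rho_a h x
  rw [← hy] at c1 c2 c3 c4 ⊢
  rw [rhoMat_mulVec Q a b u w g y, c1, c2, c3, c4, hy, rhoMat_mulVec, rhoMat_mulVec]
  simp only [Matrix.mul_apply, Fin.sum_univ_two]
  module

theorem rhoMat_one (Q : QuadraticForm F (ι → F)) (a b u w : ι → F) :
    rhoMat Q a b u w 1 = 1 := by
  rw [ext_iff_mulVec]
  intro x
  rw [rhoMat_mulVec, one_mulVec]
  simp

/-- The embedding of `SL₂` attached to a hyperbolic quadruple. -/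
noncomputable def HypQuad.rho (H : HypQuad Q a b u w)
    (hQ : (QuadraticMap.polarBilin Q).Nondegenerate) :
    Matrix.SpecialLinearGroup (Fin 2) F →* ↥(Cfsg.isometryGroup F ⇑Q) where
  toFun g := mkIsom Q hQ (rhoMat Q a b u w g.1) (H.rho_isometry g.1 (det_eq g))
  map_one' := by
    apply isom_ext
    rw [mkIsom_coe]
    simp [rhoMat_one]
  map_mul' g h := by
    apply isom_ext
    simp only [Subgroup.coe_mul, Units.val_mul, mkIsom_coe]
    rw [Matrix.SpecialLinearGroup.coe_mul, H.rho_mul]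

theorem HypQuad.rho_coe (H : HypQuad Q a b u w)
    (hQ : (QuadraticMap.polarBilin Q).Nondegenerate) (g : Matrix.SpecialLinearGroup (Fin 2) F) :
    (((H.rho hQ g : ↥(Cfsg.isometryGroup F ⇑Q)) : Matrix.GeneralLinearGroup ι F) :
      Matrix ι ι F) = rhoMat Q a b u w g.1 := rfl

theorem HypQuad.rho_uSL (H : HypQuad Q a b u w) (t : F) :
    rhoMat Q a b u w (uSL t).1 = eichMat Q a ((-t) • b) := by
  rw [ext_iff_mulVec]
  intro x
  rw [rhoMat_mulVec, eichMat_mulVec, uSL_coe, QuadraticMap.map_smul, H.hb,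
    QuadraticMap.polar_smul_left]
  simp only [Matrix.of_apply, Matrix.cons_val', Matrix.cons_val_zero, Matrix.cons_val_one,
    Matrix.cons_val_fin_one, smul_eq_mul, mul_zero, zero_mul, add_zero, sub_self, zero_smul]
  module

theorem HypQuad.rho_lSL (H : HypQuad Q a b u w) (s : F) :
    rhoMat Q a b u w (lSL s).1 = eichMat Q u (s • w) := by
  rw [ext_iff_mulVec]
  intro x
  rw [rhoMat_mulVec, eichMat_mulVec, lSL_coe, QuadraticMap.map_smul, H.hw,
    QuadraticMap.polar_smul_left]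
  simp only [Matrix.of_apply, Matrix.cons_val', Matrix.cons_val_zero, Matrix.cons_val_one,
    Matrix.cons_val_fin_one, smul_eq_mul, mul_zero, zero_mul, add_zero, sub_self, zero_smul]
  module

end rho

end Cfsg.Agent.Lib.Helper14
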