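import Mathlib
import Cfsg.Agent.Lib.Helper14.TSPair

/-!
# An element of `Ω` interchanging two complementary totally singular subspaces of even dimension
-/

set_option autoImplicit false

namespace Cfsg.Agent.Lib.Helper14

open Matrix Module

section swap

variable {ι : Type} [Fintype ι] [DecidableEq ι] {F : Type*} [Field F]

theorem polar_sum_right (Q : QuadraticForm F (ι → F)) {κ : Type*} (s : Finset κ) (u : ι → F)
    (f : κ → ι → F) :
    QuadraticMap.polar ⇑Q u (∑ i ∈ s, f i) = ∑ i ∈ s, QuadraticMap.polar ⇑Q u (f i) :=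
  map_sum (QuadraticMap.polarBilin Q u) f s

theorem refl_fix (Q : QuadraticForm F (ι → F)) {v x : ι → F}
    (h : QuadraticMap.polar ⇑Q v x = 0) : Cfsg.reflectionMatrix ⇑Q v *ᵥ x = x := by
  rw [reflectionMatrix_mulVec, h, mul_zero, zero_smul, sub_zero]

theorem refl_swap_aux (Q : QuadraticForm F (ι → F)) {a b : ι → F} (ha : Q a = 0) (hb : Q b = 0)
    (haa : QuadraticMap.polar ⇑Q a a = 0) (hbb : QuadraticMap.polar ⇑Q b b = 0)
    (hab : QuadraticMap.polar ⇑Q a b = 1) :
    Q (a - b) = -1 ∧ Cfsg.reflectionMatrix ⇑Q (a - b) *ᵥ a = b ∧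
      Cfsg.reflectionMatrix ⇑Q (a - b) *ᵥ b = a := by
  have hQ : Q (a - b) = -1 := by
    rw [sub_eq_add_neg, QuadraticMap.map_add Q a (-b), QuadraticMap.map_neg, ha, hb,
      QuadraticMap.polar_neg_right, hab]
    ring
  have hba : QuadraticMap.polar ⇑Q b a = 1 := by rw [QuadraticMap.polar_comm]; exact hab
  refine ⟨hQ, ?_, ?_⟩
  · rw [reflectionMatrix_mulVec, hQ, QuadraticMap.polar_sub_left, haa, hba]
    have : ((-1 : F)⁻¹ * (0 - 1)) = 1 := by rw [inv_neg_one]; ring
    rw [this, one_smul]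
    abel
  · rw [reflectionMatrix_mulVec, hQ, QuadraticMap.polar_sub_left, hab, hbb]
    have : ((-1 : F)⁻¹ * (1 - 0)) = -1 := by rw [inv_neg_one]; ring
    rw [this, neg_one_smul]
    abel

/-- The product of the reflections in `a i - b i` over a list of distinct indices interchanges
`a j` and `b j` for the indices `j` in the list. -/
theorem prod_refl_swap (Q : QuadraticForm F (ι → F)) {n' : ℕ} (a b : Fin n' → ι → F)
    (hQa : ∀ i, Q (a i) = 0) (hQb : ∀ i, Q (b i) = 0)
    (haa : ∀ i j, QuadraticMap.polar ⇑Q (a i) (a j) = 0)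
    (hbb : ∀ i j, QuadraticMap.polar ⇑Q (b i) (b j) = 0)
    (hab : ∀ i j, QuadraticMap.polar ⇑Q (a i) (b j) = if i = j then 1 else 0)
    (L : List (Fin n')) (hL : L.Nodup) (j : Fin n') :
    ((L.map (fun i => a i - b i)).map (Cfsg.reflectionMatrix ⇑Q)).prod *ᵥ a j =
        (if j ∈ L then b j else a j) ∧
      ((L.map (fun i => a i - b i)).map (Cfsg.reflectionMatrix ⇑Q)).prod *ᵥ b j =
        (if j ∈ L then a j else b j) := by
  induction L with
  | nil => simp
  | cons i₀ rest ih =>
    obtain ⟨hnot, hrest⟩ := List.nodup_cons.mp hL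
    obtain ⟨ih1, ih2⟩ := ih hrest
    rw [List.map_cons, List.map_cons, List.prod_cons, ← Matrix.mulVec_mulVec,
      ← Matrix.mulVec_mulVec, ih1, ih2]
    by_cases hj : j = i₀
    · subst hj
      have h1 : QuadraticMap.polar ⇑Q (a j) (b j) = 1 := by rw [hab, if_pos rfl]
      obtain ⟨-, e1, e2⟩ := refl_swap_aux Q (hQa j) (hQb j) (haa j j) (hbb j j) h1
      rw [if_neg hnot, if_neg hnot, e1, e2, if_pos (List.mem_cons_self ..),
        if_pos (List.mem_cons_self ..)]
      exact ⟨rfl, rfl⟩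
    · have hmem : j ∈ i₀ :: rest ↔ j ∈ rest := by
        rw [List.mem_cons]
        exact ⟨fun h => h.resolve_left hj, Or.inr⟩
      have h1 : QuadraticMap.polar ⇑Q (a i₀ - b i₀) (a j) = 0 := by
        rw [QuadraticMap.polar_sub_left, haa, QuadraticMap.polar_comm, hab, if_neg hj, sub_zero]
      have h2 : QuadraticMap.polar ⇑Q (a i₀ - b i₀) (b j) = 0 := by
        rw [QuadraticMap.polar_sub_left, hbb, hab, if_neg (fun h => hj h.symm), sub_zero]
      by_cases hjr : j ∈ rest
      · rw [if_pos hjr, if_pos hjr, if_pos (hmem.mpr hjr), if_pos (hmem.mpr hjr)]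
        exact ⟨refl_fix Q h2, refl_fix Q h1⟩
      · rw [if_neg hjr, if_neg hjr, if_neg (fun h => hjr (hmem.mp h)),
          if_neg (fun h => hjr (hmem.mp h))]
        exact ⟨refl_fix Q h1, refl_fix Q h2⟩

variable {Q : QuadraticForm F (ι → F)} {A B : Submodule F (ι → F)} {m : ℕ}

/-- Dual bases of a pair of complementary totally singular subspaces. -/
theorem TSPair.exists_dual_basis (S : TSPair Q A B m) :
    ∃ a b : Fin m → ι → F, (∀ i, a i ∈ A) ∧ (∀ i, b i ∈ B) ∧
      (∀ i j, QuadraticMap.polar ⇑Q (a i) (b j) = if i = j then 1 else 0) ∧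
      (∀ x ∈ A, ∃ r : Fin m → F, x = ∑ i, r i • a i) := by
  obtain ⟨bA⟩ : Nonempty (Basis (Fin m) F A) := ⟨Module.finBasisOfFinrankEq F A S.hfA⟩
  have hli : LinearIndependent F (fun i => (bA i : ι → F)) :=
    bA.linearIndependent.map' A.subtype (Submodule.ker_subtype A)
  have hex : ∀ j, ∃ b ∈ B,
      (∀ s ∈ Submodule.span F ((fun i => (bA i : ι → F)) '' (Set.univ \ {j})),
        QuadraticMap.polar ⇑Q s b = 0) ∧ QuadraticMap.polar ⇑Q (bA j : ι → F) b = 1 := by
    intro j
    apply S.exists_dual _ _ (bA j).2 (linearIndependent_iff_notMem_span.mp hli j)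
    rw [Submodule.span_le]
    rintro _ ⟨i, -, rfl⟩
    exact (bA i).2
  choose b hbB hb0 hb1 using hex
  refine ⟨fun i => (bA i : ι → F), b, fun i => (bA i).2, hbB, ?_, ?_⟩
  · intro i j
    by_cases hij : i = j
    · rw [if_pos hij, hij]
      exact hb1 j
    · rw [if_neg hij]
      apply hb0 j
      apply Submodule.subset_span
      exact ⟨i, ⟨Set.mem_univ i, hij⟩, rfl⟩
  · intro x hx
    refine ⟨fun i => bA.repr ⟨x, hx⟩ i, ?_⟩
    have h1 := bA.sum_repr ⟨x, hx⟩
    have h2 := congrArg (fun v : A => (v : ι → F)) h1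
    simp only [Submodule.coe_sum, Submodule.coe_smul] at h2
    exact h2.symm

/-- For `m` even there is an element of `Ω` interchanging `A` and `B`. -/
theorem TSPair.exists_swap [Fintype F] (S : TSPair Q A B m) (hn : 5 ≤ Fintype.card ι)
    (hm : Even m) :
    ∃ s ∈ commutator ↥(Cfsg.isometryGroup F ⇑Q),
      (∀ x ∈ A, ((s : Matrix.GeneralLinearGroup ι F) : Matrix ι ι F) *ᵥ x ∈ B) ∧
      (∀ y ∈ B, ((s : Matrix.GeneralLinearGroup ι F) : Matrix ι ι F) *ᵥ y ∈ A) := by
  obtain ⟨a, b, haA, hbB, hab, hrepr⟩ := S.exists_dual_basis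
  have haa : ∀ i j, QuadraticMap.polar ⇑Q (a i) (a j) = 0 := fun i j => S.polarA (haA i) (haA j)
  have hbb : ∀ i j, QuadraticMap.polar ⇑Q (b i) (b j) = 0 := fun i j => S.polarB (hbB i) (hbB j)
  have hQa : ∀ i, Q (a i) = 0 := fun i => S.hA _ (haA i)
  have hQb : ∀ i, Q (b i) = 0 := fun i => S.hB _ (hbB i)
  have hQc : ∀ i, Q (a i - b i) = -1 := by
    intro i
    exact (refl_swap_aux Q (hQa i) (hQb i) (haa i i) (hbb i i) (by rw [hab, if_pos rfl])).1
  have hl : ∀ u ∈ (List.finRange m).map (fun i => a i - b i), Q u ≠ 0 := by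
    intro u hu
    obtain ⟨i, -, rfl⟩ := List.mem_map.mp hu
    rw [hQc]
    exact neg_ne_zero.mpr one_ne_zero
  have hcoe : (((prodElt Q S.hQ _ hl : ↥(Cfsg.isometryGroup F ⇑Q)) :
      Matrix.GeneralLinearGroup ι F) : Matrix ι ι F) =
      (((List.finRange m).map (fun i => a i - b i)).map (Cfsg.reflectionMatrix ⇑Q)).prod := rfl
  have hsa : ∀ j, (((prodElt Q S.hQ _ hl : ↥(Cfsg.isometryGroup F ⇑Q)) :
      Matrix.GeneralLinearGroup ι F) : Matrix ι ι F) *ᵥ a j = b j := by
    intro j
    rw [hcoe, (prod_refl_swap Q a b hQa hQb haa hbb hab _ (List.nodup_finRange m) j).1,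
      if_pos (List.mem_finRange j)]
  have hsb : ∀ j, (((prodElt Q S.hQ _ hl : ↥(Cfsg.isometryGroup F ⇑Q)) :
      Matrix.GeneralLinearGroup ι F) : Matrix ι ι F) *ᵥ b j = a j := by
    intro j
    rw [hcoe, (prod_refl_swap Q a b hQa hQb haa hbb hab _ (List.nodup_finRange m) j).2,
      if_pos (List.mem_finRange j)]
  refine ⟨prodElt Q S.hQ _ hl, ?_, ?_, ?_⟩
  · rw [Cfsg.Agent.Lib.Helper44.prodElt_mem_commutator_iff_all Q S.hQ
      (fun _ => Or.inr (by omega))]
    constructor
    · rw [List.length_map, List.length_finRange]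
      exact hm
    · have h1 : ((List.finRange m).map (fun i => a i - b i)).map ⇑Q =
          List.replicate m (-1 : F) := by
        rw [List.eq_replicate_iff]
        constructor
        · rw [List.length_map, List.length_map, List.length_finRange]
        · intro c hc
          obtain ⟨u, hu, rfl⟩ := List.mem_map.mp hc
          obtain ⟨i, -, rfl⟩ := List.mem_map.mp hu
          exact hQc i
      rw [h1, List.prod_replicate, hm.neg_one_pow]
      exact IsSquare.one
  · intro x hx
    obtain ⟨r, rfl⟩ := hrepr x hx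
    rw [← Matrix.mulVecLin_apply, map_sum]
    apply Submodule.sum_mem
    intro i _
    rw [map_smul, Matrix.mulVecLin_apply, hsa]
    exact B.smul_mem _ (hbB i)
  · intro y hy
    have hy' : y - ∑ i, QuadraticMap.polar ⇑Q (a i) y • b i ∈ B :=
      B.sub_mem hy (Submodule.sum_mem _ (fun i _ => B.smul_mem _ (hbB i)))
    have hperp : ∀ j, QuadraticMap.polar ⇑Q (y - ∑ i, QuadraticMap.polar ⇑Q (a i) y • b i)
        (a j) = 0 := by
      intro j
      rw [QuadraticMap.polar_sub_left, QuadraticMap.polar_comm (⇑Q) (∑ i, _) (a j),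
        polar_sum_right]
      simp only [QuadraticMap.polar_smul_right, hab, smul_eq_mul, mul_ite, mul_one, mul_zero,
        Finset.sum_ite_eq, Finset.mem_univ, if_true]
      rw [QuadraticMap.polar_comm, sub_self]
    have hzero : y - ∑ i, QuadraticMap.polar ⇑Q (a i) y • b i = 0 := by
      apply S.symm.eq_zero_of_perp hy'
      intro x hx
      obtain ⟨r, rfl⟩ := hrepr x hx
      rw [polar_sum_right]
      apply Finset.sum_eq_zero
      intro i _
      rw [QuadraticMap.polar_smul_right, hperp i, smul_zero]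
    have hyeq : y = ∑ i, QuadraticMap.polar ⇑Q (a i) y • b i := sub_eq_zero.mp hzero
    rw [hyeq, ← Matrix.mulVecLin_apply, map_sum]
    apply Submodule.sum_mem
    intro i _
    rw [map_smul, Matrix.mulVecLin_apply, hsb]
    exact A.smul_mem _ (haA i)

end swap

end Cfsg.Agent.Lib.Helper14
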