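import Mathlib
import Cfsg.Agent.Lib.Helper14.TSSwap

/-!
# Maximality of the stabiliser of a pair of complementary totally singular subspaces
-/

set_option autoImplicit false

namespace Cfsg.Agent.Lib.Helper14

open Matrix Module

section core

variable {ι : Type} [Fintype ι] [DecidableEq ι] {F : Type*} [Field F]

/-- Wrapper turning an overgroup dichotomy in the isometry group into `IsMaximalIn`. -/
theorem isMaximalIn_of_core (Q : (ι → F) → F) (K : Subgroup (Matrix.GeneralLinearGroup ι F))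
    (hne : ∃ g ∈ commutator ↥(Cfsg.isometryGroup F Q), (g : Matrix.GeneralLinearGroup ι F) ∉ K)
    (hcore : ∀ M : Subgroup ↥(Cfsg.isometryGroup F Q),
      (∀ g ∈ commutator ↥(Cfsg.isometryGroup F Q),
        (g : Matrix.GeneralLinearGroup ι F) ∈ K → g ∈ M) →
      (∀ g ∈ M, (g : Matrix.GeneralLinearGroup ι F) ∈ K) ∨
        commutator ↥(Cfsg.isometryGroup F Q) ≤ M) :
    Cfsg.Geo.IsMaximalIn (Cfsg.Geo.omegaGL Q) (K ⊓ Cfsg.Geo.omegaGL Q) := by
  constructor
  · refine lt_of_le_of_ne inf_le_right ?_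
    intro heq
    obtain ⟨g, hgΩ, hg⟩ := hne
    apply hg
    have hgΩ' : (g : Matrix.GeneralLinearGroup ι F) ∈ Cfsg.Geo.omegaGL Q :=
      (Cfsg.Agent.Lib.Helper44.coe_mem_omegaGL_iff _).mpr hgΩ
    rw [← heq] at hgΩ'
    exact (Subgroup.mem_inf.mp hgΩ').1
  · intro M hPM hMK
    have hPM' : ∀ g ∈ commutator ↥(Cfsg.isometryGroup F Q),
        (g : Matrix.GeneralLinearGroup ι F) ∈ K →
        g ∈ M.comap (Cfsg.isometryGroup F Q).subtype := by
      intro g hgΩ hgK
      apply hPM
      exact Subgroup.mem_inf.mpr ⟨hgK, (Cfsg.Agent.Lib.Helper44.coe_mem_omegaGL_iff g).mpr hgΩ⟩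
    rcases hcore (M.comap (Cfsg.isometryGroup F Q).subtype) hPM' with h | h
    · left
      apply le_antisymm _ hPM
      intro g hg
      obtain ⟨g', -, rfl⟩ := Cfsg.Agent.Lib.Helper44.exists_of_mem_omegaGL (hMK hg)
      exact Subgroup.mem_inf.mpr ⟨h g' hg, hMK hg⟩
    · right
      apply le_antisymm hMK
      intro g hg
      obtain ⟨g', hg'Ω, rfl⟩ := Cfsg.Agent.Lib.Helper44.exists_of_mem_omegaGL hg
      exact h hg'Ω

/-- Membership of an isometry in the stabiliser of a decomposition into two subspaces of the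
same dimension. -/
theorem mem_decompStab_two_iff (Q : (ι → F) → F) (D : Fin 2 → Submodule F (ι → F))
    (hfin : finrank F (D 0) = finrank F (D 1)) (g : ↥(Cfsg.isometryGroup F Q)) :
    (g : Matrix.GeneralLinearGroup ι F) ∈ Cfsg.Geo.decompositionStabilizer D ↔
      StabPair (D 0) (D 1) ((g : Matrix.GeneralLinearGroup ι F) : Matrix ι ι F) := by
  constructor
  · rintro ⟨σ, hσ⟩
    have h0 := hσ 0
    have h1 := hσ 1
    rw [Matrix.toLin'_apply'] at h0 h1
    have h01 : σ 0 ≠ σ 1 := fun h => absurd (σ.injective h) (by decide)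
    have hne : (σ 0).val ≠ (σ 1).val := fun h => h01 (Fin.ext h)
    have hp := (σ 0).isLt
    have hq := (σ 1).isLt
    rcases Nat.lt_or_ge (σ 0).val 1 with h | h
    · left
      have e0 : σ 0 = 0 := Fin.ext (by show (σ 0).val = 0; omega)
      have e1 : σ 1 = 1 := Fin.ext (by show (σ 1).val = 1; omega)
      rw [e0] at h0
      rw [e1] at h1
      constructor
      · intro x hx
        rw [← h0]
        exact ⟨x, hx, rfl⟩
      · intro x hx
        rw [← h1]
        exact ⟨x, hx, rfl⟩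
    · right
      have e0 : σ 0 = 1 := Fin.ext (by show (σ 0).val = 1; omega)
      have e1 : σ 1 = 0 := Fin.ext (by show (σ 1).val = 0; omega)
      rw [e0] at h0
      rw [e1] at h1
      constructor
      · intro x hx
        rw [← h0]
        exact ⟨x, hx, rfl⟩
      · intro x hx
        rw [← h1]
        exact ⟨x, hx, rfl⟩
  · rintro (⟨hA, hB⟩ | ⟨hA, hB⟩)
    · refine ⟨1, fun i => ?_⟩
      rw [Matrix.toLin'_apply', Equiv.Perm.one_apply]
      fin_cases i
      · exact Cfsg.Agent.Lib.Helper44.map_eq_of_forall_mem Q g (D 0) hA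
      · exact Cfsg.Agent.Lib.Helper44.map_eq_of_forall_mem Q g (D 1) hB
    · have e0 : (D 0).map (Matrix.mulVecLin ((g : Matrix.GeneralLinearGroup ι F) :
          Matrix ι ι F)) = D 1 := by
        apply Submodule.eq_of_le_of_finrank_eq
        · rintro _ ⟨x, hx, rfl⟩
          exact hA x hx
        · rw [finrank_map_isom Q g, hfin]
      have e1 : (D 1).map (Matrix.mulVecLin ((g : Matrix.GeneralLinearGroup ι F) :
          Matrix ι ι F)) = D 0 := by
        apply Submodule.eq_of_le_of_finrank_eq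
        · rintro _ ⟨x, hx, rfl⟩
          exact hB x hx
        · rw [finrank_map_isom Q g, hfin]
      refine ⟨Equiv.swap 0 1, fun i => ?_⟩
      rw [Matrix.toLin'_apply']
      fin_cases i
      · show (D 0).map _ = D (Equiv.swap 0 1 0)
        rw [Equiv.swap_apply_left]
        exact e0
      · show (D 1).map _ = D (Equiv.swap 0 1 1)
        rw [Equiv.swap_apply_right]
        exact e1

variable [Fintype F] {Q : QuadraticForm F (ι → F)} {A B : Submodule F (ι → F)} {m : ℕ}

/-- Some element of `Ω` does not stabilise the pair. -/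
theorem TSPair.exists_not_stabPair (S : TSPair Q A B m) (hn : 5 ≤ Fintype.card ι) (hm : 2 ≤ m) :
    ∃ g ∈ commutator ↥(Cfsg.isometryGroup F ⇑Q),
      ¬ StabPair A B ((g : Matrix.GeneralLinearGroup ι F) : Matrix ι ι F) := by
  obtain ⟨a', ha', ha'0⟩ := exists_ne_zero_of_finrank_pos (M := A) (by rw [S.hfA]; omega)
  have hf := Cfsg.Agent.Lib.Helper44.finrank_span_singleton_le_one (F := F) a'
  obtain ⟨a, ha, haspan⟩ : ∃ a ∈ A, a ∉ Submodule.span F {a'} := by
    apply SetLike.not_le_iff_exists.mp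
    intro hle
    have := Submodule.finrank_mono hle
    rw [S.hfA] at this
    omega
  obtain ⟨b, hb, hb0, hb1⟩ := S.exists_dual (Submodule.span F {a'})
    ((Submodule.span_singleton_le_iff_mem a' A).mpr ha') ha haspan
  have ha'b : QuadraticMap.polar ⇑Q a' b = 0 := hb0 a' (Submodule.mem_span_singleton_self a')
  have haa' : QuadraticMap.polar ⇑Q a a' = 0 := S.polarA ha ha'
  refine ⟨eichElt Q S.hQ a a' (S.hA a ha) haa', eich_mem_omega Q S.hQ hn (S.hA a ha) haa' _ rfl,
    ?_⟩
  rw [eichElt_coe]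
  have e : eichMat Q a a' *ᵥ b = b + a' := by
    rw [eichMat_mulVec, hb1, ha'b, S.hA a' ha']
    simp
  rintro (⟨-, hB⟩ | ⟨-, hB⟩)
  · have h1 := hB b hb
    rw [e] at h1
    have h2 : a' ∈ B := by
      have := B.sub_mem h1 hb
      rwa [add_sub_cancel_left] at this
    exact ha'0 (S.eq_zero_of_mem ha' h2)
  · have h1 := hB b hb
    rw [e] at h1
    have h2 : b ∈ A := by
      have := A.sub_mem h1 ha'
      rwa [add_sub_cancel_right] at this
    have h3 : b = 0 := S.eq_zero_of_mem h2 hb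
    rw [h3, QuadraticMap.polar_zero_right] at hb1
    exact zero_ne_one hb1

/-- The stabiliser in `Ω` of a pair of complementary totally singular subspaces of even
dimension is maximal. -/
theorem tspair_isMaximalIn (Q : QuadraticForm F (ι → F)) (hn : 5 ≤ Fintype.card ι)
    (D : Fin 2 → Submodule F (ι → F)) (m : ℕ) (S : TSPair Q (D 0) (D 1) m) (hm : 5 ≤ m)
    (hev : Even m) :
    Cfsg.Geo.IsMaximalIn (Cfsg.Geo.omegaGL ⇑Q)
      (Cfsg.Geo.decompositionStabilizer D ⊓ Cfsg.Geo.omegaGL ⇑Q) := by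
  have hfin : finrank F (D 0) = finrank F (D 1) := by rw [S.hfA, S.hfB]
  apply isMaximalIn_of_core
  · obtain ⟨g, hgΩ, hg⟩ := S.exists_not_stabPair hn (by omega)
    exact ⟨g, hgΩ, fun h => hg ((mem_decompStab_two_iff (⇑Q) D hfin g).mp h)⟩
  · intro M hPM
    have hPM' : ∀ g ∈ commutator ↥(Cfsg.isometryGroup F ⇑Q),
        StabPair (D 0) (D 1) ((g : Matrix.GeneralLinearGroup ι F) : Matrix ι ι F) → g ∈ M :=
      fun g hg hst => hPM g hg ((mem_decompStab_two_iff (⇑Q) D hfin g).mpr hst)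
    obtain ⟨s, hsΩ, hsA, hsB⟩ := S.exists_swap hn hev
    have hswap : ∃ s ∈ M,
        (∀ x ∈ D 0, ((s : Matrix.GeneralLinearGroup ι F) : Matrix ι ι F) *ᵥ x ∈ D 1) ∧
        (∀ y ∈ D 1, ((s : Matrix.GeneralLinearGroup ι F) : Matrix ι ι F) *ᵥ y ∈ D 0) :=
      ⟨s, hPM' s hsΩ (Or.inr ⟨hsA, hsB⟩), hsA, hsB⟩
    rcases S.stabPair_or hn hm hPM' hswap with h | h
    · left
      intro g hg
      exact (mem_decompStab_two_iff (⇑Q) D hfin g).mpr (h g hg)
    · right
      exact h

end core

end Cfsg.Agent.Lib.Helper14
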