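import Mathlib
import Cfsg.Agent.Lib.Helper14.SubfF
import Cfsg.Agent.Lib.Helper14.SubfG
import Cfsg.Agent.Lib.Helper14.TSMax

/-!
# Maximality of the subfield subgroups of orthogonal groups in odd characteristic
-/

set_option autoImplicit false

namespace Cfsg.Agent.Lib.Helper14

open Matrix Module Cfsg.Agent.Lib.Helper5.SL2

section subfH

variable {ι : Type} [Fintype ι] [DecidableEq ι] {F : Type*} [Field F]

variable {Q : QuadraticForm F (ι → F)} {F₀ : Subfield F} {P : Matrix.GeneralLinearGroup ι F}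
  {M : Subgroup ↥(Cfsg.isometryGroup F ⇑Q)}

/-- Using Dickson's generation theorem: a long root element of `M` whose infinitesimal map does
not preserve the rational structure yields a rational long root element with irrational
coefficient (outside the exceptional case). -/
theorem RatSetup.irr_of_dickson [Fintype F] (D : RatSetup Q F₀ P M) (h2 : (2 : F) ≠ 0)
    (hexc : ∀ κ : F, κ ∉ F₀ → ¬ ((3 : F) = 0 ∧ κ ^ 2 = -1))
    {u w : ι → F} (hu : Q u = 0) (hw : Q w = 0) (huw : QuadraticMap.polar ⇑Q u w = 0)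
    (hE : EIn Q M u w) {x : ι → ↥F₀}
    (hx : ∀ z, ratEmb F₀ P z ≠ nMap Q u w (ratEmb F₀ P x)) : D.HasIrr := by
  classical
  obtain ⟨a, b, hab, hκ⟩ := D.exists_pair_irr h2 u w hx
  obtain ⟨α, hα⟩ : ∃ α, α = QuadraticMap.polar ⇑Q u (ratEmb F₀ P a) := ⟨_, rfl⟩
  obtain ⟨β, hβ⟩ : ∃ β, β = QuadraticMap.polar ⇑Q u (ratEmb F₀ P b) := ⟨_, rfl⟩
  obtain ⟨γ, hγ⟩ : ∃ γ, γ = QuadraticMap.polar ⇑Q w (ratEmb F₀ P a) := ⟨_, rfl⟩
  obtain ⟨δ, hδ⟩ : ∃ δ, δ = QuadraticMap.polar ⇑Q w (ratEmb F₀ P b) := ⟨_, rfl⟩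
  obtain ⟨κ, hκdef⟩ : ∃ κ, κ = α * δ - γ * β := ⟨_, rfl⟩
  have hnb : nb Q F₀ P u w a b = κ := by
    unfold nb
    rw [hκdef, hα, hβ, hγ, hδ]
  rw [hnb] at hκ
  have hκ0 : κ ≠ 0 := by
    intro h
    apply hκ
    rw [h]
    exact F₀.zero_mem
  obtain ⟨κi, hκi⟩ : ∃ κi, κ * κi = 1 := ⟨κ⁻¹, mul_inv_cancel₀ hκ0⟩
  obtain ⟨u', hu'⟩ : ∃ u', u' = (δ * κi) • u + (-β * κi) • w := ⟨_, rfl⟩
  obtain ⟨w', hw'⟩ : ∃ w', w' = (-γ * κi) • u + (α * κi) • w := ⟨_, rfl⟩
  have hwu : QuadraticMap.polar ⇑Q w u = 0 := by rw [QuadraticMap.polar_comm]; exact huw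
  have huu : QuadraticMap.polar ⇑Q u u = 0 := by rw [polar_self_eq, hu, mul_zero]
  have hww : QuadraticMap.polar ⇑Q w w = 0 := by rw [polar_self_eq, hw, mul_zero]
  have hcomb : ∀ p q : F, Q (p • u + q • w) = 0 := by
    intro p q
    rw [QuadraticMap.map_add (⇑Q), QuadraticMap.map_smul, QuadraticMap.map_smul, hu, hw,
      QuadraticMap.polar_smul_left, QuadraticMap.polar_smul_right, huw]
    simp
  have hα' : QuadraticMap.polar ⇑Q (ratEmb F₀ P a) u = α := by rw [QuadraticMap.polar_comm, hα]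
  have hβ' : QuadraticMap.polar ⇑Q (ratEmb F₀ P b) u = β := by rw [QuadraticMap.polar_comm, hβ]
  have hγ' : QuadraticMap.polar ⇑Q (ratEmb F₀ P a) w = γ := by rw [QuadraticMap.polar_comm, hγ]
  have hδ' : QuadraticMap.polar ⇑Q (ratEmb F₀ P b) w = δ := by rw [QuadraticMap.polar_comm, hδ]
  have H : HypQuad Q (ratEmb F₀ P a) (ratEmb F₀ P b) u' w' := by
    refine ⟨D.sing hab.1, D.sing hab.2.1, ?_, ?_, D.pz hab.2.2, ?_, ?_, ?_, ?_, ?_⟩
    · rw [hu']; exact hcomb _ _
    · rw [hw']; exact hcomb _ _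
    · rw [hu', hw']
      simp only [QuadraticMap.polar_add_left, QuadraticMap.polar_add_right,
        QuadraticMap.polar_smul_left, QuadraticMap.polar_smul_right, huw, hwu, huu, hww]
      simp
    · rw [hu', QuadraticMap.polar_add_right, QuadraticMap.polar_smul_right,
        QuadraticMap.polar_smul_right, hα', hγ']
      simp only [smul_eq_mul]
      linear_combination hκi - κi * hκdef
    · rw [hw', QuadraticMap.polar_add_right, QuadraticMap.polar_smul_right,
        QuadraticMap.polar_smul_right, hα', hγ']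
      simp only [smul_eq_mul]
      ring
    · rw [hu', QuadraticMap.polar_add_right, QuadraticMap.polar_smul_right,
        QuadraticMap.polar_smul_right, hβ', hδ']
      simp only [smul_eq_mul]
      ring
    · rw [hw', QuadraticMap.polar_add_right, QuadraticMap.polar_smul_right,
        QuadraticMap.polar_smul_right, hβ', hδ']
      simp only [smul_eq_mul]
      linear_combination hκi - κi * hκdef
  have hmat : eichMat Q u' (κ • w') = eichMat Q u w := by
    have h1 : ∀ c : F, c = 1 → eichMat Q u (c • w) = eichMat Q u w := by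
      intro c hc
      rw [hc, one_smul]
    rw [hu', hw', smul_add, smul_smul, smul_smul, eichMat_lin_comb Q hu hw huw]
    apply h1
    linear_combination (κ * κi + 1) * hκi - κ * κi ^ 2 * hκdef
  obtain ⟨G₁, hG₁⟩ : ∃ G₁ : Subgroup (Matrix.SpecialLinearGroup (Fin 2) F),
      G₁ = M.comap (H.rho D.hQ) := ⟨_, rfl⟩
  have hm1 : ((-1 : ↥F₀) : F) = -1 := by simp
  have h1 : uSL 1 ∈ G₁ := by
    rw [hG₁, Subgroup.mem_comap]
    have hco := D.Co_rat hab (-1)
    unfold Co at hco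
    apply hco
    rw [H.rho_coe, H.rho_uSL, hm1]
  have hl : lSL κ ∈ G₁ := by
    rw [hG₁, Subgroup.mem_comap]
    apply hE
    rw [H.rho_coe, H.rho_lSL, hmat]
  have key := uSL_mem_of_gen h2 G₁ h1 κ hκ0 hl (hexc κ hκ)
  rw [hG₁, Subgroup.mem_comap] at key
  have hco : Co Q F₀ P M a b (-κ) := by
    unfold Co
    intro g hg
    have e : g = H.rho D.hQ (uSL κ) := by
      apply isom_ext
      rw [hg, H.rho_coe, H.rho_uSL]
    rw [e]
    exact key
  have hli : LinearIndependent ↥F₀ ![a, b] := by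
    rw [LinearIndependent.pair_iff]
    intro s t hst
    have h' := congrArg (ratEmb F₀ P) hst
    rw [map_add, ratEmb_smul, ratEmb_smul, map_zero] at h'
    have e1 := congrArg (QuadraticMap.polar ⇑Q u) h'
    rw [QuadraticMap.polar_add_right, QuadraticMap.polar_smul_right,
      QuadraticMap.polar_smul_right, ← hα, ← hβ, QuadraticMap.polar_zero_right] at e1
    have e2 := congrArg (QuadraticMap.polar ⇑Q w) h'
    rw [QuadraticMap.polar_add_right, QuadraticMap.polar_smul_right,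
      QuadraticMap.polar_smul_right, ← hγ, ← hδ, QuadraticMap.polar_zero_right] at e2
    simp only [smul_eq_mul] at e1 e2
    have hs : (s : F) * κ = 0 := by
      linear_combination δ * e1 - β * e2 + (s : F) * hκdef
    have ht : (t : F) * κ = 0 := by
      linear_combination α * e2 - γ * e1 + (t : F) * hκdef
    constructor
    · apply Subtype.ext
      exact (mul_eq_zero.mp hs).resolve_right hκ0
    · apply Subtype.ext
      exact (mul_eq_zero.mp ht).resolve_right hκ0
  refine ⟨a, b, -κ, hab, hli, ?_, hco⟩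
  intro h
  apply hκ
  have := F₀.neg_mem h
  rwa [neg_neg] at this

/-- If `r` is odd, a square root of `-1` in `F` lies in `F₀`. -/
theorem sqrt_neg_one_mem [Fintype F] (F₀ : Subfield F) (r : ℕ) (hr : Odd r)
    (hcard : Fintype.card F = Nat.card F₀ ^ r) {κ : F} (hκ : κ ^ 2 = -1) : κ ∈ F₀ := by
  classical
  haveI : Fintype ↥F₀ := Fintype.ofFinite _
  have hsqF : IsSquare (-1 : F) := ⟨κ, by rw [← hκ, pow_two]⟩
  rw [FiniteField.isSquare_neg_one_iff, hcard, Nat.card_eq_fintype_card] at hsqF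
  have h0 : Fintype.card ↥F₀ % 4 ≠ 3 := by
    intro h
    apply hsqF
    rw [Nat.pow_mod, h]
    obtain ⟨k, rfl⟩ := hr
    rw [pow_succ, pow_mul, Nat.mul_mod, Nat.pow_mod]
    norm_num
  have hsq0 : IsSquare (-1 : ↥F₀) := FiniteField.isSquare_neg_one_iff.mpr h0
  obtain ⟨i₀, hi₀⟩ := hsq0
  have hi : (i₀ : F) * (i₀ : F) = -1 := by
    have := congrArg (Subtype.val) hi₀
    rw [Subfield.coe_mul] at this
    rw [← this]
    simp
  have hprod : (κ - (i₀ : F)) * (κ + (i₀ : F)) = 0 := by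
    linear_combination hκ - hi
  rcases mul_eq_zero.mp hprod with h | h
  · have : κ = (i₀ : F) := by linear_combination h
    rw [this]
    exact i₀.2
  · have : κ = -(i₀ : F) := by linear_combination h
    rw [this]
    exact F₀.neg_mem i₀.2

/-- The overgroup dichotomy for the subfield subgroups of orthogonal groups, odd
characteristic. -/
theorem subfield_core [Fintype F] (Q : QuadraticForm F (ι → F))
    (hQ : (QuadraticMap.polarBilin Q).Nondegenerate) (h2 : (2 : F) ≠ 0)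
    (hn : 13 ≤ Fintype.card ι) (F₀ : Subfield F) (P : Matrix.GeneralLinearGroup ι F)
    (hP : Cfsg.Geo.IsQuadFormRationalStructure (⇑Q) F₀ P) (r : ℕ) (hr : r.Prime)
    (hcard : Fintype.card F = Nat.card F₀ ^ r)
    (M : Subgroup ↥(Cfsg.isometryGroup F ⇑Q))
    (hM : ∀ g ∈ commutator ↥(Cfsg.isometryGroup F ⇑Q),
      (g : Matrix.GeneralLinearGroup ι F) ∈ Cfsg.Geo.subfieldSubgroup F₀ P → g ∈ M) :
    (∀ g ∈ M, (g : Matrix.GeneralLinearGroup ι F) ∈ Cfsg.Geo.subfieldSubgroup F₀ P) ∨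
      commutator ↥(Cfsg.isometryGroup F ⇑Q) ≤ M := by
  classical
  have D : RatSetup Q F₀ P M := ⟨hQ, hn, hP, hM⟩
  by_cases hall : ∀ g ∈ M, (g : Matrix.GeneralLinearGroup ι F) ∈ Cfsg.Geo.subfieldSubgroup F₀ P
  · exact Or.inl hall
  · right
    push Not at hall
    obtain ⟨g, hgM, hgK⟩ := hall
    have hex : ∃ a b, D.TS a b ∧ ∃ x, ∀ z, ratEmb F₀ P z ≠
        nMap Q (((g : Matrix.GeneralLinearGroup ι F) : Matrix ι ι F) *ᵥ ratEmb F₀ P a)
          (((g : Matrix.GeneralLinearGroup ι F) : Matrix ι ι F) *ᵥ ratEmb F₀ P b)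
          (ratEmb F₀ P x) := by
      by_contra hno
      apply hgK
      apply D.mem_subfield_of_nMap g
      intro a b hab x
      by_contra hz
      apply hno
      exact ⟨a, b, hab, x, fun z hz' => hz ⟨z, hz'⟩⟩
    obtain ⟨a, b, hab, x, hx⟩ := hex
    have hu : Q (((g : Matrix.GeneralLinearGroup ι F) : Matrix ι ι F) *ᵥ ratEmb F₀ P a) = 0 := by
      rw [isom_preserves g]
      exact D.sing hab.1
    have hw : Q (((g : Matrix.GeneralLinearGroup ι F) : Matrix ι ι F) *ᵥ ratEmb F₀ P b) = 0 := by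
      rw [isom_preserves g]
      exact D.sing hab.2.1
    have huw : QuadraticMap.polar ⇑Q
        (((g : Matrix.GeneralLinearGroup ι F) : Matrix ι ι F) *ᵥ ratEmb F₀ P a)
        (((g : Matrix.GeneralLinearGroup ι F) : Matrix ι ι F) *ᵥ ratEmb F₀ P b) = 0 := by
      rw [polar_mulVec Q _ (isom_preserves g)]
      exact D.pz hab.2.2
    have hE : EIn Q M (((g : Matrix.GeneralLinearGroup ι F) : Matrix ι ι F) *ᵥ ratEmb F₀ P a)
        (((g : Matrix.GeneralLinearGroup ι F) : Matrix ι ι F) *ᵥ ratEmb F₀ P b) :=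
      EIn_conj Q M (ratE Q hQ (by omega) F₀ P hP M hM hab.1 hab.2.2) g hgM
    have hirr : D.HasIrr := by
      rcases hr.eq_two_or_odd' with h | h
      · exact D.irr_of_two (by rw [finrank_of_card F₀ r hcard, h]) hu hw huw hE hx
      · apply D.irr_of_dickson h2 _ hu hw huw hE hx
        intro κ hκ hcon
        exact hκ (sqrt_neg_one_mem F₀ r h hcard hcon.2)
    obtain ⟨a', b', c, hab', hli, hc0, hc⟩ := hirr
    exact D.omega_le_of_irr r hr hcard hab' hli hc0 hc

/-- The subfield subgroup does not contain `Ω`. -/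
theorem subfield_proper [Fintype F] (Q : QuadraticForm F (ι → F))
    (hQ : (QuadraticMap.polarBilin Q).Nondegenerate)
    (hn : 5 ≤ Fintype.card ι) (F₀ : Subfield F) (P : Matrix.GeneralLinearGroup ι F)
    (hP : Cfsg.Geo.IsQuadFormRationalStructure (⇑Q) F₀ P) {c : F} (hc : c ∉ F₀) :
    ∃ g ∈ commutator ↥(Cfsg.isometryGroup F ⇑Q),
      (g : Matrix.GeneralLinearGroup ι F) ∉ Cfsg.Geo.subfieldSubgroup F₀ P := by
  classical
  haveI : Fintype ↥F₀ := Fintype.ofFinite _
  have hQ₀ := ratForm_nondegenerate Q hQ F₀ P hP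
  obtain ⟨e, f, -, -, hQe, hQf, hef⟩ := exists_hyp_in_orth (ratForm Q F₀ P hP) hQ₀ ⊥ (by
    rw [finrank_bot]; omega)
  have he0 : e ≠ 0 := by
    rintro rfl
    rw [QuadraticMap.polar_zero_left] at hef
    exact zero_ne_one hef
  obtain ⟨b, hQb, hbv, hbn⟩ := exists_sing_orth_notMem (ratForm Q F₀ P hP) hQ₀ ![e] (by omega)
  have heb : QuadraticMap.polar ⇑(ratForm Q F₀ P hP) e b = 0 := by simpa using hbv 0
  have hli : LinearIndependent ↥F₀ ![b, e] := li_cons (li_one he0) b hbn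
  have hb0 : b ≠ 0 := by
    rintro rfl
    exact hbn (Submodule.zero_mem _)
  obtain ⟨y, hy⟩ := exists_polar_eq (ratForm Q F₀ P hP) hQ₀ ![b, e] hli ![0, 1]
  have hby : QuadraticMap.polar ⇑(ratForm Q F₀ P hP) b y = 0 := by simpa using hy 0
  have hey : QuadraticMap.polar ⇑(ratForm Q F₀ P hP) e y = 1 := by simpa using hy 1
  have hu : Q (ratEmb F₀ P e) = 0 := rat_sing Q F₀ P hP hQe
  have hQb' : Q (ratEmb F₀ P b) = 0 := rat_sing Q F₀ P hP hQb
  have hub : QuadraticMap.polar ⇑Q (ratEmb F₀ P e) (ratEmb F₀ P b) = 0 :=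
    rat_polar_zero Q F₀ P hP heb
  have hbb : QuadraticMap.polar ⇑Q (ratEmb F₀ P b) (ratEmb F₀ P b) = 0 := by
    rw [polar_self_eq, hQb', mul_zero]
  have huw : QuadraticMap.polar ⇑Q (ratEmb F₀ P e) (c • ratEmb F₀ P b) = 0 := by
    rw [QuadraticMap.polar_smul_right, hub, smul_zero]
  refine ⟨eichElt Q hQ _ _ hu huw, eich_mem_omega Q hQ hn hu huw _ rfl, ?_⟩
  intro hK
  obtain ⟨l, hl0, hl⟩ := exists_scalar_of_mem_subfield F₀ P _ hK
  rw [eichElt_coe] at hl
  obtain ⟨y1, hy1⟩ := hl b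
  rw [eichMat_mulVec, hub, QuadraticMap.polar_smul_left, hbb, QuadraticMap.map_smul, hQb'] at hy1
  simp only [smul_zero, zero_smul, add_zero, sub_zero, mul_zero] at hy1
  have hlinv : l⁻¹ ∈ F₀ := by
    apply coeff_mem_of_smul_rat Q hQ F₀ P hP hb0 (z := y1)
    rw [hy1, smul_smul, inv_mul_cancel₀ hl0, one_smul]
  have hlmem : l ∈ F₀ := by
    have := F₀.inv_mem hlinv
    rwa [inv_inv] at this
  obtain ⟨y2, hy2⟩ := hl y
  rw [eichMat_mulVec, rat_polar_one Q F₀ P hP hey, QuadraticMap.polar_smul_left,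
    rat_polar_zero Q F₀ P hP hby, QuadraticMap.map_smul, hQb'] at hy2
  simp only [smul_zero, zero_smul, add_zero, sub_zero, mul_zero, one_smul] at hy2
  apply hc
  apply coeff_mem_of_smul_rat Q hQ F₀ P hP hb0 (z := (⟨l, hlmem⟩ : ↥F₀) • y2 - y)
  rw [map_sub, ratEmb_smul, ← hy2]
  simp

/-- **Maximality of subfield subgroups** of `Ω(Q)`, odd characteristic, dimension at least
`13`. -/
theorem subfield_isMaximalIn [Fintype F] (Q : QuadraticForm F (ι → F))
    (hQ : (QuadraticMap.polarBilin Q).Nondegenerate) (h2 : (2 : F) ≠ 0)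
    (hn : 13 ≤ Fintype.card ι) (F₀ : Subfield F) (P : Matrix.GeneralLinearGroup ι F)
    (hP : Cfsg.Geo.IsQuadFormRationalStructure (⇑Q) F₀ P) (r : ℕ) (hr : r.Prime)
    (hcard : Fintype.card F = Nat.card F₀ ^ r) :
    Cfsg.Geo.IsMaximalIn (Cfsg.Geo.omegaGL ⇑Q)
      (Cfsg.Geo.subfieldSubgroup F₀ P ⊓ Cfsg.Geo.omegaGL ⇑Q) := by
  classical
  apply isMaximalIn_of_core (⇑Q) (Cfsg.Geo.subfieldSubgroup F₀ P)
  · obtain ⟨c, hc⟩ : ∃ c : F, c ∉ F₀ := by
      by_contra hno
      push Not at hno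
      have htop : F₀ = ⊤ := by
        rw [eq_top_iff]
        intro x _
        exact hno x
      have hcc : Nat.card ↥F₀ = Fintype.card F := by
        rw [htop, ← Nat.card_eq_fintype_card]
        exact Nat.card_congr (Subfield.topEquiv (K := F)).toEquiv
      rw [hcc] at hcard
      have h1 : 1 < Fintype.card F := Fintype.one_lt_card
      have h3 : Fintype.card F ^ 1 < Fintype.card F ^ r :=
        Nat.pow_lt_pow_right h1 hr.one_lt
      rw [pow_one] at h3
      omega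
    exact subfield_proper Q hQ (by omega) F₀ P hP hc
  · intro M hM
    exact subfield_core Q hQ h2 hn F₀ P hP r hr hcard M hM

end subfH

end Cfsg.Agent.Lib.Helper14
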