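import Mathlib
import Cfsg.Agent.Lib.Helper14.SubfH

/-!
# Subfield subgroups of orthogonal groups in characteristic two: fusion of involutions
-/

set_option autoImplicit false

namespace Cfsg.Agent.Lib.Helper14

open Matrix Module Cfsg.Agent.Lib.Helper5.SL2 Cfsg.Agent.Lib.Helper89

section dihedral

/-- Two involutions whose product has odd order are conjugate by a power of the product. -/
theorem invol_conj {G : Type*} [Group G] (t t' : G) (ht : t * t = 1) (ht' : t' * t' = 1)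
    (k : ℕ) (hk : (t * t') ^ (2 * k + 1) = 1) : (t * t') ^ k * t = t' * (t * t') ^ k := by
  have ht_inv : t⁻¹ = t := inv_eq_of_mul_eq_one_right ht
  have ht'_inv : t'⁻¹ = t' := inv_eq_of_mul_eq_one_right ht'
  obtain ⟨s, hs⟩ : ∃ s, s = t * t' := ⟨_, rfl⟩
  rw [← hs] at hk ⊢
  have hinv : t * s * t⁻¹ = s⁻¹ := by
    rw [hs]
    calc t * (t * t') * t⁻¹ = (t * t) * t' * t⁻¹ := by group
      _ = t' * t⁻¹ := by rw [ht, one_mul]
      _ = t'⁻¹ * t⁻¹ := by rw [ht'_inv]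
      _ = (t * t')⁻¹ := by rw [_root_.mul_inv_rev]
  have e1 : t * s ^ k * t⁻¹ = (s⁻¹) ^ k := by rw [← conj_pow, hinv]
  have e2 : s ^ (k + 1) = (s⁻¹) ^ k := by
    rw [inv_pow, eq_inv_iff_mul_eq_one, ← pow_add]
    have : k + 1 + k = 2 * k + 1 := by ring
    rw [this]
    exact hk
  have e3 : t' * s ^ k = t * s ^ (k + 1) := by
    rw [pow_succ', ← mul_assoc, hs, ← mul_assoc, ht, one_mul]
  rw [e3, e2, ← e1, ← mul_assoc, ← mul_assoc, ht, one_mul, ht_inv]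

variable {F : Type*} [Field F]

/-- In characteristic two, an involution of `SL₂` commuting with `[1 1; 0 1] [1 0; κ 1]` is
trivial. -/
theorem sl2_invol_comm (h2 : (2 : F) = 0) (κ : F) (hκ : κ ≠ 0)
    (z : Matrix.SpecialLinearGroup (Fin 2) F)
    (hcomm : z * (uSL 1 * lSL κ) = uSL 1 * lSL κ * z) (hz : z * z = 1) : z = 1 := by
  have c00 := congrArg (fun g : Matrix.SpecialLinearGroup (Fin 2) F => g.1 0 0) hcomm
  have c01 := congrArg (fun g : Matrix.SpecialLinearGroup (Fin 2) F => g.1 0 1) hcomm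
  have z00 := congrArg (fun g : Matrix.SpecialLinearGroup (Fin 2) F => g.1 0 0) hz
  have z01 := congrArg (fun g : Matrix.SpecialLinearGroup (Fin 2) F => g.1 0 1) hz
  simp only [sl_mul_00, sl_mul_01, sl_mul_10, sl_mul_11, uSL_00, uSL_01, uSL_10, uSL_11, lSL_00,
    lSL_01, lSL_10, lSL_11, sl_one_00, sl_one_01] at c00 c01 z00 z01
  -- c00 : z00 * (1 + κ) + z01 * κ = (1 + κ) * z00 + z10
  -- c01 : z00 + z01 = (1 + κ) * z01 + z11
  have hq : z.1 0 1 = 0 := by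
    have h1 : κ * (z.1 0 1) ^ 2 = 0 := by
      linear_combination z01 - z.1 0 1 * c01 - z.1 0 1 * z.1 1 1 * h2
    rcases mul_eq_zero.mp h1 with h | h
    · exact absurd h hκ
    · exact pow_eq_zero_iff (two_ne_zero) |>.mp h
  have hr : z.1 1 0 = 0 := by
    rw [hq] at c00
    linear_combination -c00
  have hpp : z.1 0 0 = z.1 1 1 := by
    rw [hq] at c01
    linear_combination c01
  have hp : z.1 0 0 = 1 := by
    have h1 : (z.1 0 0 - 1) ^ 2 = 0 := by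
      rw [hq] at z00
      linear_combination z00 + (1 - z.1 0 0) * h2
    have := pow_eq_zero_iff (two_ne_zero) |>.mp h1
    linear_combination this
  apply sl_ext
  · rw [hp, sl_one_00]
  · rw [hq, sl_one_01]
  · rw [hr, sl_one_10]
  · rw [← hpp, hp, sl_one_11]

/-- In characteristic two, a subgroup of `SL₂(F)` containing `[1 1; 0 1]` and `[1 0; κ 1]`
contains an element exchanging their fixed points, with lower left entry a square root of
`κ`. -/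
theorem sl2_char2_swap [Fintype F] (h2 : (2 : F) = 0)
    (G₁ : Subgroup (Matrix.SpecialLinearGroup (Fin 2) F)) (h1 : uSL 1 ∈ G₁) (κ : F)
    (hκ : κ ≠ 0) (hl : lSL κ ∈ G₁) :
    ∃ ξ ∈ G₁, (ξ : Matrix.SpecialLinearGroup (Fin 2) F).1 0 0 = 0 ∧
      (ξ : Matrix.SpecialLinearGroup (Fin 2) F).1 1 0 ^ 2 = κ := by
  classical
  obtain ⟨s, hs⟩ : ∃ s, s = uSL (1 : F) * lSL κ := ⟨_, rfl⟩
  have ht : uSL (1 : F) * uSL 1 = 1 := by
    rw [← uSL_add, ← uSL_zero]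
    congr 1
    linear_combination h2
  have ho : 0 < orderOf s := orderOf_pos s
  have hodd : ∃ k, orderOf s = 2 * k + 1 := by
    rcases Nat.even_or_odd' (orderOf s) with ⟨j, hj | hj⟩
    · exfalso
      have hzz : s ^ j * s ^ j = 1 := by
        rw [← pow_add, ← two_mul, ← hj, pow_orderOf_eq_one]
      have hc : s ^ j * s = s * s ^ j := (Commute.pow_self s j).eq
      have := sl2_invol_comm h2 κ hκ (s ^ j) (by rw [← hs]; exact hc) hzz
      have hd := orderOf_dvd_of_pow_eq_one this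
      rw [hj] at hd
      have := Nat.le_of_dvd (by omega) hd
      omega
    · exact ⟨j, hj⟩
  obtain ⟨k, hk⟩ := hodd
  have hpow : (uSL (1 : F) * lSL κ) ^ (2 * k + 1) = 1 := by
    rw [← hs, ← hk, pow_orderOf_eq_one]
  have ht' : lSL κ * lSL κ = 1 := by
    apply sl_ext <;> simp only [sl_mul_00, sl_mul_01, sl_mul_10, sl_mul_11, lSL_00, lSL_01,
      lSL_10, lSL_11, sl_one_00, sl_one_01, sl_one_10, sl_one_11] <;>
      first | ring1 | linear_combination κ * h2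
  have hconj := invol_conj (uSL (1 : F)) (lSL κ) ht ht' k hpow
  refine ⟨(uSL (1 : F) * lSL κ) ^ k, G₁.pow_mem (G₁.mul_mem h1 hl) k, ?_⟩
  obtain ⟨ξ, hξ⟩ : ∃ ξ, ξ = (uSL (1 : F) * lSL κ) ^ k := ⟨_, rfl⟩
  rw [← hξ] at hconj ⊢
  have c01 := congrArg (fun g : Matrix.SpecialLinearGroup (Fin 2) F => g.1 0 1) hconj
  have c11 := congrArg (fun g : Matrix.SpecialLinearGroup (Fin 2) F => g.1 1 1) hconj
  simp only [sl_mul_00, sl_mul_01, sl_mul_10, sl_mul_11, uSL_00, uSL_01, uSL_10, uSL_11, lSL_00,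
    lSL_01, lSL_10, lSL_11] at c01 c11
  have hdet := sl_det ξ
  have h00 : ξ.1 0 0 = 0 := by linear_combination c01
  refine ⟨h00, ?_⟩
  rw [h00] at hdet
  linear_combination ξ.1 1 0 * c11 - κ * hdet - κ * h2

end dihedral

section char2

variable {ι : Type} [Fintype ι] [DecidableEq ι] {F : Type*} [Field F]

variable {Q : QuadraticForm F (ι → F)} {F₀ : Subfield F} {P : Matrix.GeneralLinearGroup ι F}
  {M : Subgroup ↥(Cfsg.isometryGroup F ⇑Q)}

theorem RatSetup.pc (D : RatSetup Q F₀ P M) (a b : ι → ↥F₀) :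
    QuadraticMap.polar ⇑Q (ratEmb F₀ P a) (ratEmb F₀ P b) =
      ((QuadraticMap.polar ⇑D.Q₀ a b : ↥F₀) : F) :=
  (ratForm_polar_coe Q F₀ P D.hP a b).symm

theorem RatSetup.qc (D : RatSetup Q F₀ P M) (a : ι → ↥F₀) :
    Q (ratEmb F₀ P a) = ((D.Q₀ a : ↥F₀) : F) := rfl

theorem RatSetup.polar_sub_dual (D : RatSetup Q F₀ P M) {c b : ι → ↥F₀}
    (hcb : QuadraticMap.polar ⇑D.Q₀ c b = 1) (z : ι → F) (y : ι → ↥F₀) :
    QuadraticMap.polar ⇑Q (z - QuadraticMap.polar ⇑Q (ratEmb F₀ P b) z • ratEmb F₀ P c)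
        (ratEmb F₀ P y) =
      QuadraticMap.polar ⇑Q (ratEmb F₀ P (y - QuadraticMap.polar ⇑D.Q₀ c y • b)) z := by
  rw [QuadraticMap.polar_comm, QuadraticMap.polar_sub_right, QuadraticMap.polar_smul_right,
    QuadraticMap.polar_comm (⇑Q) (ratEmb F₀ P y) (ratEmb F₀ P c), D.pc c y,
    map_sub, ratEmb_smul, QuadraticMap.polar_sub_left, QuadraticMap.polar_smul_left]
  simp only [smul_eq_mul]
  ring

theorem RatSetup.polar_dual_orth (D : RatSetup Q F₀ P M) {c b : ι → ↥F₀}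
    (hcb : QuadraticMap.polar ⇑D.Q₀ c b = 1) (y : ι → ↥F₀) :
    QuadraticMap.polar ⇑D.Q₀ c (y - QuadraticMap.polar ⇑D.Q₀ c y • b) = 0 := by
  rw [QuadraticMap.polar_sub_right, QuadraticMap.polar_smul_right, hcb]
  simp

/-- A vector whose polar products with the rational vectors orthogonal to `c` are rational is
rational modulo `c`. -/
theorem RatSetup.mem_rat_add_of_polar (D : RatSetup Q F₀ P M) {c : ι → ↥F₀} (hc0 : c ≠ 0)
    {z : ι → F}
    (h : ∀ y, QuadraticMap.polar ⇑D.Q₀ c y = 0 →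
      QuadraticMap.polar ⇑Q (ratEmb F₀ P y) z ∈ F₀) :
    ∃ (v₀ : ι → ↥F₀) (t : F), z = ratEmb F₀ P v₀ + t • ratEmb F₀ P c := by
  obtain ⟨b, hb⟩ := exists_polar_eq D.Q₀ D.hQ₀ ![c] (li_one hc0) ![1]
  have hcb : QuadraticMap.polar ⇑D.Q₀ c b = 1 := by simpa using hb 0
  obtain ⟨v₀, hv₀⟩ := mem_range_of_polar_mem Q D.hQ F₀ P D.hP
    (v := z - QuadraticMap.polar ⇑Q (ratEmb F₀ P b) z • ratEmb F₀ P c) (by
      intro y
      rw [D.polar_sub_dual hcb]
      exact h _ (D.polar_dual_orth hcb y))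
  exact ⟨v₀, QuadraticMap.polar ⇑Q (ratEmb F₀ P b) z, by rw [hv₀]; abel⟩

/-- A vector orthogonal to the rational vectors orthogonal to `c` is a multiple of `c`. -/
theorem RatSetup.eq_smul_of_polar (D : RatSetup Q F₀ P M) {c : ι → ↥F₀} (hc0 : c ≠ 0)
    {z : ι → F}
    (h : ∀ y, QuadraticMap.polar ⇑D.Q₀ c y = 0 →
      QuadraticMap.polar ⇑Q (ratEmb F₀ P y) z = 0) :
    ∃ t : F, z = t • ratEmb F₀ P c := by
  obtain ⟨b, hb⟩ := exists_polar_eq D.Q₀ D.hQ₀ ![c] (li_one hc0) ![1]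
  have hcb : QuadraticMap.polar ⇑D.Q₀ c b = 1 := by simpa using hb 0
  have h0 := eq_zero_of_polar_rat Q D.hQ F₀ P
    (v := z - QuadraticMap.polar ⇑Q (ratEmb F₀ P b) z • ratEmb F₀ P c) (by
      intro y
      rw [D.polar_sub_dual hcb]
      exact h _ (D.polar_dual_orth hcb y))
  exact ⟨QuadraticMap.polar ⇑Q (ratEmb F₀ P b) z, sub_eq_zero.mp h0⟩

/-- Without irrational coefficients, an element of `M` fixing a rational singular point has an
eigenvalue with rational square there. -/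
theorem RatSetup.torus_sq_mem [Fintype F] (D : RatSetup Q F₀ P M) (hno : ¬ D.HasIrr)
    {c : ι → ↥F₀} (hc : D.Q₀ c = 0) (hc0 : c ≠ 0) {h : ↥(Cfsg.isometryGroup F ⇑Q)} (hh : h ∈ M)
    {μ : F}
    (hμ : ((h : Matrix.GeneralLinearGroup ι F) : Matrix ι ι F) *ᵥ ratEmb F₀ P c =
      μ • ratEmb F₀ P c) : μ ^ 2 ∈ F₀ := by
  classical
  haveI : Fintype ↥F₀ := Fintype.ofFinite _
  have hn := D.hn
  have hfr : finrank ↥F₀ ↥(Submodule.span ↥F₀ {c}) ≤ 1 :=
    Cfsg.Agent.Lib.Helper44.finrank_span_singleton_le_one c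
  obtain ⟨e, f, heS, hfS, hQe, hQf, hef⟩ :=
    exists_hyp_in_orth D.Q₀ D.hQ₀ (Submodule.span ↥F₀ {c}) (by omega)
  have hce := D.orth_singleton heS
  have hcf := D.orth_singleton hfS
  obtain ⟨y, hy⟩ : ∃ y, y = e + f := ⟨_, rfl⟩
  have hQy : D.Q₀ y = 1 := by
    rw [hy, QuadraticMap.map_add (⇑D.Q₀), hQe, hQf, hef]
    simp
  have hcy : QuadraticMap.polar ⇑D.Q₀ c y = 0 := by
    rw [hy, QuadraticMap.polar_add_right, hce, hcf, add_zero]
  have hE := ratE Q D.hQ (by omega) F₀ P D.hP M D.hM hc hcy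
  have hE2 := EIn_conj Q M hE h hh
  rw [hμ] at hE2
  have hE3 := (EIn_smul_left Q M _ _ μ).mp hE2
  have hpz : QuadraticMap.polar ⇑Q (ratEmb F₀ P c)
      (μ • (((h : Matrix.GeneralLinearGroup ι F) : Matrix ι ι F) *ᵥ ratEmb F₀ P y)) = 0 := by
    have h1 := polar_mulVec Q _ (isom_preserves h) (ratEmb F₀ P c) (ratEmb F₀ P y)
    rw [hμ, QuadraticMap.polar_smul_left, D.pz hcy] at h1
    rw [QuadraticMap.polar_smul_right]
    exact h1
  by_contra hcon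
  apply hno
  apply D.irr_of_centre hc hc0 hpz hE3
  intro v t hvt
  apply hcon
  have hQy' : Q (ratEmb F₀ P y) = 1 := by
    rw [D.qc, hQy]
    rfl
  have hq1 : Q (μ • (((h : Matrix.GeneralLinearGroup ι F) : Matrix ι ι F) *ᵥ ratEmb F₀ P y)) =
      μ * μ := by
    rw [QuadraticMap.map_smul, isom_preserves h, hQy', smul_eq_mul, mul_one]
  have hpv : QuadraticMap.polar ⇑Q (ratEmb F₀ P v) (ratEmb F₀ P c) = 0 := by
    have e1 : ratEmb F₀ P v =
        μ • (((h : Matrix.GeneralLinearGroup ι F) : Matrix ι ι F) *ᵥ ratEmb F₀ P y) -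
          t • ratEmb F₀ P c := by
      rw [hvt]
      abel
    rw [e1, QuadraticMap.polar_sub_left, QuadraticMap.polar_comm, hpz,
      QuadraticMap.polar_smul_left, polar_self_eq, D.sing hc]
    simp
  have hq2 : Q (ratEmb F₀ P v + t • ratEmb F₀ P c) = Q (ratEmb F₀ P v) := by
    rw [quad_add_smul', D.sing hc, hpv]
    ring
  have e : μ ^ 2 = ((D.Q₀ v : ↥F₀) : F) := by
    rw [← D.qc, ← hq2, ← hvt, hq1]
    ring
  rw [e]
  exact (D.Q₀ v).2

/-- Characteristic two: the root group of a rational singular point and a root element of `M`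
centred at a collinear point generate an element of `M` moving the rational point to the other
centre, with controlled scalar. -/
theorem RatSetup.exists_move [Fintype F] (D : RatSetup Q F₀ P M) (h2 : (2 : F) = 0)
    {c y : ι → ↥F₀} (hc : D.Q₀ c = 0) (hy : D.Q₀ y = 0)
    (hcy : QuadraticMap.polar ⇑D.Q₀ c y = 0)
    {v w : ι → F} (hv : Q v = 0) (hw : Q w = 0) (hvw : QuadraticMap.polar ⇑Q v w = 0)
    (hcv : QuadraticMap.polar ⇑Q (ratEmb F₀ P c) v = 0)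
    (hcw : QuadraticMap.polar ⇑Q (ratEmb F₀ P c) w ≠ 0)
    (hyv : QuadraticMap.polar ⇑Q (ratEmb F₀ P y) v ≠ 0) (hE : EIn Q M v w) :
    ∃ x ∈ M, ∃ ν : F, ((x : Matrix.GeneralLinearGroup ι F) : Matrix ι ι F) *ᵥ ratEmb F₀ P c =
      ν • v ∧ ν ^ 2 * QuadraticMap.polar ⇑Q (ratEmb F₀ P y) v =
        QuadraticMap.polar ⇑Q (ratEmb F₀ P c) w := by
  classical
  obtain ⟨lam, hlam⟩ : ∃ lam, lam = QuadraticMap.polar ⇑Q (ratEmb F₀ P c) w := ⟨_, rfl⟩
  obtain ⟨a, ha⟩ : ∃ a, a = QuadraticMap.polar ⇑Q (ratEmb F₀ P y) v := ⟨_, rfl⟩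
  obtain ⟨e, he⟩ : ∃ e, e = QuadraticMap.polar ⇑Q (ratEmb F₀ P y) w := ⟨_, rfl⟩
  rw [← hlam] at hcw ⊢
  rw [← ha] at hyv ⊢
  obtain ⟨li, hli⟩ : ∃ li, lam * li = 1 := ⟨lam⁻¹, mul_inv_cancel₀ hcw⟩
  obtain ⟨ai, hai⟩ : ∃ ai, a * ai = 1 := ⟨a⁻¹, mul_inv_cancel₀ hyv⟩
  obtain ⟨A, hA⟩ : ∃ A, A = ratEmb F₀ P c := ⟨_, rfl⟩
  obtain ⟨Y, hY⟩ : ∃ Y, Y = ratEmb F₀ P y := ⟨_, rfl⟩
  obtain ⟨B, hB⟩ : ∃ B, B = Y - (e * li) • A := ⟨_, rfl⟩
  obtain ⟨U, hU⟩ : ∃ U, U = li • w := ⟨_, rfl⟩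
  obtain ⟨W, hW⟩ : ∃ W, W = ai • v := ⟨_, rfl⟩
  have hQA : Q A = 0 := by rw [hA]; exact D.sing hc
  have hQY : Q Y = 0 := by rw [hY]; exact D.sing hy
  have hAY : QuadraticMap.polar ⇑Q A Y = 0 := by rw [hA, hY]; exact D.pz hcy
  have hAA : QuadraticMap.polar ⇑Q A A = 0 := by rw [polar_self_eq, hQA, mul_zero]
  have hYA : QuadraticMap.polar ⇑Q Y A = 0 := by rw [QuadraticMap.polar_comm]; exact hAY
  have hAv : QuadraticMap.polar ⇑Q A v = 0 := by rw [hA]; exact hcv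
  have hAw : QuadraticMap.polar ⇑Q A w = lam := by rw [hA, hlam]
  have hYv : QuadraticMap.polar ⇑Q Y v = a := by rw [hY, ha]
  have hYw : QuadraticMap.polar ⇑Q Y w = e := by rw [hY, he]
  have hwv : QuadraticMap.polar ⇑Q w v = 0 := by rw [QuadraticMap.polar_comm]; exact hvw
  have H : HypQuad Q A B U W := by
    refine ⟨hQA, ?_, ?_, ?_, ?_, ?_, ?_, ?_, ?_, ?_⟩
    · rw [hB, quad_sub_smul, hQY, hQA, hYA]
      ring
    · rw [hU, QuadraticMap.map_smul, hw, smul_zero]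
    · rw [hW, QuadraticMap.map_smul, hv, smul_zero]
    · rw [hB, QuadraticMap.polar_sub_right, QuadraticMap.polar_smul_right, hAY, hAA]
      simp
    · rw [hU, hW, QuadraticMap.polar_smul_left, QuadraticMap.polar_smul_right, hwv]
      simp
    · rw [hU, QuadraticMap.polar_smul_right, hAw, smul_eq_mul]
      linear_combination hli
    · rw [hW, QuadraticMap.polar_smul_right, hAv, smul_zero]
    · rw [hB, hU, QuadraticMap.polar_sub_left, QuadraticMap.polar_smul_left,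
        QuadraticMap.polar_smul_right, QuadraticMap.polar_smul_right, hYw, hAw]
      simp only [smul_eq_mul]
      linear_combination (-e * li) * hli
    · rw [hB, hW, QuadraticMap.polar_sub_left, QuadraticMap.polar_smul_left,
        QuadraticMap.polar_smul_right, QuadraticMap.polar_smul_right, hYv, hAv]
      simp only [smul_eq_mul, mul_zero, sub_zero]
      linear_combination hai
  obtain ⟨G₁, hG₁⟩ : ∃ G₁ : Subgroup (Matrix.SpecialLinearGroup (Fin 2) F),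
      G₁ = M.comap (H.rho D.hQ) := ⟨_, rfl⟩
  have h1 : uSL 1 ∈ G₁ := by
    rw [hG₁, Subgroup.mem_comap]
    have hr := ratE Q D.hQ (by have := D.hn; omega) F₀ P D.hP M D.hM (a := c) (b := -y) hc
      (by rw [QuadraticMap.polar_neg_right, hcy, neg_zero])
    apply hr
    rw [H.rho_coe, H.rho_uSL, map_neg, ← hA, ← hY, hB]
    have key := eichMat_lin_comb Q hQA hQY hAY 1 0 (e * li) (-1)
    have e1 : (1 : F) • A + (0 : F) • Y = A := by module
    have e2 : (e * li) • A + (-1 : F) • Y = (-1 : F) • (Y - (e * li) • A) := by module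
    have e3 : ((1 : F) * (-1) - 0 * (e * li)) • Y = -Y := by module
    rw [e1, e2, e3] at key
    exact key
  obtain ⟨κ, hκ⟩ : ∃ κ, κ = -(lam * a) := ⟨_, rfl⟩
  have hκ0 : κ ≠ 0 := by
    rw [hκ]
    exact neg_ne_zero.mpr (mul_ne_zero hcw hyv)
  have hl : lSL κ ∈ G₁ := by
    rw [hG₁, Subgroup.mem_comap]
    apply hE
    rw [H.rho_coe, H.rho_lSL, hU, hW]
    have key := eichMat_lin_comb Q hv hw hvw 0 li (κ * ai) 0
    have e1 : (0 : F) • v + li • w = li • w := by module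
    have e2 : (κ * ai) • v + (0 : F) • w = κ • ai • v := by module
    have e3 : ((0 : F) * 0 - li * (κ * ai)) • w = w := by
      have e4 : (0 : F) * 0 - li * (κ * ai) = 1 := by
        rw [hκ]
        linear_combination (a * ai) * hli + hai
      rw [e4, one_smul]
    rw [e1, e2, e3] at key
    exact key
  obtain ⟨ξ, hξG, hξ0, hξ1⟩ := sl2_char2_swap h2 G₁ h1 κ hκ0 hl
  rw [hG₁, Subgroup.mem_comap] at hξG
  refine ⟨H.rho D.hQ ξ, hξG, ξ.1 1 0 * ai, ?_, ?_⟩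
  · rw [H.rho_coe, ← hA, rhoMat_mulVec, H.hua, H.hba, H.hwa, H.haa, hξ0, hW]
    module
  · rw [hκ] at hξ1
    linear_combination (ai ^ 2 * a) * hξ1 - lam * (a * ai + 1) * hai - lam * h2

/-- Characteristic two: the values of a collinear centre on the rational singular vectors
orthogonal to `c` are proportional over `F₀`. -/
theorem RatSetup.ratio_mem [Fintype F] (D : RatSetup Q F₀ P M) (h2 : (2 : F) = 0)
    (hno : ¬ D.HasIrr) {c y₁ y₂ : ι → ↥F₀} (hc : D.Q₀ c = 0) (hc0 : c ≠ 0)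
    (hy₁ : D.Q₀ y₁ = 0) (hcy₁ : QuadraticMap.polar ⇑D.Q₀ c y₁ = 0)
    (hy₂ : D.Q₀ y₂ = 0) (hcy₂ : QuadraticMap.polar ⇑D.Q₀ c y₂ = 0)
    {v w : ι → F} (hv : Q v = 0) (hw : Q w = 0) (hvw : QuadraticMap.polar ⇑Q v w = 0)
    (hcv : QuadraticMap.polar ⇑Q (ratEmb F₀ P c) v = 0)
    (hcw : QuadraticMap.polar ⇑Q (ratEmb F₀ P c) w ≠ 0)
    (hy₁v : QuadraticMap.polar ⇑Q (ratEmb F₀ P y₁) v ≠ 0) (hE : EIn Q M v w) :
    ∃ s : ↥F₀, QuadraticMap.polar ⇑Q (ratEmb F₀ P y₂) v =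
      (s : F) * QuadraticMap.polar ⇑Q (ratEmb F₀ P y₁) v := by
  by_cases hy₂v : QuadraticMap.polar ⇑Q (ratEmb F₀ P y₂) v = 0
  · exact ⟨0, by rw [hy₂v]; simp⟩
  obtain ⟨x₁, hx₁, ν₁, hxc₁, hν₁⟩ := D.exists_move h2 hc hy₁ hcy₁ hv hw hvw hcv hcw hy₁v hE
  obtain ⟨x₂, hx₂, ν₂, hxc₂, hν₂⟩ := D.exists_move h2 hc hy₂ hcy₂ hv hw hvw hcv hcw hy₂v hE
  have hν₂0 : ν₂ ≠ 0 := by
    rintro rfl
    apply hcw
    rw [← hν₂]
    simp
  have hinv : (((x₂⁻¹ : ↥(Cfsg.isometryGroup F ⇑Q)) : Matrix.GeneralLinearGroup ι F) :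
      Matrix ι ι F) *ᵥ v = ν₂⁻¹ • ratEmb F₀ P c := by
    have e := isom_mulVec_inv (⇑Q) x₂⁻¹ (ratEmb F₀ P c)
    rw [inv_inv, hxc₂, mulVec_smul] at e
    rw [← e, smul_smul, inv_mul_cancel₀ hν₂0, one_smul]
  have hgc : (((x₂⁻¹ * x₁ : ↥(Cfsg.isometryGroup F ⇑Q)) : Matrix.GeneralLinearGroup ι F) :
      Matrix ι ι F) *ᵥ ratEmb F₀ P c = (ν₁ * ν₂⁻¹) • ratEmb F₀ P c := by
    rw [Subgroup.coe_mul, Units.val_mul, ← mulVec_mulVec, hxc₁, mulVec_smul, hinv, smul_smul]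
  have hT := D.torus_sq_mem hno hc hc0 (M.mul_mem (M.inv_mem hx₂) hx₁) hgc
  refine ⟨⟨_, hT⟩, ?_⟩
  have hi : ν₂ * ν₂⁻¹ = 1 := mul_inv_cancel₀ hν₂0
  show QuadraticMap.polar ⇑Q (ratEmb F₀ P y₂) v =
    (ν₁ * ν₂⁻¹) ^ 2 * QuadraticMap.polar ⇑Q (ratEmb F₀ P y₁) v
  linear_combination (-(ν₂⁻¹) ^ 2) * hν₁ + (ν₂⁻¹) ^ 2 * hν₂ -
    QuadraticMap.polar ⇑Q (ratEmb F₀ P y₂) v * (ν₂ * ν₂⁻¹ + 1) * hi

end char2

end Cfsg.Agent.Lib.Helper14
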