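import Mathlib
import Cfsg.Agent.Lib.Helper14.SubfI

/-!
# Subfield subgroups of orthogonal groups in characteristic two: maximality
-/

set_option autoImplicit false

namespace Cfsg.Agent.Lib.Helper14

open Matrix Module

section char2J

variable {ι : Type} [Fintype ι] [DecidableEq ι] {F : Type*} [Field F]

variable {Q : QuadraticForm F (ι → F)} {F₀ : Subfield F} {P : Matrix.GeneralLinearGroup ι F}
  {M : Subgroup ↥(Cfsg.isometryGroup F ⇑Q)}

/-- Characteristic two, no irrational coefficients: the centre of a root element of `M`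
collinear with a rational singular point lies on a rational line through it. -/
theorem RatSetup.on_rat_line [Fintype F] (D : RatSetup Q F₀ P M) (h2 : (2 : F) = 0)
    (hno : ¬ D.HasIrr) {c : ι → ↥F₀} (hc : D.Q₀ c = 0) (hc0 : c ≠ 0)
    {v w : ι → F} (hv : Q v = 0) (hw : Q w = 0) (hvw : QuadraticMap.polar ⇑Q v w = 0)
    (hcv : QuadraticMap.polar ⇑Q (ratEmb F₀ P c) v = 0)
    (hcw : QuadraticMap.polar ⇑Q (ratEmb F₀ P c) w ≠ 0) (hE : EIn Q M v w) :
    ∃ (l : F) (v₀ : ι → ↥F₀) (t : F), v = l • ratEmb F₀ P v₀ + t • ratEmb F₀ P c := by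
  classical
  haveI : Fintype ↥F₀ := Fintype.ofFinite _
  have hn := D.hn
  have hfr : finrank ↥F₀ ↥(Submodule.span ↥F₀ {c}) ≤ 1 :=
    Cfsg.Agent.Lib.Helper44.finrank_span_singleton_le_one c
  obtain ⟨e, f, heS, hfS, hQe, hQf, hef⟩ :=
    exists_hyp_in_orth D.Q₀ D.hQ₀ (Submodule.span ↥F₀ {c}) (by omega)
  by_cases hall : ∀ y, D.Q₀ y = 0 → QuadraticMap.polar ⇑D.Q₀ c y = 0 →
      QuadraticMap.polar ⇑Q (ratEmb F₀ P y) v = 0
  · have hS : ∀ y ∈ Cfsg.Agent.Lib.Helper44.orth D.Q₀ (Submodule.span ↥F₀ {c}),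
        QuadraticMap.polar ⇑Q (ratEmb F₀ P y) v ∈ F₀ := by
      apply sing_induction D.Q₀ hQe hQf hef
        (fun y => QuadraticMap.polar ⇑Q (ratEmb F₀ P y) v ∈ F₀) _ heS hfS
      · intro y₁ y₂ _ _ p1 p2
        show QuadraticMap.polar ⇑Q (ratEmb F₀ P (y₁ + y₂)) v ∈ F₀
        rw [map_add, QuadraticMap.polar_add_left]
        exact F₀.add_mem p1 p2
      · intro s hs hQs
        show QuadraticMap.polar ⇑Q (ratEmb F₀ P s) v ∈ F₀
        rw [hall s hQs (D.orth_singleton hs)]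
        exact F₀.zero_mem
    obtain ⟨v₀, t, hvt⟩ := D.mem_rat_add_of_polar hc0 (z := v)
      (fun y hy => hS y (D.mem_orth_singleton hy))
    exact ⟨1, v₀, t, by rw [one_smul]; exact hvt⟩
  · push Not at hall
    obtain ⟨y₁, hQy₁, hcy₁, hy₁v⟩ := hall
    obtain ⟨a₁, ha₁⟩ : ∃ a₁, a₁ = QuadraticMap.polar ⇑Q (ratEmb F₀ P y₁) v := ⟨_, rfl⟩
    have ha₁0 : a₁ ≠ 0 := by rw [ha₁]; exact hy₁v
    have hS : ∀ y ∈ Cfsg.Agent.Lib.Helper44.orth D.Q₀ (Submodule.span ↥F₀ {c}),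
        ∃ s : ↥F₀, QuadraticMap.polar ⇑Q (ratEmb F₀ P y) v = (s : F) * a₁ := by
      apply sing_induction D.Q₀ hQe hQf hef
        (fun y => ∃ s : ↥F₀, QuadraticMap.polar ⇑Q (ratEmb F₀ P y) v = (s : F) * a₁) _ heS hfS
      · intro z₁ z₂ _ _ p1 p2
        obtain ⟨s₁, hs₁⟩ := p1
        obtain ⟨s₂, hs₂⟩ := p2
        refine ⟨s₁ + s₂, ?_⟩
        rw [map_add, QuadraticMap.polar_add_left, hs₁, hs₂, Subfield.coe_add]
        ring
      · intro s hs hQs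
        rw [ha₁]
        exact D.ratio_mem h2 hno hc hc0 hQy₁ hcy₁ hQs (D.orth_singleton hs) hv hw hvw hcv hcw
          hy₁v hE
    obtain ⟨v₀, t, hvt⟩ := D.mem_rat_add_of_polar hc0 (z := a₁⁻¹ • v) (by
      intro y hy
      obtain ⟨s, hs⟩ := hS y (D.mem_orth_singleton hy)
      rw [QuadraticMap.polar_smul_right, hs, smul_eq_mul]
      have e1 : a₁⁻¹ * ((s : F) * a₁) = (s : F) := by
        field_simp
      rw [e1]
      exact s.2)
    refine ⟨a₁, v₀, a₁ * t, ?_⟩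
    have e2 : v = a₁ • (a₁⁻¹ • v) := by rw [smul_smul, mul_inv_cancel₀ ha₁0, one_smul]
    rw [e2, hvt, smul_add, smul_smul]

/-- Characteristic two, no irrational coefficients: the centre of a root element of `M`
collinear with a rational singular point is a rational point. -/
theorem RatSetup.rat_point [Fintype F] (D : RatSetup Q F₀ P M) (h2 : (2 : F) = 0)
    (hno : ¬ D.HasIrr) {c : ι → ↥F₀} (hc : D.Q₀ c = 0) (hc0 : c ≠ 0)
    {v w : ι → F} (hv : Q v = 0) (hw : Q w = 0) (hvw : QuadraticMap.polar ⇑Q v w = 0)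
    (hcv : QuadraticMap.polar ⇑Q (ratEmb F₀ P c) v = 0)
    (hcw : QuadraticMap.polar ⇑Q (ratEmb F₀ P c) w ≠ 0) (hE : EIn Q M v w) :
    ∃ (l : F) (v₀ : ι → ↥F₀), v = l • ratEmb F₀ P v₀ := by
  classical
  haveI : Fintype ↥F₀ := Fintype.ofFinite _
  have hn := D.hn
  obtain ⟨l, v₀, t, hvt⟩ := D.on_rat_line h2 hno hc hc0 hv hw hvw hcv hcw hE
  by_cases hl : l = 0
  · exact ⟨t, c, by rw [hvt, hl, zero_smul, zero_add]⟩
  by_cases hmem : v₀ ∈ Submodule.span ↥F₀ (Set.range ![c])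
  · have hmem' : v₀ ∈ Submodule.span ↥F₀ {c} := by simpa using hmem
    obtain ⟨s, rfl⟩ := Submodule.mem_span_singleton.mp hmem'
    refine ⟨l * (s : F) + t, c, ?_⟩
    rw [hvt, ratEmb_smul, smul_smul, add_smul]
  have hli2 : LinearIndependent ↥F₀ ![v₀, c] := li_cons (li_one hc0) v₀ hmem
  have hcv₀ : QuadraticMap.polar ⇑D.Q₀ c v₀ = 0 := by
    have h1 := hcv
    rw [hvt, QuadraticMap.polar_add_right, QuadraticMap.polar_smul_right,
      QuadraticMap.polar_smul_right, polar_self_eq, D.sing hc] at h1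
    simp only [smul_eq_mul, mul_zero, add_zero] at h1
    have h3 : QuadraticMap.polar ⇑Q (ratEmb F₀ P c) (ratEmb F₀ P v₀) = 0 :=
      (mul_eq_zero.mp h1).resolve_left hl
    apply Subtype.ext
    rw [← D.pc]
    exact h3
  obtain ⟨d, hQd, hdv, hdn⟩ := exists_sing_orth_notMem D.Q₀ D.hQ₀ ![v₀, c] (by omega)
  have hv₀d : QuadraticMap.polar ⇑D.Q₀ v₀ d = 0 := by simpa using hdv 0
  have hcd : QuadraticMap.polar ⇑D.Q₀ c d = 0 := by simpa using hdv 1
  obtain ⟨x, hQx, hv₀x, hcx, hxn, hxw⟩ : ∃ x, D.Q₀ x = 0 ∧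
      QuadraticMap.polar ⇑D.Q₀ v₀ x = 0 ∧ QuadraticMap.polar ⇑D.Q₀ c x = 0 ∧
      x ∉ Submodule.span ↥F₀ (Set.range ![v₀, c]) ∧
      QuadraticMap.polar ⇑Q (ratEmb F₀ P x) w ≠ 0 := by
    by_cases hdw : QuadraticMap.polar ⇑Q (ratEmb F₀ P d) w = 0
    · refine ⟨d + c, ?_, ?_, ?_, ?_, ?_⟩
      · rw [QuadraticMap.map_add (⇑D.Q₀), hQd, hc, D.sym0 hcd]
        simp
      · rw [QuadraticMap.polar_add_right, hv₀d, D.sym0 hcv₀, add_zero]
      · rw [QuadraticMap.polar_add_right, hcd, polar_self_eq, hc]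
        simp
      · intro hmem2
        apply hdn
        have hcm : c ∈ Submodule.span ↥F₀ (Set.range ![v₀, c]) :=
          Submodule.subset_span ⟨1, rfl⟩
        have := Submodule.sub_mem _ hmem2 hcm
        rwa [add_sub_cancel_right] at this
      · rw [map_add, QuadraticMap.polar_add_left, hdw, zero_add]
        exact hcw
    · exact ⟨d, hQd, hv₀d, hcd, hdn, hdw⟩
  have hx0 : x ≠ 0 := by
    rintro rfl
    exact hxn (Submodule.zero_mem _)
  have hxv : QuadraticMap.polar ⇑Q (ratEmb F₀ P x) v = 0 := by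
    rw [hvt, QuadraticMap.polar_add_right, QuadraticMap.polar_smul_right,
      QuadraticMap.polar_smul_right, D.pz (D.sym0 hv₀x), D.pz (D.sym0 hcx)]
    simp
  obtain ⟨l₂, v₂, t₂, hvt₂⟩ := D.on_rat_line h2 hno hQx hx0 hv hw hvw hxv hxw hE
  have hli3 : LinearIndependent ↥F₀ ![x, v₀, c] := li_cons hli2 x hxn
  obtain ⟨d₁, hd₁⟩ := exists_polar_eq D.Q₀ D.hQ₀ ![x, v₀, c] hli3 ![0, 1, 0]
  obtain ⟨d₂, hd₂⟩ := exists_polar_eq D.Q₀ D.hQ₀ ![x, v₀, c] hli3 ![0, 0, 1]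
  have a1 : QuadraticMap.polar ⇑D.Q₀ x d₁ = 0 := by simpa using hd₁ 0
  have a2 : QuadraticMap.polar ⇑D.Q₀ v₀ d₁ = 1 := by simpa using hd₁ 1
  have a3 : QuadraticMap.polar ⇑D.Q₀ c d₁ = 0 := by simpa using hd₁ 2
  have b1 : QuadraticMap.polar ⇑D.Q₀ x d₂ = 0 := by simpa using hd₂ 0
  have b2 : QuadraticMap.polar ⇑D.Q₀ v₀ d₂ = 0 := by simpa using hd₂ 1
  have b3 : QuadraticMap.polar ⇑D.Q₀ c d₂ = 1 := by simpa using hd₂ 2
  have e1 : QuadraticMap.polar ⇑Q v (ratEmb F₀ P d₁) = l := by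
    rw [hvt, QuadraticMap.polar_add_left, QuadraticMap.polar_smul_left,
      QuadraticMap.polar_smul_left, D.p1 a2, D.pz a3]
    simp
  have e1' : QuadraticMap.polar ⇑Q v (ratEmb F₀ P d₁) =
      l₂ * ((QuadraticMap.polar ⇑D.Q₀ v₂ d₁ : ↥F₀) : F) := by
    rw [hvt₂, QuadraticMap.polar_add_left, QuadraticMap.polar_smul_left,
      QuadraticMap.polar_smul_left, D.pz a1, D.pc v₂ d₁]
    simp
  have e2 : QuadraticMap.polar ⇑Q v (ratEmb F₀ P d₂) = t := by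
    rw [hvt, QuadraticMap.polar_add_left, QuadraticMap.polar_smul_left,
      QuadraticMap.polar_smul_left, D.pz b2, D.p1 b3]
    simp
  have e2' : QuadraticMap.polar ⇑Q v (ratEmb F₀ P d₂) =
      l₂ * ((QuadraticMap.polar ⇑D.Q₀ v₂ d₂ : ↥F₀) : F) := by
    rw [hvt₂, QuadraticMap.polar_add_left, QuadraticMap.polar_smul_left,
      QuadraticMap.polar_smul_left, D.pz b1, D.pc v₂ d₂]
    simp
  refine ⟨l₂, QuadraticMap.polar ⇑D.Q₀ v₂ d₁ • v₀ + QuadraticMap.polar ⇑D.Q₀ v₂ d₂ • c, ?_⟩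
  rw [map_add, ratEmb_smul, ratEmb_smul, smul_add, smul_smul, smul_smul, ← e1', ← e2', e1, e2]
  exact hvt

end char2J

end Cfsg.Agent.Lib.Helper14
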