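import Mathlib
import Cfsg.Agent.Lib.Helper14.SubfJ

/-!
# Subfield subgroups of orthogonal groups: maximality in all characteristics
-/

set_option autoImplicit false

namespace Cfsg.Agent.Lib.Helper14

open Matrix Module

section char2K

variable {ι : Type} [Fintype ι] [DecidableEq ι] {F : Type*} [Field F]

variable {Q : QuadraticForm F (ι → F)} {F₀ : Subfield F} {P : Matrix.GeneralLinearGroup ι F}
  {M : Subgroup ↥(Cfsg.isometryGroup F ⇑Q)}

/-- In characteristic two an element of `F` with square in `F₀` lies in `F₀`. -/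
theorem mem_of_sq_mem_char2 [Fintype F] (h2 : (2 : F) = 0) (F₀ : Subfield F) {l : F}
    (hl : l ^ 2 ∈ F₀) : l ∈ F₀ := by
  classical
  haveI : Fintype ↥F₀ := Fintype.ofFinite _
  have h2' : (2 : ↥F₀) = 0 := by
    apply Subtype.ext
    exact h2
  haveI : CharP ↥F₀ 2 := CharTwo.of_one_ne_zero_of_two_eq_zero one_ne_zero h2'
  have hch : ringChar ↥F₀ = 2 := ringChar.eq ↥F₀ 2
  obtain ⟨s, hs⟩ := FiniteField.isSquare_of_char_two hch (⟨l ^ 2, hl⟩ : ↥F₀)
  have hs' : l ^ 2 = (s : F) * (s : F) := by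
    have := congrArg Subtype.val hs
    exact this
  have h0 : (l - (s : F)) ^ 2 = 0 := by
    linear_combination hs' + (s : F) * ((s : F) - l) * h2
  have h1 := pow_eq_zero_iff (two_ne_zero) |>.mp h0
  have h3 : l = (s : F) := by linear_combination h1
  rw [h3]
  exact s.2

/-- Characteristic two: an overgroup of the subfield subgroup of `Ω` without irrational
coefficients consists of elements of the subfield group. -/
theorem RatSetup.mem_subfield_of_not_irr [Fintype F] (D : RatSetup Q F₀ P M) (h2 : (2 : F) = 0)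
    (hno : ¬ D.HasIrr) (g : ↥(Cfsg.isometryGroup F ⇑Q)) (hg : g ∈ M) :
    (g : Matrix.GeneralLinearGroup ι F) ∈ Cfsg.Geo.subfieldSubgroup F₀ P := by
  classical
  haveI : Fintype ↥F₀ := Fintype.ofFinite _
  have hn := D.hn
  apply D.mem_subfield_of_nMap g
  intro a b hab x
  obtain ⟨u, hu⟩ : ∃ u, u = ((g : Matrix.GeneralLinearGroup ι F) : Matrix ι ι F) *ᵥ
    ratEmb F₀ P a := ⟨_, rfl⟩
  obtain ⟨w, hw⟩ : ∃ w, w = ((g : Matrix.GeneralLinearGroup ι F) : Matrix ι ι F) *ᵥ
    ratEmb F₀ P b := ⟨_, rfl⟩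
  rw [← hu, ← hw]
  have hQu : Q u = 0 := by
    rw [hu, isom_preserves g]
    exact D.sing hab.1
  have hQw : Q w = 0 := by
    rw [hw, isom_preserves g]
    exact D.sing hab.2.1
  have huw : QuadraticMap.polar ⇑Q u w = 0 := by
    rw [hu, hw, polar_mulVec Q _ (isom_preserves g)]
    exact D.pz hab.2.2
  have hwu : QuadraticMap.polar ⇑Q w u = 0 := by rw [QuadraticMap.polar_comm]; exact huw
  have huu : QuadraticMap.polar ⇑Q u u = 0 := by rw [polar_self_eq, hQu, mul_zero]
  have hww : QuadraticMap.polar ⇑Q w w = 0 := by rw [polar_self_eq, hQw, mul_zero]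
  have hE : EIn Q M u w := by
    rw [hu, hw]
    exact EIn_conj Q M (ratE Q D.hQ (by omega) F₀ P D.hP M D.hM hab.1 hab.2.2) g hg
  obtain ⟨h, hh⟩ : ∃ h, h = eichElt Q D.hQ u w hQu huw := ⟨_, rfl⟩
  have hhM : h ∈ M := hE h (by rw [hh, eichElt_coe])
  have hact : ∀ z, ((h : Matrix.GeneralLinearGroup ι F) : Matrix ι ι F) *ᵥ z =
      z + nMap Q u w z := by
    intro z
    rw [hh, eichElt_coe, eichMat_mulVec, hQw]
    unfold nMap
    simp only [zero_mul, add_zero]
    module
  have hNu : ∀ z, QuadraticMap.polar ⇑Q u (nMap Q u w z) = 0 := by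
    intro z
    unfold nMap
    rw [QuadraticMap.polar_sub_right, QuadraticMap.polar_smul_right,
      QuadraticMap.polar_smul_right, huw, huu]
    simp
  have hNw : ∀ z, QuadraticMap.polar ⇑Q w (nMap Q u w z) = 0 := by
    intro z
    unfold nMap
    rw [QuadraticMap.polar_sub_right, QuadraticMap.polar_smul_right,
      QuadraticMap.polar_smul_right, hwu, hww]
    simp
  -- every rational singular point is mapped to a rational point
  have hpt : ∀ c, D.Q₀ c = 0 → ∃ (l : F) (v₁ : ι → ↥F₀),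
      ((h : Matrix.GeneralLinearGroup ι F) : Matrix ι ι F) *ᵥ ratEmb F₀ P c =
        l • ratEmb F₀ P v₁ := by
    intro c hc
    by_cases hc0 : c = 0
    · exact ⟨0, 0, by rw [hc0, map_zero, mulVec_zero, zero_smul]⟩
    by_cases hN : nMap Q u w (ratEmb F₀ P c) = 0
    · exact ⟨1, c, by rw [hact, hN, add_zero, one_smul]⟩
    have hfr : finrank ↥F₀ ↥(Submodule.span ↥F₀ {c}) ≤ 1 :=
      Cfsg.Agent.Lib.Helper44.finrank_span_singleton_le_one c
    obtain ⟨e, f, heS, hfS, hQe, hQf, hef⟩ :=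
      exists_hyp_in_orth D.Q₀ D.hQ₀ (Submodule.span ↥F₀ {c}) (by omega)
    have hex : ∃ y, D.Q₀ y = 0 ∧ QuadraticMap.polar ⇑D.Q₀ c y = 0 ∧
        QuadraticMap.polar ⇑Q (nMap Q u w (ratEmb F₀ P c)) (ratEmb F₀ P y) ≠ 0 := by
      by_contra hcon
      push Not at hcon
      have hS : ∀ y ∈ Cfsg.Agent.Lib.Helper44.orth D.Q₀ (Submodule.span ↥F₀ {c}),
          QuadraticMap.polar ⇑Q (ratEmb F₀ P y) (nMap Q u w (ratEmb F₀ P c)) = 0 := by
        apply sing_induction D.Q₀ hQe hQf hef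
          (fun y => QuadraticMap.polar ⇑Q (ratEmb F₀ P y) (nMap Q u w (ratEmb F₀ P c)) = 0)
          _ heS hfS
        · intro y₁ y₂ _ _ p1 p2
          show QuadraticMap.polar ⇑Q (ratEmb F₀ P (y₁ + y₂)) _ = 0
          rw [map_add, QuadraticMap.polar_add_left, p1, p2, add_zero]
        · intro s hs hQs
          show QuadraticMap.polar ⇑Q (ratEmb F₀ P s) _ = 0
          rw [QuadraticMap.polar_comm]
          exact hcon s hQs (D.orth_singleton hs)
      obtain ⟨t, ht⟩ := D.eq_smul_of_polar hc0 (z := nMap Q u w (ratEmb F₀ P c))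
        (fun y hy => hS y (D.mem_orth_singleton hy))
      have hu1 := hNu (ratEmb F₀ P c)
      have hw1 := hNw (ratEmb F₀ P c)
      rw [ht, QuadraticMap.polar_smul_right, smul_eq_mul] at hu1 hw1
      apply hN
      by_cases ht0 : t = 0
      · rw [ht, ht0, zero_smul]
      · have p1 := (mul_eq_zero.mp hu1).resolve_left ht0
        have p2 := (mul_eq_zero.mp hw1).resolve_left ht0
        unfold nMap
        rw [p1, p2]
        simp
    obtain ⟨y, hQy, hcy, hNy⟩ := hex
    have hv : Q (((h : Matrix.GeneralLinearGroup ι F) : Matrix ι ι F) *ᵥ ratEmb F₀ P c) = 0 := by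
      rw [isom_preserves h]
      exact D.sing hc
    have hw' : Q (((h : Matrix.GeneralLinearGroup ι F) : Matrix ι ι F) *ᵥ ratEmb F₀ P y) = 0 := by
      rw [isom_preserves h]
      exact D.sing hQy
    have hvw' : QuadraticMap.polar ⇑Q
        (((h : Matrix.GeneralLinearGroup ι F) : Matrix ι ι F) *ᵥ ratEmb F₀ P c)
        (((h : Matrix.GeneralLinearGroup ι F) : Matrix ι ι F) *ᵥ ratEmb F₀ P y) = 0 := by
      rw [polar_mulVec Q _ (isom_preserves h)]
      exact D.pz hcy
    have hcv : QuadraticMap.polar ⇑Q (ratEmb F₀ P c)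
        (((h : Matrix.GeneralLinearGroup ι F) : Matrix ι ι F) *ᵥ ratEmb F₀ P c) = 0 := by
      rw [hact, QuadraticMap.polar_add_right, polar_self_eq, D.sing hc, QuadraticMap.polar_comm,
        polar_nMap]
      ring
    have hcw : QuadraticMap.polar ⇑Q (ratEmb F₀ P c)
        (((h : Matrix.GeneralLinearGroup ι F) : Matrix ι ι F) *ᵥ ratEmb F₀ P y) ≠ 0 := by
      rw [hact, QuadraticMap.polar_add_right, D.pz hcy, zero_add, QuadraticMap.polar_comm,
        polar_nMap]
      intro h0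
      apply hNy
      rw [polar_nMap]
      linear_combination -h0
    have hE' := EIn_conj Q M (ratE Q D.hQ (by omega) F₀ P D.hP M D.hM hc hcy) h hhM
    exact D.rat_point h2 hno hc hc0 hv hw' hvw' hcv hcw hE'
  -- rationality on singular vectors
  have hrat : ∀ c, D.Q₀ c = 0 → ∃ z, ratEmb F₀ P z = nMap Q u w (ratEmb F₀ P c) := by
    intro c hc
    by_cases hc0 : c = 0
    · refine ⟨0, ?_⟩
      rw [hc0, map_zero]
      unfold nMap
      simp
    obtain ⟨d, hQd, hdv⟩ := exists_sing_polar_eq D.Q₀ D.hQ₀ ![c] (li_one hc0) ![1] (by omega)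
    have hcd : QuadraticMap.polar ⇑D.Q₀ c d = 1 := by simpa using hdv 0
    have hli2 : LinearIndependent ↥F₀ ![d, c] := by
      apply li_cons_polar D.Q₀ (li_one hc0) d c
      · intro i
        fin_cases i
        show QuadraticMap.polar ⇑D.Q₀ c c = 0
        rw [polar_self_eq, hc, mul_zero]
      · rw [hcd]
        exact one_ne_zero
    obtain ⟨e, hQe, hev⟩ := exists_sing_polar_eq D.Q₀ D.hQ₀ ![d, c] hli2 ![1, 1] (by omega)
    have hde : QuadraticMap.polar ⇑D.Q₀ d e = 1 := by simpa using hev 0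
    have hce : QuadraticMap.polar ⇑D.Q₀ c e = 1 := by simpa using hev 1
    obtain ⟨lc, vc, hlc⟩ := hpt c hc
    obtain ⟨ld, vd, hld⟩ := hpt d hQd
    obtain ⟨le, ve, hle⟩ := hpt e hQe
    have k1 : lc * ld * ((QuadraticMap.polar ⇑D.Q₀ vc vd : ↥F₀) : F) = 1 := by
      have := polar_mulVec Q _ (isom_preserves h) (ratEmb F₀ P c) (ratEmb F₀ P d)
      rw [hlc, hld, QuadraticMap.polar_smul_left, QuadraticMap.polar_smul_right, D.p1 hcd,
        D.pc] at this
      simp only [smul_eq_mul] at this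
      linear_combination this
    have k2 : lc * le * ((QuadraticMap.polar ⇑D.Q₀ vc ve : ↥F₀) : F) = 1 := by
      have := polar_mulVec Q _ (isom_preserves h) (ratEmb F₀ P c) (ratEmb F₀ P e)
      rw [hlc, hle, QuadraticMap.polar_smul_left, QuadraticMap.polar_smul_right, D.p1 hce,
        D.pc] at this
      simp only [smul_eq_mul] at this
      linear_combination this
    have k3 : ld * le * ((QuadraticMap.polar ⇑D.Q₀ vd ve : ↥F₀) : F) = 1 := by
      have := polar_mulVec Q _ (isom_preserves h) (ratEmb F₀ P d) (ratEmb F₀ P e)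
      rw [hld, hle, QuadraticMap.polar_smul_left, QuadraticMap.polar_smul_right, D.p1 hde,
        D.pc] at this
      simp only [smul_eq_mul] at this
      linear_combination this
    obtain ⟨r1, hr1⟩ : ∃ r1 : ↥F₀, r1 = QuadraticMap.polar ⇑D.Q₀ vc vd := ⟨_, rfl⟩
    obtain ⟨r2, hr2⟩ : ∃ r2 : ↥F₀, r2 = QuadraticMap.polar ⇑D.Q₀ vc ve := ⟨_, rfl⟩
    obtain ⟨r3, hr3⟩ : ∃ r3 : ↥F₀, r3 = QuadraticMap.polar ⇑D.Q₀ vd ve := ⟨_, rfl⟩
    rw [← hr1] at k1
    rw [← hr2] at k2
    rw [← hr3] at k3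
    have k4 : lc ^ 2 * ((r1 : F) * (r2 : F)) = (r3 : F) := by
      linear_combination (-lc ^ 2 * (r1 : F) * (r2 : F)) * k3 +
        (r3 : F) * (lc * le * (r2 : F)) * k1 + (r3 : F) * k2
    have hr1' : (r1 : F) ≠ 0 := by
      intro h0
      rw [h0, mul_zero] at k1
      exact zero_ne_one k1
    have hr2' : (r2 : F) ≠ 0 := by
      intro h0
      rw [h0, mul_zero] at k2
      exact zero_ne_one k2
    have hsq : lc ^ 2 ∈ F₀ := by
      have e1 : lc ^ 2 = (r3 : F) * ((r1 : F) * (r2 : F))⁻¹ :=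
        (eq_mul_inv_iff_mul_eq₀ (mul_ne_zero hr1' hr2')).mpr k4
      rw [e1]
      exact F₀.mul_mem r3.2 (F₀.inv_mem (F₀.mul_mem r1.2 r2.2))
    have hlcm := mem_of_sq_mem_char2 h2 F₀ hsq
    refine ⟨(⟨lc, hlcm⟩ : ↥F₀) • vc - c, ?_⟩
    rw [map_sub, ratEmb_smul]
    have := hact (ratEmb F₀ P c)
    rw [hlc] at this
    show lc • ratEmb F₀ P vc - ratEmb F₀ P c = _
    rw [this]
    abel
  obtain ⟨e, f, -, -, hQe, hQf, hef⟩ := exists_hyp_in_orth D.Q₀ D.hQ₀ ⊥ (by
    rw [finrank_bot]; omega)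
  have hall : ∀ x ∈ (⊤ : Submodule ↥F₀ (ι → ↥F₀)),
      ∃ z, ratEmb F₀ P z = nMap Q u w (ratEmb F₀ P x) := by
    apply sing_induction D.Q₀ hQe hQf hef
      (fun x => ∃ z, ratEmb F₀ P z = nMap Q u w (ratEmb F₀ P x)) ⊤ Submodule.mem_top
      Submodule.mem_top
    · intro x₁ x₂ _ _ p1 p2
      obtain ⟨z₁, hz₁⟩ := p1
      obtain ⟨z₂, hz₂⟩ := p2
      exact ⟨z₁ + z₂, by rw [map_add, map_add, nMap_add, hz₁, hz₂]⟩
    · intro s _ hQs
      exact hrat s hQs
  exact hall x Submodule.mem_top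

/-- The overgroup dichotomy for the subfield subgroups of orthogonal groups, all
characteristics. -/
theorem subfield_core_all [Fintype F] (Q : QuadraticForm F (ι → F))
    (hQ : (QuadraticMap.polarBilin Q).Nondegenerate)
    (hn : 13 ≤ Fintype.card ι) (F₀ : Subfield F) (P : Matrix.GeneralLinearGroup ι F)
    (hP : Cfsg.Geo.IsQuadFormRationalStructure (⇑Q) F₀ P) (r : ℕ) (hr : r.Prime)
    (hcard : Fintype.card F = Nat.card F₀ ^ r)
    (M : Subgroup ↥(Cfsg.isometryGroup F ⇑Q))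
    (hM : ∀ g ∈ commutator ↥(Cfsg.isometryGroup F ⇑Q),
      (g : Matrix.GeneralLinearGroup ι F) ∈ Cfsg.Geo.subfieldSubgroup F₀ P → g ∈ M) :
    (∀ g ∈ M, (g : Matrix.GeneralLinearGroup ι F) ∈ Cfsg.Geo.subfieldSubgroup F₀ P) ∨
      commutator ↥(Cfsg.isometryGroup F ⇑Q) ≤ M := by
  classical
  by_cases h2 : (2 : F) = 0
  · have D : RatSetup Q F₀ P M := ⟨hQ, hn, hP, hM⟩
    by_cases hirr : D.HasIrr
    · right
      obtain ⟨a', b', c, hab', hli, hc0, hc⟩ := hirr
      exact D.omega_le_of_irr r hr hcard hab' hli hc0 hc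
    · left
      intro g hg
      exact D.mem_subfield_of_not_irr h2 hirr g hg
  · exact subfield_core Q hQ h2 hn F₀ P hP r hr hcard M hM

/-- **Maximality of subfield subgroups** of `Ω(Q)`, dimension at least `13`, all
characteristics. -/
theorem subfield_isMaximalIn_all [Fintype F] (Q : QuadraticForm F (ι → F))
    (hQ : (QuadraticMap.polarBilin Q).Nondegenerate)
    (hn : 13 ≤ Fintype.card ι) (F₀ : Subfield F) (P : Matrix.GeneralLinearGroup ι F)
    (hP : Cfsg.Geo.IsQuadFormRationalStructure (⇑Q) F₀ P) (r : ℕ) (hr : r.Prime)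
    (hcard : Fintype.card F = Nat.card F₀ ^ r) :
    Cfsg.Geo.IsMaximalIn (Cfsg.Geo.omegaGL ⇑Q)
      (Cfsg.Geo.subfieldSubgroup F₀ P ⊓ Cfsg.Geo.omegaGL ⇑Q) := by
  classical
  apply isMaximalIn_of_core (⇑Q) (Cfsg.Geo.subfieldSubgroup F₀ P)
  · obtain ⟨c, hc⟩ : ∃ c : F, c ∉ F₀ := by
      by_contra hno
      push Not at hno
      have htop : F₀ = ⊤ := by
        rw [eq_top_iff]
        intro x _
        exact hno x
      have hcc : Nat.card ↥F₀ = Fintype.card F := by
        rw [htop, ← Nat.card_eq_fintype_card]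
        exact Nat.card_congr (Subfield.topEquiv (K := F)).toEquiv
      rw [hcc] at hcard
      have h1 : 1 < Fintype.card F := Fintype.one_lt_card
      have h3 : Fintype.card F ^ 1 < Fintype.card F ^ r :=
        Nat.pow_lt_pow_right h1 hr.one_lt
      rw [pow_one] at h3
      omega
    exact subfield_proper Q hQ (by omega) F₀ P hP hc
  · intro M hM
    exact subfield_core_all Q hQ hn F₀ P hP r hr hcard M hM

/-- `Ω` as a commutator subgroup inside `GL`. -/
theorem omegaGL_eq_commutator (Qf : (ι → F) → F) :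
    Cfsg.Geo.omegaGL Qf = ⁅Cfsg.isometryGroup F Qf, Cfsg.isometryGroup F Qf⁆ := by
  unfold Cfsg.Geo.omegaGL Cfsg.Omega
  exact Subgroup.map_subtype_commutator _

theorem isometryGroup_smul (Q : QuadraticForm F (ι → F)) {ζ : F} (hζ : ζ ≠ 0) :
    Cfsg.isometryGroup F ⇑(ζ • Q) = Cfsg.isometryGroup F ⇑Q := by
  ext g
  rw [Cfsg.Agent.Lib.Helper44.mem_isometryGroup_iff, Cfsg.Agent.Lib.Helper44.mem_isometryGroup_iff]
  constructor
  · intro h u
    have := h u
    simp only [QuadraticMap.smul_apply, smul_eq_mul] at this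
    exact mul_left_cancel₀ hζ this
  · intro h u
    simp only [QuadraticMap.smul_apply, smul_eq_mul]
    rw [h u]

theorem nondegenerate_smul (Q : QuadraticForm F (ι → F))
    (hQ : (QuadraticMap.polarBilin Q).Nondegenerate) {ζ : F} (hζ : ζ ≠ 0) :
    (QuadraticMap.polarBilin (ζ • Q)).Nondegenerate := by
  have hp : ∀ x y, QuadraticMap.polar ⇑(ζ • Q) x y = ζ * QuadraticMap.polar ⇑Q x y := by
    intro x y
    unfold QuadraticMap.polar
    simp only [QuadraticMap.smul_apply, smul_eq_mul]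
    ring
  constructor
  · intro x hx
    apply hQ.1 x
    intro y
    have h2 : QuadraticMap.polar ⇑(ζ • Q) x y = 0 := hx y
    rw [hp] at h2
    exact (mul_eq_zero.mp h2).resolve_left hζ
  · intro y hy
    apply hQ.2 y
    intro x
    have h2 : QuadraticMap.polar ⇑(ζ • Q) x y = 0 := hy x
    rw [hp] at h2
    exact (mul_eq_zero.mp h2).resolve_left hζ

/-- **Maximality of subfield subgroups** of `Ω(Q)` where the rational structure carries a scalar
multiple of `Q`. -/
theorem subfield_isMaximalIn_scaled [Fintype F] (Q : QuadraticForm F (ι → F))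
    (hQ : (QuadraticMap.polarBilin Q).Nondegenerate)
    (hn : 13 ≤ Fintype.card ι) (F₀ : Subfield F) (P : Matrix.GeneralLinearGroup ι F)
    {ζ : F} (hζ : ζ ≠ 0)
    (hP : Cfsg.Geo.IsQuadFormRationalStructure (fun v : ι → F => ζ * Q v) F₀ P) (r : ℕ)
    (hr : r.Prime) (hcard : Fintype.card F = Nat.card F₀ ^ r) :
    Cfsg.Geo.IsMaximalIn (Cfsg.Geo.omegaGL ⇑Q)
      (Cfsg.Geo.subfieldSubgroup F₀ P ⊓ Cfsg.Geo.omegaGL ⇑Q) := by
  have hP' : Cfsg.Geo.IsQuadFormRationalStructure (⇑(ζ • Q)) F₀ P := by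
    intro u hu
    have := hP u hu
    simpa only [QuadraticMap.smul_apply, smul_eq_mul] using this
  have key := subfield_isMaximalIn_all (ζ • Q) (nondegenerate_smul Q hQ hζ) hn F₀ P hP' r hr hcard
  have e : Cfsg.Geo.omegaGL ⇑(ζ • Q) = Cfsg.Geo.omegaGL ⇑Q := by
    rw [omegaGL_eq_commutator, omegaGL_eq_commutator, isometryGroup_smul Q hζ]
  rw [e] at key
  exact key

end char2K

end Cfsg.Agent.Lib.Helper14
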