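import Mathlib
import Cfsg.Agent.Lib.Helper14.MaxTS3

set_option autoImplicit false

namespace Cfsg.Agent.Lib.Helper14

open Matrix Module

section permIsom

variable (m : ℕ) (F : Type*) [Field F]

/-- The isometry of the hyperbolic quadric given by a form-preserving coordinate permutation. -/
noncomputable def permIsom (σ : Equiv.Perm (Fin m ⊕ Fin m))
    (hσ : ∀ v : Fin m ⊕ Fin m → F, Cfsg.quadFormPlus m F (v ∘ σ) = Cfsg.quadFormPlus m F v) :
    ↥(Cfsg.isometryGroup F (Cfsg.quadFormPlus m F)) :=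
  ⟨⟨σ.permMatrix F, σ⁻¹.permMatrix F, by rw [← Matrix.permMatrix_mul]; simp,
      by rw [← Matrix.permMatrix_mul]; simp⟩, by
    rw [mem_isometryGroup_iff]
    intro x
    show Cfsg.quadFormPlus m F (σ.permMatrix F *ᵥ x) = _
    rw [Matrix.permMatrix_mulVec]
    exact hσ x⟩

theorem permIsom_coe (σ : Equiv.Perm (Fin m ⊕ Fin m))
    (hσ : ∀ v : Fin m ⊕ Fin m → F, Cfsg.quadFormPlus m F (v ∘ σ) = Cfsg.quadFormPlus m F v) :
    (((permIsom m F σ hσ : ↥(Cfsg.isometryGroup F (Cfsg.quadFormPlus m F))) :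
      Matrix.GeneralLinearGroup (Fin m ⊕ Fin m) F) :
      Matrix (Fin m ⊕ Fin m) (Fin m ⊕ Fin m) F) = σ.permMatrix F := rfl

theorem permIsom_mul (σ τ : Equiv.Perm (Fin m ⊕ Fin m))
    (hσ : ∀ v : Fin m ⊕ Fin m → F, Cfsg.quadFormPlus m F (v ∘ σ) = Cfsg.quadFormPlus m F v)
    (hτ : ∀ v : Fin m ⊕ Fin m → F, Cfsg.quadFormPlus m F (v ∘ τ) = Cfsg.quadFormPlus m F v)
    (hστ : ∀ v : Fin m ⊕ Fin m → F,
      Cfsg.quadFormPlus m F (v ∘ (τ * σ : Equiv.Perm (Fin m ⊕ Fin m))) =
        Cfsg.quadFormPlus m F v) :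
    permIsom m F σ hσ * permIsom m F τ hτ = permIsom m F (τ * σ) hστ := by
  apply isom_ext
  rw [Subgroup.coe_mul, Units.val_mul, permIsom_coe, permIsom_coe, permIsom_coe]
  exact (Matrix.permMatrix_mul ..).symm

theorem permIsom_one
    (h1 : ∀ v : Fin m ⊕ Fin m → F,
      Cfsg.quadFormPlus m F (v ∘ (1 : Equiv.Perm (Fin m ⊕ Fin m))) =
        Cfsg.quadFormPlus m F v) :
    permIsom m F 1 h1 = 1 := by
  apply isom_ext
  rw [permIsom_coe]
  simp

/-- Swap `x_i ↔ y_i` for the indices `i` with `p i`. -/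
def partSwap (p : Fin m → Prop) [DecidablePred p] : Equiv.Perm (Fin m ⊕ Fin m) where
  toFun := Sum.elim (fun i => if p i then Sum.inr i else Sum.inl i)
    (fun i => if p i then Sum.inl i else Sum.inr i)
  invFun := Sum.elim (fun i => if p i then Sum.inr i else Sum.inl i)
    (fun i => if p i then Sum.inl i else Sum.inr i)
  left_inv := by rintro (i | i) <;> by_cases h : p i <;> simp [h]
  right_inv := by rintro (i | i) <;> by_cases h : p i <;> simp [h]

theorem partSwap_inl (p : Fin m → Prop) [DecidablePred p] (i : Fin m) :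
    partSwap m p (Sum.inl i) = if p i then Sum.inr i else Sum.inl i := rfl

theorem partSwap_inr (p : Fin m → Prop) [DecidablePred p] (i : Fin m) :
    partSwap m p (Sum.inr i) = if p i then Sum.inl i else Sum.inr i := rfl

theorem partSwap_pres (p : Fin m → Prop) [DecidablePred p] (v : Fin m ⊕ Fin m → F) :
    Cfsg.quadFormPlus m F (v ∘ partSwap m p) = Cfsg.quadFormPlus m F v := by
  unfold Cfsg.quadFormPlus
  apply Finset.sum_congr rfl
  intro i _
  rw [Function.comp_apply, Function.comp_apply, partSwap_inl, partSwap_inr]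
  by_cases h : p i
  · rw [if_pos h, if_pos h, mul_comm]
  · rw [if_neg h, if_neg h]

theorem sumCongr_pres (σ : Equiv.Perm (Fin m)) (v : Fin m ⊕ Fin m → F) :
    Cfsg.quadFormPlus m F (v ∘ (Equiv.sumCongr σ σ : Equiv.Perm (Fin m ⊕ Fin m))) =
      Cfsg.quadFormPlus m F v := by
  unfold Cfsg.quadFormPlus
  exact Equiv.sum_comp σ (fun i => v (Sum.inl i) * v (Sum.inr i))

theorem sumComm_pres (v : Fin m ⊕ Fin m → F) :
    Cfsg.quadFormPlus m F (v ∘ (Equiv.sumComm (Fin m) (Fin m) : Equiv.Perm (Fin m ⊕ Fin m))) =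
      Cfsg.quadFormPlus m F v := by
  unfold Cfsg.quadFormPlus
  apply Finset.sum_congr rfl
  intro i _
  simp [mul_comm]

theorem perm_identity (σ : Equiv.Perm (Fin m)) (p : Fin m → Prop) [DecidablePred p]
    (hσ : ∀ i, σ (σ i) = i) (hp : ∀ i, p (σ i) ↔ ¬ p i) :
    (Equiv.sumCongr σ σ : Equiv.Perm (Fin m ⊕ Fin m)) *
      (partSwap m p * ((Equiv.sumCongr σ σ : Equiv.Perm (Fin m ⊕ Fin m)) * partSwap m p)) =
      Equiv.sumComm (Fin m) (Fin m) := by
  ext x
  rcases x with i | i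
  · by_cases h : p i
    · have h' : ¬ p (σ i) := fun hh => (hp i).mp hh h
      simp [Equiv.Perm.mul_apply, partSwap_inl, partSwap_inr, h, h', hσ]
    · have h' : p (σ i) := (hp i).mpr h
      simp [Equiv.Perm.mul_apply, partSwap_inl, partSwap_inr, h, h', hσ]
  · by_cases h : p i
    · have h' : ¬ p (σ i) := fun hh => (hp i).mp hh h
      simp [Equiv.Perm.mul_apply, partSwap_inl, partSwap_inr, h, h', hσ]
    · have h' : p (σ i) := (hp i).mpr h
      simp [Equiv.Perm.mul_apply, partSwap_inl, partSwap_inr, h, h', hσ]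

open scoped commutatorElement in
theorem exists_swap_mem_omega_aux (σ : Equiv.Perm (Fin m)) (p : Fin m → Prop) [DecidablePred p]
    (hσ : ∀ i, σ (σ i) = i) (hp : ∀ i, p (σ i) ↔ ¬ p i) :
    permIsom m F (Equiv.sumComm (Fin m) (Fin m)) (sumComm_pres m F) ∈
      Cfsg.Omega F (Cfsg.quadFormPlus m F) := by
  have hαα : partSwap m p * partSwap m p = 1 := by
    ext x
    rcases x with i | i <;> by_cases h : p i <;>
      simp [Equiv.Perm.mul_apply, partSwap_inl, partSwap_inr, h]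
  have hββ : (Equiv.sumCongr σ σ : Equiv.Perm (Fin m ⊕ Fin m)) * Equiv.sumCongr σ σ = 1 := by
    ext x
    rcases x with i | i <;> simp [Equiv.Perm.mul_apply, hσ]
  set a := permIsom m F (partSwap m p) (partSwap_pres m F p) with ha
  set b := permIsom m F (Equiv.sumCongr σ σ) (sumCongr_pres m F σ) with hb
  have haa : a * a = 1 := by
    rw [ha, permIsom_mul m F _ _ _ _ (by rw [hαα]; intro v; rfl)]
    apply isom_ext
    rw [permIsom_coe, hαα]
    simp
  have hbb : b * b = 1 := by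
    rw [hb, permIsom_mul m F _ _ _ _ (by rw [hββ]; intro v; rfl)]
    apply isom_ext
    rw [permIsom_coe, hββ]
    simp
  have hainv : a⁻¹ = a := inv_eq_of_mul_eq_one_left haa
  have hbinv : b⁻¹ = b := inv_eq_of_mul_eq_one_left hbb
  have key : permIsom m F (Equiv.sumComm (Fin m) (Fin m)) (sumComm_pres m F) = ⁅a, b⁆ := by
    rw [commutatorElement_def, hainv, hbinv]
    apply isom_ext
    rw [Subgroup.coe_mul, Units.val_mul, Subgroup.coe_mul, Units.val_mul, Subgroup.coe_mul,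
      Units.val_mul, ha, hb, permIsom_coe, permIsom_coe, permIsom_coe,
      ← Matrix.permMatrix_mul, ← Matrix.permMatrix_mul, ← Matrix.permMatrix_mul,
      perm_identity m σ p hσ hp]
  rw [key]
  exact Subgroup.commutator_mem_commutator (Subgroup.mem_top _) (Subgroup.mem_top _)

theorem exists_swap_mem_omega (hm : Even m) :
    ∃ g : ↥(Cfsg.isometryGroup F (Cfsg.quadFormPlus m F)),
      g ∈ Cfsg.Omega F (Cfsg.quadFormPlus m F) ∧
      ∀ v : Fin m ⊕ Fin m → F,
        ((g : Matrix.GeneralLinearGroup (Fin m ⊕ Fin m) F) :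
          Matrix (Fin m ⊕ Fin m) (Fin m ⊕ Fin m) F) *ᵥ v = v ∘ Sum.swap := by
  obtain ⟨k, hk⟩ := hm
  let e : Fin m ≃ Fin k ⊕ Fin k := (finCongr hk).trans finSumFinEquiv.symm
  let σ : Equiv.Perm (Fin m) := e.trans ((Equiv.sumComm _ _).trans e.symm)
  have hσ : ∀ i, σ (σ i) = i := by
    intro i
    simp [σ]
  have hp : ∀ i, (e (σ i)).isLeft = true ↔ ¬ ((e i).isLeft = true) := by
    intro i
    simp [σ]
  refine ⟨_, exists_swap_mem_omega_aux m F σ (fun i => (e i).isLeft = true) hσ hp, ?_⟩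
  intro v
  rw [permIsom_coe, Matrix.permMatrix_mulVec]
  rfl

end permIsom

end Cfsg.Agent.Lib.Helper14
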