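import Mathlib
import Cfsg.Agent.Lib.Helper14.UnitA

/-!
# A quadratic extension acting by similitudes: unitary transvections as Eichler elements
-/

set_option autoImplicit false

namespace Cfsg.Agent.Lib.Helper14

open Matrix Module

section unitB

variable {ι : Type} [Fintype ι] [DecidableEq ι] {F : Type*} [Field F]

/-- A quadratic extension `F[ω]` (with `ω² = tω - N`) acting on `F^ι` by similitudes of `Q`. -/
structure UStr (Q : QuadraticForm F (ι → F)) (ω : Matrix ι ι F) (t N : F) : Prop where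
  hQ : (QuadraticMap.polarBilin Q).Nondegenerate
  quad : ∀ x, Q (ω *ᵥ x) = N * Q x
  pol : ∀ x, QuadraticMap.polar ⇑Q x (ω *ᵥ x) = t * Q x
  sq : ∀ x, ω *ᵥ (ω *ᵥ x) = t • (ω *ᵥ x) - N • x
  indep : ∀ x : ι → F, x ≠ 0 → ∀ a b : F, a • x + b • (ω *ᵥ x) = 0 → a = 0 ∧ b = 0

variable {Q : QuadraticForm F (ι → F)} {ω : Matrix ι ι F} {t N : F}

theorem UStr.polωω (S : UStr Q ω t N) (x y : ι → F) :
    QuadraticMap.polar ⇑Q (ω *ᵥ x) (ω *ᵥ y) = N * QuadraticMap.polar ⇑Q x y := by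
  unfold QuadraticMap.polar
  rw [← mulVec_add, S.quad, S.quad, S.quad]
  ring

theorem UStr.pol2 (S : UStr Q ω t N) (x y : ι → F) :
    QuadraticMap.polar ⇑Q (ω *ᵥ x) y + QuadraticMap.polar ⇑Q x (ω *ᵥ y) =
      t * QuadraticMap.polar ⇑Q x y := by
  have h := S.pol (x + y)
  rw [mulVec_add, QuadraticMap.polar_add_left, QuadraticMap.polar_add_right,
    QuadraticMap.polar_add_right, S.pol, S.pol, QuadraticMap.map_add (⇑Q) x y] at h
  rw [QuadraticMap.polar_comm (⇑Q) (ω *ᵥ x) y]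
  linear_combination h

theorem UStr.polL (S : UStr Q ω t N) (x y : ι → F) :
    QuadraticMap.polar ⇑Q (ω *ᵥ x) y =
      t * QuadraticMap.polar ⇑Q x y - QuadraticMap.polar ⇑Q x (ω *ᵥ y) := by
  have := S.pol2 x y
  linear_combination this

theorem UStr.polR (S : UStr Q ω t N) (x y : ι → F) :
    QuadraticMap.polar ⇑Q x (ω *ᵥ y) =
      t * QuadraticMap.polar ⇑Q x y - QuadraticMap.polar ⇑Q (ω *ᵥ x) y := by
  have := S.pol2 x y
  linear_combination this

theorem UStr.sing_ω (S : UStr Q ω t N) {z : ι → F} (hz : Q z = 0) : Q (ω *ᵥ z) = 0 := by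
  rw [S.quad, hz, mul_zero]

theorem UStr.sing_pol (S : UStr Q ω t N) {z : ι → F} (hz : Q z = 0) :
    QuadraticMap.polar ⇑Q z (ω *ᵥ z) = 0 := by
  rw [S.pol, hz, mul_zero]

theorem UStr.sing_pol' (S : UStr Q ω t N) {z : ι → F} (hz : Q z = 0) :
    QuadraticMap.polar ⇑Q (ω *ᵥ z) z = 0 := by
  rw [QuadraticMap.polar_comm]
  exact S.sing_pol hz

/-- The `F[ω]`-line through `x`. -/
def Ksp (ω : Matrix ι ι F) (x : ι → F) : Submodule F (ι → F) := Submodule.span F {x, ω *ᵥ x}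

theorem mem_Ksp (ω : Matrix ι ι F) (x y : ι → F) :
    y ∈ Ksp ω x ↔ ∃ a b : F, y = a • x + b • (ω *ᵥ x) := by
  unfold Ksp
  rw [Submodule.mem_span_pair]
  constructor
  · rintro ⟨a, b, h⟩
    exact ⟨a, b, h.symm⟩
  · rintro ⟨a, b, h⟩
    exact ⟨a, b, h.symm⟩

theorem self_mem_Ksp (ω : Matrix ι ι F) (x : ι → F) : x ∈ Ksp ω x :=
  Submodule.subset_span (Set.mem_insert _ _)

theorem ω_mem_Ksp (ω : Matrix ι ι F) (x : ι → F) : ω *ᵥ x ∈ Ksp ω x :=
  Submodule.subset_span (Set.mem_insert_of_mem _ rfl)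

theorem finrank_Ksp_le (ω : Matrix ι ι F) (x : ι → F) : finrank F ↥(Ksp ω x) ≤ 2 := by
  unfold Ksp
  rw [Submodule.span_insert]
  have h := Submodule.finrank_add_le_finrank_add_finrank (Submodule.span F {x})
    (Submodule.span F {ω *ᵥ x})
  have h1 := Cfsg.Agent.Lib.Helper44.finrank_span_singleton_le_one (F := F) x
  have h2 := Cfsg.Agent.Lib.Helper44.finrank_span_singleton_le_one (F := F) (ω *ᵥ x)
  omega

theorem UStr.Ksp_le (S : UStr Q ω t N) {x y : ι → F} (hy : y ∈ Ksp ω x) :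
    Ksp ω y ≤ Ksp ω x := by
  have h1 : ω *ᵥ y ∈ Ksp ω x := by
    obtain ⟨a, b, rfl⟩ := (mem_Ksp ω x y).mp hy
    rw [mulVec_add, mulVec_smul, mulVec_smul, S.sq]
    exact Submodule.add_mem _ (Submodule.smul_mem _ _ (ω_mem_Ksp ω x))
      (Submodule.smul_mem _ _ (Submodule.sub_mem _ (Submodule.smul_mem _ _ (ω_mem_Ksp ω x))
        (Submodule.smul_mem _ _ (self_mem_Ksp ω x))))
  unfold Ksp
  rw [Submodule.span_le]
  intro v hv
  rcases hv with rfl | hv
  · exact hy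
  · rw [Set.mem_singleton_iff] at hv
    rw [hv]
    exact h1

theorem UStr.norm_ne (S : UStr Q ω t N) {x : ι → F} (hx : x ≠ 0) {a b : F}
    (hab : ¬ (a = 0 ∧ b = 0)) : a * a + a * b * t + b * b * N ≠ 0 := by
  intro hν
  have key : a • ((a + b * t) • x - b • (ω *ᵥ x)) +
      b • (ω *ᵥ ((a + b * t) • x - b • (ω *ᵥ x))) = (a * a + a * b * t + b * b * N) • x := by
    rw [mulVec_sub, mulVec_smul, mulVec_smul, S.sq]
    module
  rw [hν, zero_smul] at key
  by_cases hy : (a + b * t) • x - b • (ω *ᵥ x) = 0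
  · have h1 := S.indep x hx (a + b * t) (-b) (by rw [neg_smul, ← sub_eq_add_neg]; exact hy)
    apply hab
    have hb : b = 0 := neg_eq_zero.mp h1.2
    refine ⟨?_, hb⟩
    have h2 := h1.1
    rw [hb, zero_mul, add_zero] at h2
    exact h2
  · exact hab (S.indep _ hy a b key)

/-- `F[ω]`-lines are symmetric: a non-zero vector of the line through `x` spans the same
line. -/
theorem UStr.mem_Ksp_symm (S : UStr Q ω t N) {x y : ι → F} (hy : y ∈ Ksp ω x) (hy0 : y ≠ 0) :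
    x ∈ Ksp ω y := by
  obtain ⟨a, b, rfl⟩ := (mem_Ksp ω x y).mp hy
  have hx : x ≠ 0 := by
    rintro rfl
    apply hy0
    simp
  have hab : ¬ (a = 0 ∧ b = 0) := by
    rintro ⟨rfl, rfl⟩
    apply hy0
    simp
  have hν := S.norm_ne hx hab
  rw [mem_Ksp]
  refine ⟨(a * a + a * b * t + b * b * N)⁻¹ * (a + b * t),
    -((a * a + a * b * t + b * b * N)⁻¹ * b), ?_⟩
  rw [mulVec_add, mulVec_smul, mulVec_smul, S.sq]
  have e : ((a * a + a * b * t + b * b * N)⁻¹ * (a + b * t)) • (a • x + b • (ω *ᵥ x)) +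
      (-((a * a + a * b * t + b * b * N)⁻¹ * b)) • (a • (ω *ᵥ x) + b • (t • (ω *ᵥ x) - N • x)) =
      (a * a + a * b * t + b * b * N)⁻¹ • ((a * a + a * b * t + b * b * N) • x) := by
    module
  rw [e, smul_smul, inv_mul_cancel₀ hν, one_smul]

theorem UStr.Ksp_inf (S : UStr Q ω t N) {u w : ι → F} (hw : w ∉ Ksp ω u) {v : ι → F}
    (hv1 : v ∈ Ksp ω u) (hv2 : v ∈ Ksp ω w) : v = 0 := by
  by_contra hv0
  exact hw (S.Ksp_le hv1 (S.mem_Ksp_symm hv2 hv0))

theorem UStr.indep2 (S : UStr Q ω t N) {u : ι → F} (hu : u ≠ 0) :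
    LinearIndependent F ![u, ω *ᵥ u] := by
  rw [LinearIndependent.pair_iff]
  exact S.indep u hu

theorem UStr.indep4 (S : UStr Q ω t N) {u w : ι → F} (hu : u ≠ 0) (hw : w ∉ Ksp ω u) :
    LinearIndependent F ![w, ω *ᵥ w, u, ω *ᵥ u] := by
  have hw0 : w ≠ 0 := by
    rintro rfl
    exact hw (Submodule.zero_mem _)
  rw [Fintype.linearIndependent_iff]
  intro g hg
  rw [Fin.sum_univ_four] at hg
  simp only [Matrix.cons_val_zero, Matrix.cons_val_one, Matrix.cons_val] at hg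
  have e : g 0 • w + g 1 • (ω *ᵥ w) = -(g 2 • u + g 3 • (ω *ᵥ u)) := by
    rw [eq_neg_iff_add_eq_zero, ← hg]
    abel
  have h1 : g 0 • w + g 1 • (ω *ᵥ w) = 0 := by
    apply S.Ksp_inf hw
    · rw [e]
      exact Submodule.neg_mem _ (Submodule.add_mem _ (Submodule.smul_mem _ _ (self_mem_Ksp ω u))
        (Submodule.smul_mem _ _ (ω_mem_Ksp ω u)))
    · exact (mem_Ksp ω w _).mpr ⟨g 0, g 1, rfl⟩
  have h2 : g 2 • u + g 3 • (ω *ᵥ u) = 0 := by
    rw [h1] at e
    exact neg_eq_zero.mp e.symm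
  have h01 := S.indep w hw0 _ _ h1
  have h23 := S.indep u hu _ _ h2
  intro i
  fin_cases i
  · exact h01.1
  · exact h01.2
  · exact h23.1
  · exact h23.2

/-- The unitary transvection along the singular vector `z`. -/
theorem UStr.tv_mulVec (S : UStr Q ω t N) {z : ι → F} (hz : Q z = 0) (c : F) (x : ι → F) :
    eichMat Q z (c • (ω *ᵥ z)) *ᵥ x = x + (c * QuadraticMap.polar ⇑Q z x) • (ω *ᵥ z)
      - (c * QuadraticMap.polar ⇑Q (ω *ᵥ z) x) • z := by
  rw [eichMat_mulVec, QuadraticMap.map_smul, S.sing_ω hz, QuadraticMap.polar_smul_left]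
  simp only [smul_eq_mul, mul_zero, zero_mul, add_zero]
  module

/-- Unitary transvections commute with `ω`. -/
theorem UStr.tv_comm (S : UStr Q ω t N) {z : ι → F} (hz : Q z = 0) (c : F) :
    ω * eichMat Q z (c • (ω *ᵥ z)) = eichMat Q z (c • (ω *ᵥ z)) * ω := by
  rw [ext_iff_mulVec]
  intro x
  rw [← mulVec_mulVec, ← mulVec_mulVec, S.tv_mulVec hz, S.tv_mulVec hz, mulVec_sub, mulVec_add,
    mulVec_smul, mulVec_smul, S.sq, S.polR z x, S.polωω]
  module

/-- All unitary transvections lie in `M`. -/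
def TvIn (Q : QuadraticForm F (ι → F)) (ω : Matrix ι ι F)
    (M : Subgroup ↥(Cfsg.isometryGroup F ⇑Q)) : Prop :=
  ∀ z : ι → F, Q z = 0 → ∀ c : F, EIn Q M z (c • (ω *ᵥ z))

theorem UStr.EIn_K (S : UStr Q ω t N) {M : Subgroup ↥(Cfsg.isometryGroup F ⇑Q)}
    (hM : TvIn Q ω M) {z : ι → F} (hz : Q z = 0) (a b : F) :
    EIn Q M z (a • z + b • (ω *ᵥ z)) := by
  have hzz : QuadraticMap.polar ⇑Q z z = 0 := by rw [polar_self_eq, hz, mul_zero]
  have h1 : EIn Q M z (a • z) := by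
    intro g hg
    rw [eichMat_smul_self Q hz] at hg
    have : g = 1 := isom_ext hg
    rw [this]
    exact M.one_mem
  exact EIn_add Q S.hQ M hz (by rw [QuadraticMap.polar_smul_right, hzz, smul_zero])
    (by rw [QuadraticMap.polar_smul_right, S.sing_pol hz, smul_zero]) h1 (hM z hz b)

/-- Transport of a root element along a unitary transvection moving `x` to `y`. -/
theorem UStr.EIn_transport (S : UStr Q ω t N) {M : Subgroup ↥(Cfsg.isometryGroup F ⇑Q)}
    (hM : TvIn Q ω M) {x y v : ι → F} (hx : Q x = 0) (hy : Q y = 0)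
    (hxy : QuadraticMap.polar ⇑Q x y = 0) (hne : QuadraticMap.polar ⇑Q (ω *ᵥ x) y ≠ 0)
    (h1 : QuadraticMap.polar ⇑Q x v = 0) (h2 : QuadraticMap.polar ⇑Q (ω *ᵥ x) v = 0)
    (h3 : QuadraticMap.polar ⇑Q y v = 0) (h4 : QuadraticMap.polar ⇑Q (ω *ᵥ y) v = 0)
    (hE : EIn Q M x v) : EIn Q M y v := by
  obtain ⟨c, hc⟩ : ∃ c, c = (QuadraticMap.polar ⇑Q (ω *ᵥ x) y)⁻¹ := ⟨_, rfl⟩
  have hxx : QuadraticMap.polar ⇑Q x x = 0 := by rw [polar_self_eq, hx, mul_zero]
  have hd : Q (y - x) = 0 := by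
    have := quad_sub_smul Q y x 1
    rw [one_smul] at this
    rw [this, hx, hy, QuadraticMap.polar_comm, hxy]
    ring
  have hperp : QuadraticMap.polar ⇑Q (y - x) (c • (ω *ᵥ (y - x))) = 0 := by
    rw [QuadraticMap.polar_smul_right, S.sing_pol hd, smul_zero]
  have hg := hM (y - x) hd c (eichElt Q S.hQ (y - x) (c • (ω *ᵥ (y - x))) hd hperp) rfl
  have h5 := EIn_conj Q M hE _ hg
  rw [eichElt_coe, S.tv_mulVec hd, S.tv_mulVec hd] at h5
  have e1 : x + (c * QuadraticMap.polar ⇑Q (y - x) x) • (ω *ᵥ (y - x))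
      - (c * QuadraticMap.polar ⇑Q (ω *ᵥ (y - x)) x) • (y - x) = y := by
    have p1 : QuadraticMap.polar ⇑Q (y - x) x = 0 := by
      rw [QuadraticMap.polar_sub_left, QuadraticMap.polar_comm (⇑Q) y x, hxy, hxx, sub_zero]
    have p2 : QuadraticMap.polar ⇑Q (ω *ᵥ (y - x)) x = -QuadraticMap.polar ⇑Q (ω *ᵥ x) y := by
      rw [mulVec_sub, QuadraticMap.polar_sub_left, S.sing_pol' hx, S.polL y x,
        QuadraticMap.polar_comm (⇑Q) y x, hxy, QuadraticMap.polar_comm (⇑Q) y (ω *ᵥ x)]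
      ring
    rw [p1, p2, hc, mul_zero, zero_smul, add_zero, mul_neg, inv_mul_cancel₀ hne]
    module
  have e2 : v + (c * QuadraticMap.polar ⇑Q (y - x) v) • (ω *ᵥ (y - x))
      - (c * QuadraticMap.polar ⇑Q (ω *ᵥ (y - x)) v) • (y - x) = v := by
    rw [QuadraticMap.polar_sub_left, h1, h3, mulVec_sub, QuadraticMap.polar_sub_left, h2, h4]
    simp
  rw [e1, e2] at h5
  exact h5

end unitB

end Cfsg.Agent.Lib.Helper14
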