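import Mathlib
import Cfsg.Agent.Lib.Helper14.UnitB

/-!
# Overgroups of the unitary group in `Ω`: a root element outside the `F[ω]`-perp gives everything
-/

set_option autoImplicit false

namespace Cfsg.Agent.Lib.Helper14

open Matrix Module

section unitC

variable {ι : Type} [Fintype ι] [DecidableEq ι] {F : Type*} [Field F]
variable {Q : QuadraticForm F (ι → F)} {ω : Matrix ι ι F} {t N : F}

theorem orth_anti (Q : QuadraticForm F (ι → F)) {A B : Submodule F (ι → F)} (h : A ≤ B) :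
    Cfsg.Agent.Lib.Helper44.orth Q B ≤ Cfsg.Agent.Lib.Helper44.orth Q A := by
  intro x hx
  rw [Cfsg.Agent.Lib.Helper44.mem_orth_iff] at hx ⊢
  exact fun y hy => hx y (h hy)

theorem mem_orth_Ksp (Q : QuadraticForm F (ι → F)) (ω : Matrix ι ι F) (u x : ι → F) :
    x ∈ Cfsg.Agent.Lib.Helper44.orth Q (Ksp ω u) ↔
      QuadraticMap.polar ⇑Q u x = 0 ∧ QuadraticMap.polar ⇑Q (ω *ᵥ u) x = 0 := by
  rw [Cfsg.Agent.Lib.Helper44.mem_orth_iff]
  constructor
  · intro h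
    exact ⟨h u (self_mem_Ksp ω u), h _ (ω_mem_Ksp ω u)⟩
  · rintro ⟨h1, h2⟩ y hy
    obtain ⟨a, b, rfl⟩ := (mem_Ksp ω u y).mp hy
    rw [QuadraticMap.polar_add_left, QuadraticMap.polar_smul_left, QuadraticMap.polar_smul_left,
      h1, h2]
    simp

variable [Fintype F]

/-- Case 1, first step: all `F[ω]`-multiples of singular vectors in the `F[ω]`-perp of `u`. -/
theorem UStr.case1_sing (S : UStr Q ω t N) {M : Subgroup ↥(Cfsg.isometryGroup F ⇑Q)}
    (hM : TvIn Q ω M) {u w₀ : ι → F} (hu : Q u = 0)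
    (huw : QuadraticMap.polar ⇑Q u w₀ = 0) (hb : QuadraticMap.polar ⇑Q (ω *ᵥ u) w₀ ≠ 0)
    (hE : EIn Q M u w₀) {z₀ : ι → F} (hz₀ : Q z₀ = 0) (h1 : QuadraticMap.polar ⇑Q u z₀ = 0)
    (h2 : QuadraticMap.polar ⇑Q (ω *ᵥ u) z₀ = 0) (A B : F) :
    EIn Q M u (A • (ω *ᵥ z₀) + B • z₀) := by
  have huu : QuadraticMap.polar ⇑Q u u = 0 := by rw [polar_self_eq, hu, mul_zero]
  obtain ⟨c, hc⟩ : ∃ c, c = (A - QuadraticMap.polar ⇑Q z₀ w₀) /
      QuadraticMap.polar ⇑Q (ω *ᵥ u) w₀ := ⟨_, rfl⟩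
  obtain ⟨d, hd⟩ : ∃ d, d = (-B - QuadraticMap.polar ⇑Q (ω *ᵥ z₀) w₀) /
      QuadraticMap.polar ⇑Q (ω *ᵥ u) w₀ - c * t := ⟨_, rfl⟩
  have hcb : c * QuadraticMap.polar ⇑Q (ω *ᵥ u) w₀ = A - QuadraticMap.polar ⇑Q z₀ w₀ := by
    rw [hc]
    field_simp
  have hdb : (d + c * t) * QuadraticMap.polar ⇑Q (ω *ᵥ u) w₀ =
      -B - QuadraticMap.polar ⇑Q (ω *ᵥ z₀) w₀ := by
    rw [hd]
    field_simp
    ring
  obtain ⟨z, hzdef⟩ : ∃ z, z = d • u + c • (ω *ᵥ u) + z₀ := ⟨_, rfl⟩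
  have hωz : ω *ᵥ z = d • (ω *ᵥ u) + c • (t • (ω *ᵥ u) - N • u) + ω *ᵥ z₀ := by
    rw [hzdef, mulVec_add, mulVec_add, mulVec_smul, mulVec_smul, S.sq]
  have hz : Q z = 0 := by
    rw [hzdef, QuadraticMap.map_add (⇑Q) (d • u + c • (ω *ᵥ u)) z₀,
      QuadraticMap.map_add (⇑Q) (d • u) (c • (ω *ᵥ u)), QuadraticMap.map_smul,
      QuadraticMap.map_smul, hu, S.sing_ω hu, hz₀, QuadraticMap.polar_add_left,
      QuadraticMap.polar_smul_left, QuadraticMap.polar_smul_left, QuadraticMap.polar_smul_left,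
      QuadraticMap.polar_smul_right, S.sing_pol hu, h1, h2]
    simp
  have hzu : QuadraticMap.polar ⇑Q z u = 0 := by
    rw [hzdef, QuadraticMap.polar_add_left, QuadraticMap.polar_add_left,
      QuadraticMap.polar_smul_left, QuadraticMap.polar_smul_left, huu, S.sing_pol' hu,
      QuadraticMap.polar_comm (⇑Q) z₀ u, h1]
    simp
  have hωzu : QuadraticMap.polar ⇑Q (ω *ᵥ z) u = 0 := by
    rw [hωz, QuadraticMap.polar_add_left, QuadraticMap.polar_add_left,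
      QuadraticMap.polar_smul_left, QuadraticMap.polar_smul_left, QuadraticMap.polar_sub_left,
      QuadraticMap.polar_smul_left, QuadraticMap.polar_smul_left, huu, S.sing_pol' hu,
      S.polL z₀ u, QuadraticMap.polar_comm (⇑Q) z₀ u, h1,
      QuadraticMap.polar_comm (⇑Q) z₀ (ω *ᵥ u), h2]
    simp
  have pA : QuadraticMap.polar ⇑Q z w₀ = A := by
    rw [hzdef, QuadraticMap.polar_add_left, QuadraticMap.polar_add_left,
      QuadraticMap.polar_smul_left, QuadraticMap.polar_smul_left, huw]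
    simp only [smul_eq_mul]
    linear_combination hcb
  have pB : QuadraticMap.polar ⇑Q (ω *ᵥ z) w₀ = -B := by
    rw [hωz, QuadraticMap.polar_add_left, QuadraticMap.polar_add_left,
      QuadraticMap.polar_smul_left, QuadraticMap.polar_smul_left, QuadraticMap.polar_sub_left,
      QuadraticMap.polar_smul_left, QuadraticMap.polar_smul_left, huw]
    simp only [smul_eq_mul]
    linear_combination hdb
  have hperp : QuadraticMap.polar ⇑Q z ((1 : F) • (ω *ᵥ z)) = 0 := by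
    rw [QuadraticMap.polar_smul_right, S.sing_pol hz, smul_zero]
  have hg := hM z hz 1 (eichElt Q S.hQ z ((1 : F) • (ω *ᵥ z)) hz hperp) rfl
  have h5 := EIn_conj Q M hE _ hg
  rw [eichElt_coe, S.tv_mulVec hz, S.tv_mulVec hz, hzu, hωzu, pA, pB] at h5
  simp only [mul_zero, zero_smul, add_zero, sub_zero, one_mul] at h5
  have hp5 : QuadraticMap.polar ⇑Q u (w₀ + A • (ω *ᵥ z) - (-B) • z) = 0 := by
    rw [QuadraticMap.polar_sub_right, QuadraticMap.polar_add_right,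
      QuadraticMap.polar_smul_right, QuadraticMap.polar_smul_right, huw,
      QuadraticMap.polar_comm (⇑Q) u z, hzu, QuadraticMap.polar_comm (⇑Q) u (ω *ᵥ z), hωzu]
    simp
  have h6 := EIn_sub Q S.hQ M hu hp5 huw h5 hE
  have h7 := S.EIn_K hM hu (B * d - A * c * N) (A * d + A * c * t + B * c)
  have hp6 : QuadraticMap.polar ⇑Q u (w₀ + A • (ω *ᵥ z) - (-B) • z - w₀) = 0 := by
    rw [QuadraticMap.polar_sub_right, hp5, huw, sub_zero]
  have hp7 : QuadraticMap.polar ⇑Q u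
      ((B * d - A * c * N) • u + (A * d + A * c * t + B * c) • (ω *ᵥ u)) = 0 := by
    rw [QuadraticMap.polar_add_right, QuadraticMap.polar_smul_right,
      QuadraticMap.polar_smul_right, huu, S.sing_pol hu]
    simp
  have h8 := EIn_sub Q S.hQ M hu hp6 hp7 h6 h7
  have e : A • (ω *ᵥ z₀) + B • z₀ = w₀ + A • (ω *ᵥ z) - (-B) • z - w₀ -
      ((B * d - A * c * N) • u + (A * d + A * c * t + B * c) • (ω *ᵥ u)) := by
    rw [hωz, hzdef]
    module
  rw [e]
  exact h8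

/-- Case 1, second step: the whole `F[ω]`-perp of `u`. -/
theorem UStr.case1_U (S : UStr Q ω t N) (hn : 7 ≤ Fintype.card ι)
    {M : Subgroup ↥(Cfsg.isometryGroup F ⇑Q)}
    (hM : TvIn Q ω M) {u w₀ : ι → F} (hu : Q u = 0)
    (huw : QuadraticMap.polar ⇑Q u w₀ = 0) (hb : QuadraticMap.polar ⇑Q (ω *ᵥ u) w₀ ≠ 0)
    (hE : EIn Q M u w₀) (x : ι → F) (h1 : QuadraticMap.polar ⇑Q u x = 0)
    (h2 : QuadraticMap.polar ⇑Q (ω *ᵥ u) x = 0) : EIn Q M u x := by
  obtain ⟨e, f, he, hf, hQe, hQf, hef⟩ := exists_hyp_in_orth Q S.hQ (Ksp ω u)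
    (by have := finrank_Ksp_le ω u; omega)
  refine sing_induction Q hQe hQf hef (fun x => EIn Q M u x)
    (Cfsg.Agent.Lib.Helper44.orth Q (Ksp ω u)) he hf ?_ ?_ x
    ((mem_orth_Ksp Q ω u x).mpr ⟨h1, h2⟩)
  · intro a b ha hb' pa pb
    exact EIn_add Q S.hQ M hu ((mem_orth_Ksp Q ω u a).mp ha).1
      ((mem_orth_Ksp Q ω u b).mp hb').1 pa pb
  · intro s hs hQs
    have := S.case1_sing hM hu huw hb hE hQs ((mem_orth_Ksp Q ω u s).mp hs).1
      ((mem_orth_Ksp Q ω u s).mp hs).2 0 1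
    simpa using this

/-- Case 1: a root element at `u` outside the `F[ω]`-perp of `u` gives the full root group. -/
theorem UStr.case1 (S : UStr Q ω t N) (hn : 13 ≤ Fintype.card ι)
    {M : Subgroup ↥(Cfsg.isometryGroup F ⇑Q)}
    (hM : TvIn Q ω M) {u w₀ : ι → F} (hu : Q u = 0)
    (huw : QuadraticMap.polar ⇑Q u w₀ = 0) (hb : QuadraticMap.polar ⇑Q (ω *ᵥ u) w₀ ≠ 0)
    (hE : EIn Q M u w₀) : rootIn Q M u := by
  have huu : QuadraticMap.polar ⇑Q u u = 0 := by rw [polar_self_eq, hu, mul_zero]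
  obtain ⟨b, hbd⟩ : ∃ b, b = QuadraticMap.polar ⇑Q (ω *ᵥ u) w₀ := ⟨_, rfl⟩
  rw [← hbd] at hb
  obtain ⟨w₁, hw₁⟩ : ∃ w₁, w₁ = w₀ + (-(Q w₀) / b) • (ω *ᵥ u) := ⟨_, rfl⟩
  have hQw₁ : Q w₁ = 0 := by
    rw [hw₁, QuadraticMap.map_add (⇑Q) w₀, QuadraticMap.map_smul, S.sing_ω hu,
      QuadraticMap.polar_smul_right, QuadraticMap.polar_comm (⇑Q) w₀, ← hbd]
    simp only [smul_eq_mul, mul_zero, add_zero]
    field_simp
    ring
  have huw₁ : QuadraticMap.polar ⇑Q u w₁ = 0 := by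
    rw [hw₁, QuadraticMap.polar_add_right, QuadraticMap.polar_smul_right, huw, S.sing_pol hu]
    simp
  have hbw₁ : QuadraticMap.polar ⇑Q (ω *ᵥ u) w₁ = b := by
    rw [hw₁, QuadraticMap.polar_add_right, QuadraticMap.polar_smul_right, ← hbd, polar_self_eq,
      S.sing_ω hu]
    simp
  have hE₁ : EIn Q M u w₁ := by
    rw [hw₁]
    exact EIn_add Q S.hQ M hu huw
      (by rw [QuadraticMap.polar_smul_right, S.sing_pol hu, smul_zero]) hE (hM u hu _)
  have hw₁u : QuadraticMap.polar ⇑Q w₁ u = 0 := by rw [QuadraticMap.polar_comm]; exact huw₁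
  have hE₂ : EIn Q M w₁ u := by
    have := EIn_neg Q S.hQ M hQw₁ (by rw [QuadraticMap.polar_neg_right, hw₁u, neg_zero])
      (EIn_swap Q M hu hQw₁ hE₁)
    rwa [neg_neg] at this
  have hb₂ : QuadraticMap.polar ⇑Q (ω *ᵥ w₁) u ≠ 0 := by
    rw [S.polL, hw₁u, QuadraticMap.polar_comm (⇑Q) w₁, hbw₁]
    simpa using hb
  have hU := S.case1_U (by omega) hM hu huw (by rw [← hbd]; exact hb) hE
  have hU₁ := S.case1_U (by omega) hM hQw₁ hw₁u hb₂ hE₂
  obtain ⟨e, f, he, hf, hQe, hQf, hef⟩ := exists_hyp_in_orth Q S.hQ (Ksp ω u ⊔ Ksp ω w₁)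
    (by
      have h1 := finrank_Ksp_le ω u
      have h2 := finrank_Ksp_le ω w₁
      have h3 := Submodule.finrank_add_le_finrank_add_finrank (Ksp ω u) (Ksp ω w₁)
      omega)
  have heu := (mem_orth_Ksp Q ω u e).mp (orth_anti Q le_sup_left he)
  have hew := (mem_orth_Ksp Q ω w₁ e).mp (orth_anti Q le_sup_right he)
  have hfu := (mem_orth_Ksp Q ω u f).mp (orth_anti Q le_sup_left hf)
  have hfw := (mem_orth_Ksp Q ω w₁ f).mp (orth_anti Q le_sup_right hf)
  have hd : ∀ c : F, EIn Q M u (c • w₁) := by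
    intro c
    have hpx : QuadraticMap.polar ⇑Q w₁ (c • e) = 0 := by
      rw [QuadraticMap.polar_smul_right, hew.1, smul_zero]
    have hx : EIn Q M w₁ (c • e) := hU₁ _ hpx
      (by rw [QuadraticMap.polar_smul_right, hew.2, smul_zero])
    have hg := hx (eichElt Q S.hQ w₁ (c • e) hQw₁ hpx) rfl
    have hy : EIn Q M u f := hU f hfu.1 hfu.2
    have h5 := EIn_conj Q M hy _ hg
    rw [eichElt_coe, eichMat_mulVec, eichMat_mulVec, hw₁u, hfw.1, QuadraticMap.polar_smul_left,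
      QuadraticMap.polar_smul_left, QuadraticMap.polar_comm (⇑Q) e u, heu.1, hef] at h5
    simp only [mul_zero, zero_smul, add_zero, sub_zero, smul_zero, smul_eq_mul, mul_one] at h5
    have hp : QuadraticMap.polar ⇑Q u (f - c • w₁) = 0 := by
      rw [QuadraticMap.polar_sub_right, QuadraticMap.polar_smul_right, hfu.1, huw₁]
      simp
    have h6 := EIn_sub Q S.hQ M hu hfu.1 hp hy h5
    rwa [sub_sub_cancel] at h6
  intro w hw
  obtain ⟨c, hc⟩ : ∃ c, c = QuadraticMap.polar ⇑Q (ω *ᵥ u) w / b := ⟨_, rfl⟩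
  have hp1 : QuadraticMap.polar ⇑Q u (w - c • w₁) = 0 := by
    rw [QuadraticMap.polar_sub_right, QuadraticMap.polar_smul_right, hw, huw₁]
    simp
  have hp2 : QuadraticMap.polar ⇑Q (ω *ᵥ u) (w - c • w₁) = 0 := by
    rw [QuadraticMap.polar_sub_right, QuadraticMap.polar_smul_right, hbw₁, hc]
    simp only [smul_eq_mul]
    field_simp
    ring
  have h7 : EIn Q M u (w - c • w₁) := hU _ hp1 hp2
  have h8 := EIn_add Q S.hQ M hu hp1
    (by rw [QuadraticMap.polar_smul_right, huw₁, smul_zero]) h7 (hd c)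
  rwa [sub_add_cancel] at h8

/-- Root groups spread along `F[ω]`-non-perpendicular pairs. -/
theorem UStr.spread (S : UStr Q ω t N) (hn : 13 ≤ Fintype.card ι)
    {M : Subgroup ↥(Cfsg.isometryGroup F ⇑Q)}
    (hM : TvIn Q ω M) {u w : ι → F} (hu : Q u = 0) (hw : Q w = 0)
    (huw : QuadraticMap.polar ⇑Q u w = 0) (hne : QuadraticMap.polar ⇑Q (ω *ᵥ u) w ≠ 0)
    (hR : rootIn Q M u) : rootIn Q M w := by
  have hwu : QuadraticMap.polar ⇑Q w u = 0 := by rw [QuadraticMap.polar_comm]; exact huw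
  have hE : EIn Q M u w := hR w huw
  have hE₂ : EIn Q M w u := by
    have := EIn_neg Q S.hQ M hw (by rw [QuadraticMap.polar_neg_right, hwu, neg_zero])
      (EIn_swap Q M hu hw hE)
    rwa [neg_neg] at this
  refine S.case1 hn hM hw hwu ?_ hE₂
  rw [S.polL, hwu, QuadraticMap.polar_comm (⇑Q) w]
  simpa using hne

/-- One full root group forces `Ω ≤ M`. -/
theorem UStr.omega_le (S : UStr Q ω t N) (hn : 13 ≤ Fintype.card ι)
    {M : Subgroup ↥(Cfsg.isometryGroup F ⇑Q)}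
    (hM : TvIn Q ω M) {u : ι → F} (hu : Q u = 0) (hu0 : u ≠ 0) (hR : rootIn Q M u) :
    commutator ↥(Cfsg.isometryGroup F ⇑Q) ≤ M := by
  obtain ⟨w, hQw, hw⟩ := exists_sing_polar_eq Q S.hQ ![u, ω *ᵥ u] (S.indep2 hu0) ![0, 1]
    (by omega)
  have hw0 : QuadraticMap.polar ⇑Q u w = 0 := by simpa using hw 0
  have hw1 : QuadraticMap.polar ⇑Q (ω *ᵥ u) w = 1 := by simpa using hw 1
  have hRw := S.spread hn hM hu hQw hw0 (by rw [hw1]; exact one_ne_zero) hR
  have hwne : w ≠ 0 := by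
    rintro rfl
    rw [QuadraticMap.polar_zero_right] at hw1
    exact zero_ne_one hw1
  have hωwu : QuadraticMap.polar ⇑Q (ω *ᵥ w) u = -1 := by
    rw [S.polL, QuadraticMap.polar_comm (⇑Q) w u, hw0, QuadraticMap.polar_comm (⇑Q) w, hw1]
    ring
  have hli : LinearIndependent F ![u, w, ω *ᵥ w] := by
    refine LinearIndependent.finCons (S.indep2 hwne) (notMem_span_of_polar Q (ω *ᵥ w) ?_ ?_)
    · rintro v ⟨i, rfl⟩
      fin_cases i
      · exact S.sing_pol' hQw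
      · show QuadraticMap.polar ⇑Q (ω *ᵥ w) (ω *ᵥ w) = 0
        rw [polar_self_eq, S.sing_ω hQw, mul_zero]
    · rw [hωwu]
      simp
  obtain ⟨v, hQv, hv⟩ := exists_sing_polar_eq Q S.hQ ![u, w, ω *ᵥ w] hli ![1, 0, 1] (by omega)
  have hv0 : QuadraticMap.polar ⇑Q u v = 1 := by simpa using hv 0
  have hv1 : QuadraticMap.polar ⇑Q w v = 0 := by simpa using hv 1
  have hv2 : QuadraticMap.polar ⇑Q (ω *ᵥ w) v = 1 := by simpa using hv 2
  have hRv := S.spread hn hM hQw hQv hv1 (by rw [hv2]; exact one_ne_zero) hRw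
  apply omega_le_of_rootIn Q S.hQ (by omega) M
  intro r hr
  exact rootIn_all Q S.hQ M hu hQv (by rw [hv0]; exact one_ne_zero) hR hRv r hr

end unitC

end Cfsg.Agent.Lib.Helper14
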