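import Mathlib
import Cfsg.Agent.Lib.Helper14.UnitC

/-!
# Overgroups of the unitary group in `Ω`: a root element inside the `F[ω]`-perp
-/

set_option autoImplicit false

namespace Cfsg.Agent.Lib.Helper14

open Matrix Module

section unitD

variable {ι : Type} [Fintype ι] [DecidableEq ι] {F : Type*} [Field F]
variable {Q : QuadraticForm F (ι → F)} {ω : Matrix ι ι F} {t N : F}

/-- A unitary transvection in `M` moving the singular vector `x` to `y`. -/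
theorem UStr.tv_exists (S : UStr Q ω t N) {M : Subgroup ↥(Cfsg.isometryGroup F ⇑Q)}
    (hM : TvIn Q ω M) {x y : ι → F} (hx : Q x = 0) (hy : Q y = 0)
    (hxy : QuadraticMap.polar ⇑Q x y = 0) (hne : QuadraticMap.polar ⇑Q (ω *ᵥ x) y ≠ 0) :
    ∃ T : ↥(Cfsg.isometryGroup F ⇑Q), T ∈ M ∧
      ((T : Matrix.GeneralLinearGroup ι F) : Matrix ι ι F) *ᵥ x = y ∧
      ∀ v, QuadraticMap.polar ⇑Q x v = 0 → QuadraticMap.polar ⇑Q (ω *ᵥ x) v = 0 →
        QuadraticMap.polar ⇑Q y v = 0 → QuadraticMap.polar ⇑Q (ω *ᵥ y) v = 0 →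
        ((T : Matrix.GeneralLinearGroup ι F) : Matrix ι ι F) *ᵥ v = v := by
  obtain ⟨c, hc⟩ : ∃ c, c = (QuadraticMap.polar ⇑Q (ω *ᵥ x) y)⁻¹ := ⟨_, rfl⟩
  have hxx : QuadraticMap.polar ⇑Q x x = 0 := by rw [polar_self_eq, hx, mul_zero]
  have hd : Q (y - x) = 0 := by
    have := quad_sub_smul Q y x 1
    rw [one_smul] at this
    rw [this, hx, hy, QuadraticMap.polar_comm, hxy]
    ring
  have hperp : QuadraticMap.polar ⇑Q (y - x) (c • (ω *ᵥ (y - x))) = 0 := by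
    rw [QuadraticMap.polar_smul_right, S.sing_pol hd, smul_zero]
  refine ⟨eichElt Q S.hQ (y - x) (c • (ω *ᵥ (y - x))) hd hperp, hM (y - x) hd c _ rfl, ?_, ?_⟩
  · rw [eichElt_coe, S.tv_mulVec hd]
    have p1 : QuadraticMap.polar ⇑Q (y - x) x = 0 := by
      rw [QuadraticMap.polar_sub_left, QuadraticMap.polar_comm (⇑Q) y x, hxy, hxx, sub_zero]
    have p2 : QuadraticMap.polar ⇑Q (ω *ᵥ (y - x)) x = -QuadraticMap.polar ⇑Q (ω *ᵥ x) y := by
      rw [mulVec_sub, QuadraticMap.polar_sub_left, S.sing_pol' hx, S.polL y x,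
        QuadraticMap.polar_comm (⇑Q) y x, hxy, QuadraticMap.polar_comm (⇑Q) y (ω *ᵥ x)]
      ring
    rw [p1, p2, hc, mul_zero, zero_smul, add_zero, mul_neg, inv_mul_cancel₀ hne]
    module
  · intro v h1 h2 h3 h4
    rw [eichElt_coe, S.tv_mulVec hd, QuadraticMap.polar_sub_left, h1, h3, mulVec_sub,
      QuadraticMap.polar_sub_left, h2, h4]
    simp

variable [Fintype F]

/-- Case 2, first step: replace the root element by one along a singular vector. -/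
theorem UStr.case2_sing (S : UStr Q ω t N) (hn : 13 ≤ Fintype.card ι)
    {M : Subgroup ↥(Cfsg.isometryGroup F ⇑Q)}
    (hM : TvIn Q ω M) {u w₀ : ι → F} (hu : Q u = 0)
    (huw : QuadraticMap.polar ⇑Q u w₀ = 0) (huw' : QuadraticMap.polar ⇑Q (ω *ᵥ u) w₀ = 0)
    (hw : w₀ ∉ Ksp ω u) (hE : EIn Q M u w₀) :
    ∃ w, Q w = 0 ∧ QuadraticMap.polar ⇑Q u w = 0 ∧ QuadraticMap.polar ⇑Q (ω *ᵥ u) w = 0 ∧
      w ∉ Ksp ω u ∧ EIn Q M u w := by
  have huu : QuadraticMap.polar ⇑Q u u = 0 := by rw [polar_self_eq, hu, mul_zero]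
  obtain ⟨z, hz, hQz, hzw⟩ : ∃ z ∈ Cfsg.Agent.Lib.Helper44.orth Q (Ksp ω u),
      Q z = 0 ∧ QuadraticMap.polar ⇑Q z w₀ ≠ 0 := by
    by_contra hcon
    push Not at hcon
    obtain ⟨e, f, he, hf, hQe, hQf, hef⟩ := exists_hyp_in_orth Q S.hQ (Ksp ω u)
      (by have := finrank_Ksp_le ω u; omega)
    have hall : ∀ x ∈ Cfsg.Agent.Lib.Helper44.orth Q (Ksp ω u),
        QuadraticMap.polar ⇑Q x w₀ = 0 :=
      sing_induction Q hQe hQf hef (fun x => QuadraticMap.polar ⇑Q x w₀ = 0) _ he hf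
        (fun a b _ _ pa pb => by
          show QuadraticMap.polar ⇑Q (a + b) w₀ = 0
          rw [QuadraticMap.polar_add_left, pa, pb, add_zero])
        (fun s hs hQs => hcon s hs hQs)
    apply hw
    rw [← Cfsg.Agent.Lib.Helper44.orth_orth Q S.hQ (Ksp ω u),
      Cfsg.Agent.Lib.Helper44.mem_orth_iff]
    exact hall
  obtain ⟨hz1, hz2⟩ := (mem_orth_Ksp Q ω u z).mp hz
  have hzu : QuadraticMap.polar ⇑Q z u = 0 := by rw [QuadraticMap.polar_comm]; exact hz1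
  have hωzu : QuadraticMap.polar ⇑Q (ω *ᵥ z) u = 0 := by
    rw [S.polL, hzu, QuadraticMap.polar_comm (⇑Q) z, hz2]
    simp
  have hperp : QuadraticMap.polar ⇑Q z ((1 : F) • (ω *ᵥ z)) = 0 := by
    rw [QuadraticMap.polar_smul_right, S.sing_pol hQz, smul_zero]
  have hg := hM z hQz 1 (eichElt Q S.hQ z ((1 : F) • (ω *ᵥ z)) hQz hperp) rfl
  have h5 := EIn_conj Q M hE _ hg
  rw [eichElt_coe, S.tv_mulVec hQz, S.tv_mulVec hQz, hzu, hωzu] at h5
  simp only [mul_zero, zero_smul, add_zero, sub_zero, one_mul] at h5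
  obtain ⟨a, ha⟩ : ∃ a, a = QuadraticMap.polar ⇑Q z w₀ := ⟨_, rfl⟩
  obtain ⟨b, hb⟩ : ∃ b, b = QuadraticMap.polar ⇑Q (ω *ᵥ z) w₀ := ⟨_, rfl⟩
  rw [← ha] at hzw
  rw [← ha, ← hb] at h5
  have hp1 : QuadraticMap.polar ⇑Q u (a • (ω *ᵥ z) - b • z) = 0 := by
    rw [QuadraticMap.polar_sub_right, QuadraticMap.polar_smul_right,
      QuadraticMap.polar_smul_right, hz1, S.polR u z, hz1, hz2]
    simp
  have hp5 : QuadraticMap.polar ⇑Q u (w₀ + a • (ω *ᵥ z) - b • z) = 0 := by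
    rw [add_sub_assoc, QuadraticMap.polar_add_right, huw, hp1, add_zero]
  have h6 := EIn_sub Q S.hQ M hu hp5 huw h5 hE
  have e : w₀ + a • (ω *ᵥ z) - b • z - w₀ = a • (ω *ᵥ z) - b • z := by abel
  rw [e] at h6
  have hz0 : z ≠ 0 := by
    rintro rfl
    rw [QuadraticMap.polar_zero_left] at ha
    exact hzw ha
  refine ⟨a • (ω *ᵥ z) - b • z, ?_, hp1, ?_, ?_, h6⟩
  · rw [quad_sub_smul, QuadraticMap.map_smul, S.sing_ω hQz, hQz, QuadraticMap.polar_smul_left,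
      S.sing_pol' hQz]
    simp
  · rw [QuadraticMap.polar_sub_right, QuadraticMap.polar_smul_right,
      QuadraticMap.polar_smul_right, hz2, S.polωω, hz1]
    simp
  · intro hmem
    have hmz : a • (ω *ᵥ z) - b • z ∈ Ksp ω z :=
      (mem_Ksp ω z _).mpr ⟨-b, a, by module⟩
    have hne0 : a • (ω *ᵥ z) - b • z ≠ 0 := by
      intro h0
      have h1 := S.indep z hz0 (-b) a (by rw [← h0]; module)
      exact hzw h1.2
    have hzu' : z ∈ Ksp ω u := S.Ksp_le hmem (S.mem_Ksp_symm hmz hne0)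
    obtain ⟨α, β, rfl⟩ := (mem_Ksp ω u z).mp hzu'
    apply hzw
    rw [ha, QuadraticMap.polar_add_left, QuadraticMap.polar_smul_left,
      QuadraticMap.polar_smul_left, huw, huw']
    simp

/-- Case 2, main step: three unitary transvections produce a root element at `u` outside the
`F[ω]`-perp of `u`. -/
theorem UStr.case2_main (S : UStr Q ω t N) (hn : 13 ≤ Fintype.card ι)
    {M : Subgroup ↥(Cfsg.isometryGroup F ⇑Q)}
    (hM : TvIn Q ω M) {u w₀ : ι → F} (hu : Q u = 0) (hu0 : u ≠ 0) (hw₀ : Q w₀ = 0)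
    (huw : QuadraticMap.polar ⇑Q u w₀ = 0) (huw' : QuadraticMap.polar ⇑Q (ω *ᵥ u) w₀ = 0)
    (hw : w₀ ∉ Ksp ω u) (hE : EIn Q M u w₀) :
    ∃ w₁, QuadraticMap.polar ⇑Q u w₁ = 0 ∧ QuadraticMap.polar ⇑Q (ω *ᵥ u) w₁ ≠ 0 ∧
      EIn Q M u w₁ := by
  have huu : QuadraticMap.polar ⇑Q u u = 0 := by rw [polar_self_eq, hu, mul_zero]
  have hww : QuadraticMap.polar ⇑Q w₀ w₀ = 0 := by rw [polar_self_eq, hw₀, mul_zero]
  have hwu : QuadraticMap.polar ⇑Q w₀ u = 0 := by rw [QuadraticMap.polar_comm]; exact huw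
  have hwωu : QuadraticMap.polar ⇑Q w₀ (ω *ᵥ u) = 0 := by
    rw [QuadraticMap.polar_comm]; exact huw'
  have hωwu : QuadraticMap.polar ⇑Q (ω *ᵥ w₀) u = 0 := by
    rw [S.polL, hwu, hwωu]
    simp
  have hωwωu : QuadraticMap.polar ⇑Q (ω *ᵥ w₀) (ω *ᵥ u) = 0 := by
    rw [S.polωω, hwu, mul_zero]
  have hli4 := S.indep4 hu0 hw
  have hli3 : LinearIndependent F ![u, ω *ᵥ u, w₀] := by
    have h := hli4.comp ![2, 3, 0] (by decide)
    convert h using 1
    funext i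
    fin_cases i <;> rfl
  -- the vector `x`
  obtain ⟨x, hQx, hx⟩ := exists_sing_polar_eq Q S.hQ ![w₀, ω *ᵥ w₀, u, ω *ᵥ u] hli4
    ![0, 1, 0, 0] (by omega)
  have hx0 : QuadraticMap.polar ⇑Q w₀ x = 0 := by simpa using hx 0
  have hx1 : QuadraticMap.polar ⇑Q (ω *ᵥ w₀) x = 1 := by simpa using hx 1
  have hx2 : QuadraticMap.polar ⇑Q u x = 0 := by simpa using hx 2
  have hx3 : QuadraticMap.polar ⇑Q (ω *ᵥ u) x = 0 := by simpa using hx 3
  have hxx : QuadraticMap.polar ⇑Q x x = 0 := by rw [polar_self_eq, hQx, mul_zero]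
  have hxu : QuadraticMap.polar ⇑Q x u = 0 := by rw [QuadraticMap.polar_comm]; exact hx2
  have hxw : QuadraticMap.polar ⇑Q x w₀ = 0 := by rw [QuadraticMap.polar_comm]; exact hx0
  have hxωu : QuadraticMap.polar ⇑Q x (ω *ᵥ u) = 0 := by rw [QuadraticMap.polar_comm]; exact hx3
  have hωxu : QuadraticMap.polar ⇑Q (ω *ᵥ x) u = 0 := by
    rw [S.polL, hxu, hxωu]
    simp
  have hωxωu : QuadraticMap.polar ⇑Q (ω *ᵥ x) (ω *ᵥ u) = 0 := by rw [S.polωω, hxu, mul_zero]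
  have hwωx : QuadraticMap.polar ⇑Q w₀ (ω *ᵥ x) = -1 := by
    rw [S.polR, hx0, hx1]
    ring
  have hωxw : QuadraticMap.polar ⇑Q (ω *ᵥ x) w₀ = -1 := by
    rw [QuadraticMap.polar_comm]; exact hwωx
  obtain ⟨T₂, hT₂M, hT₂x, hT₂fix⟩ := S.tv_exists hM hw₀ hQx hx0 (by rw [hx1]; exact one_ne_zero)
  have hEux : EIn Q M u x := by
    have h := EIn_conj Q M hE T₂ hT₂M
    rw [hT₂x, hT₂fix u hwu hωwu hxu hωxu] at h
    exact h
  -- the vector `w'`
  have hli5 : LinearIndependent F ![x, ω *ᵥ x, u, ω *ᵥ u, w₀] := by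
    refine LinearIndependent.finCons (LinearIndependent.finCons hli3
      (notMem_span_of_polar Q w₀ ?_ ?_)) (notMem_span_of_polar Q (ω *ᵥ w₀) ?_ ?_)
    · rintro v ⟨i, rfl⟩
      fin_cases i
      · exact hwu
      · exact hwωu
      · exact hww
    · rw [hwωx]
      simp
    · rintro v ⟨i, rfl⟩
      fin_cases i
      · show QuadraticMap.polar ⇑Q (ω *ᵥ w₀) (ω *ᵥ x) = 0
        rw [S.polωω, hx0, mul_zero]
      · exact hωwu
      · exact hωwωu
      · exact S.sing_pol' hw₀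
    · rw [hx1]
      exact one_ne_zero
  obtain ⟨w', hQw', hw'⟩ := exists_sing_polar_eq Q S.hQ ![x, ω *ᵥ x, u, ω *ᵥ u, w₀] hli5
    ![0, 1, 0, 0, 1] (by omega)
  have hw'0 : QuadraticMap.polar ⇑Q x w' = 0 := by simpa using hw' 0
  have hw'1 : QuadraticMap.polar ⇑Q (ω *ᵥ x) w' = 1 := by simpa using hw' 1
  have hw'2 : QuadraticMap.polar ⇑Q u w' = 0 := by simpa using hw' 2
  have hw'3 : QuadraticMap.polar ⇑Q (ω *ᵥ u) w' = 0 := by simpa using hw' 3
  have hw'4 : QuadraticMap.polar ⇑Q w₀ w' = 1 := by simpa using hw' 4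
  have hw'w' : QuadraticMap.polar ⇑Q w' w' = 0 := by rw [polar_self_eq, hQw', mul_zero]
  have hw'u : QuadraticMap.polar ⇑Q w' u = 0 := by rw [QuadraticMap.polar_comm]; exact hw'2
  have hw'ωu : QuadraticMap.polar ⇑Q w' (ω *ᵥ u) = 0 := by
    rw [QuadraticMap.polar_comm]; exact hw'3
  have hωw'u : QuadraticMap.polar ⇑Q (ω *ᵥ w') u = 0 := by
    rw [S.polL, hw'u, hw'ωu]
    simp
  obtain ⟨T₃, hT₃M, hT₃x, hT₃fix⟩ := S.tv_exists hM hQx hQw' hw'0
    (by rw [hw'1]; exact one_ne_zero)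
  have hEuw' : EIn Q M u w' := by
    have h := EIn_conj Q M hEux T₃ hT₃M
    rw [hT₃x, hT₃fix u hxu hωxu hw'u hωw'u] at h
    exact h
  -- the vector `z`
  have hxωw' : QuadraticMap.polar ⇑Q x (ω *ᵥ w') = -1 := by
    rw [S.polR, hw'0, hw'1]
    ring
  have hli5' : LinearIndependent F ![w', ω *ᵥ w', u, ω *ᵥ u, w₀] := by
    refine LinearIndependent.finCons (LinearIndependent.finCons hli3
      (notMem_span_of_polar Q x ?_ ?_)) (notMem_span_of_polar Q (ω *ᵥ x + w') ?_ ?_)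
    · rintro v ⟨i, rfl⟩
      fin_cases i
      · exact hxu
      · exact hxωu
      · exact hxw
    · rw [hxωw']
      simp
    · rintro v ⟨i, rfl⟩
      fin_cases i
      · show QuadraticMap.polar ⇑Q (ω *ᵥ x + w') (ω *ᵥ w') = 0
        rw [QuadraticMap.polar_add_left, S.polωω, hw'0, S.sing_pol hQw']
        simp
      · show QuadraticMap.polar ⇑Q (ω *ᵥ x + w') u = 0
        rw [QuadraticMap.polar_add_left, hωxu, hw'u, add_zero]
      · show QuadraticMap.polar ⇑Q (ω *ᵥ x + w') (ω *ᵥ u) = 0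
        rw [QuadraticMap.polar_add_left, hωxωu, hw'ωu, add_zero]
      · show QuadraticMap.polar ⇑Q (ω *ᵥ x + w') w₀ = 0
        rw [QuadraticMap.polar_add_left, hωxw, QuadraticMap.polar_comm (⇑Q) w' w₀, hw'4]
        ring
    · rw [QuadraticMap.polar_add_left, hw'1, hw'w', add_zero]
      exact one_ne_zero
  obtain ⟨z, hQz, hz⟩ := exists_sing_polar_eq Q S.hQ ![w', ω *ᵥ w', u, ω *ᵥ u, w₀] hli5'
    ![0, 0, 0, 1, 0] (by omega)
  have hz0 : QuadraticMap.polar ⇑Q w' z = 0 := by simpa using hz 0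
  have hz1 : QuadraticMap.polar ⇑Q (ω *ᵥ w') z = 0 := by simpa using hz 1
  have hz2 : QuadraticMap.polar ⇑Q u z = 0 := by simpa using hz 2
  have hz3 : QuadraticMap.polar ⇑Q (ω *ᵥ u) z = 1 := by simpa using hz 3
  have hz4 : QuadraticMap.polar ⇑Q w₀ z = 0 := by simpa using hz 4
  have hzw' : QuadraticMap.polar ⇑Q z w' = 0 := by rw [QuadraticMap.polar_comm]; exact hz0
  have hzu : QuadraticMap.polar ⇑Q z u = 0 := by rw [QuadraticMap.polar_comm]; exact hz2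
  have hzw : QuadraticMap.polar ⇑Q z w₀ = 0 := by rw [QuadraticMap.polar_comm]; exact hz4
  have hωzw' : QuadraticMap.polar ⇑Q (ω *ᵥ z) w' = 0 := by
    rw [S.polL, hzw', QuadraticMap.polar_comm (⇑Q) z, hz1]
    simp
  obtain ⟨T₁, hT₁M, hT₁u, hT₁fix⟩ := S.tv_exists hM hu hQz hz2
    (by rw [hz3]; exact one_ne_zero)
  have hEzw' : EIn Q M z w' := by
    have h := EIn_conj Q M hEuw' T₁ hT₁M
    rw [hT₁u, hT₁fix w' hw'2 hw'3 hzw' hωzw'] at h
    exact h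
  have hg := hEzw' (eichElt Q S.hQ z w' hQz hzw') rfl
  have h5 := EIn_conj Q M hE _ hg
  rw [eichElt_coe, eichMat_mulVec, eichMat_mulVec, hzu, hw'u, hzw, hQw',
    QuadraticMap.polar_comm (⇑Q) w' w₀, hw'4] at h5
  simp only [mul_zero, zero_smul, add_zero, sub_zero, one_smul] at h5
  refine ⟨w₀ - z, ?_, ?_, h5⟩
  · rw [QuadraticMap.polar_sub_right, huw, hz2, sub_zero]
  · rw [QuadraticMap.polar_sub_right, huw', hz3]
    simp

/-- A root element of `M` at `u` not along the `F[ω]`-line of `u` gives the full root group. -/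
theorem UStr.case2 (S : UStr Q ω t N) (hn : 13 ≤ Fintype.card ι)
    {M : Subgroup ↥(Cfsg.isometryGroup F ⇑Q)}
    (hM : TvIn Q ω M) {u w₀ : ι → F} (hu : Q u = 0) (hu0 : u ≠ 0)
    (huw : QuadraticMap.polar ⇑Q u w₀ = 0) (hw : w₀ ∉ Ksp ω u) (hE : EIn Q M u w₀) :
    rootIn Q M u := by
  by_cases hb : QuadraticMap.polar ⇑Q (ω *ᵥ u) w₀ = 0
  · obtain ⟨w, hQw, h1, h2, h3, h4⟩ := S.case2_sing hn hM hu huw hb hw hE
    obtain ⟨w₁, h5, h6, h7⟩ := S.case2_main hn hM hu hu0 hQw h1 h2 h3 h4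
    exact S.case1 hn hM hu h5 h6 h7
  · exact S.case1 hn hM hu huw hb hE

/-- Any overgroup of the unitary transvections containing an "irrational" root element
contains `Ω`. -/
theorem UStr.omega_le_of_irrational (S : UStr Q ω t N) (hn : 13 ≤ Fintype.card ι)
    {M : Subgroup ↥(Cfsg.isometryGroup F ⇑Q)}
    (hM : TvIn Q ω M) {u w₀ : ι → F} (hu : Q u = 0) (hu0 : u ≠ 0)
    (huw : QuadraticMap.polar ⇑Q u w₀ = 0) (hw : w₀ ∉ Ksp ω u) (hE : EIn Q M u w₀) :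
    commutator ↥(Cfsg.isometryGroup F ⇑Q) ≤ M :=
  S.omega_le hn hM hu hu0 (S.case2 hn hM hu hu0 huw hw hE)

end unitD

end Cfsg.Agent.Lib.Helper14
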