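import Mathlib
import Cfsg.Agent.Lib.Helper14.UnitD

/-!
# The normaliser of `F[ω]` in `Ω`: overgroup dichotomy
-/

set_option autoImplicit false

namespace Cfsg.Agent.Lib.Helper14

open Matrix Module

section unitE

variable {ι : Type} [Fintype ι] [DecidableEq ι] {F : Type*} [Field F] [Fintype F]
variable {Q : QuadraticForm F (ι → F)} {ω : Matrix ι ι F} {t N : F}

/-- A matrix preserving every `F[ω]`-line through a singular vector lies in `F[ω]`. -/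
theorem UStr.proj (S : UStr Q ω t N) (hn : 9 ≤ Fintype.card ι) (A : Matrix ι ι F)
    (hA : ∀ z, Q z = 0 → A *ᵥ z ∈ Ksp ω z) : ∃ a b : F, A = a • (1 : Matrix ι ι F) + b • ω := by
  have key2 : ∀ z₁ z₂ : ι → F, Q z₁ = 0 → Q z₂ = 0 → z₁ ≠ 0 → z₂ ≠ 0 →
      QuadraticMap.polar ⇑Q z₁ z₂ = 0 → z₂ ∉ Ksp ω z₁ → ∀ a₁ b₁ a₂ b₂ : F,
      A *ᵥ z₁ = a₁ • z₁ + b₁ • (ω *ᵥ z₁) → A *ᵥ z₂ = a₂ • z₂ + b₂ • (ω *ᵥ z₂) →
      a₁ = a₂ ∧ b₁ = b₂ := by
    intro z₁ z₂ h1 h2 h10 h20 h12 hnm a₁ b₁ a₂ b₂ e1 e2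
    have h3 : Q (z₁ + z₂) = 0 := by
      rw [QuadraticMap.map_add (⇑Q) z₁ z₂, h1, h2, h12]
      simp
    obtain ⟨a₃, b₃, e3⟩ := (mem_Ksp ω _ _).mp (hA (z₁ + z₂) h3)
    rw [mulVec_add, e1, e2, mulVec_add] at e3
    have hv : (a₃ - a₁) • z₁ + (b₃ - b₁) • (ω *ᵥ z₁) =
        (a₂ - a₃) • z₂ + (b₂ - b₃) • (ω *ᵥ z₂) := by
      have e4 : a₁ • z₁ + b₁ • (ω *ᵥ z₁) + (a₂ • z₂ + b₂ • (ω *ᵥ z₂)) -
          (a₃ • (z₁ + z₂) + b₃ • (ω *ᵥ z₁ + ω *ᵥ z₂)) = 0 := by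
        rw [e3, sub_self]
      rw [← sub_eq_zero, ← neg_eq_zero, ← e4]
      module
    have hv0 : (a₃ - a₁) • z₁ + (b₃ - b₁) • (ω *ᵥ z₁) = 0 :=
      S.Ksp_inf hnm ((mem_Ksp ω z₁ _).mpr ⟨_, _, rfl⟩)
        ((mem_Ksp ω z₂ _).mpr ⟨_, _, hv⟩)
    have hv0' : (a₂ - a₃) • z₂ + (b₂ - b₃) • (ω *ᵥ z₂) = 0 := by rw [← hv]; exact hv0
    obtain ⟨p1, p2⟩ := S.indep z₁ h10 _ _ hv0
    obtain ⟨p3, p4⟩ := S.indep z₂ h20 _ _ hv0'
    constructor
    · linear_combination -p1 - p3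
    · linear_combination -p2 - p4
  have key3 : ∀ z₁ z₂ : ι → F, Q z₁ = 0 → Q z₂ = 0 → z₁ ≠ 0 → z₂ ≠ 0 → ∀ a₁ b₁ a₂ b₂ : F,
      A *ᵥ z₁ = a₁ • z₁ + b₁ • (ω *ᵥ z₁) → A *ᵥ z₂ = a₂ • z₂ + b₂ • (ω *ᵥ z₂) →
      a₁ = a₂ ∧ b₁ = b₂ := by
    intro z₁ z₂ h1 h2 h10 h20 a₁ b₁ a₂ b₂ e1 e2
    have hf1 := Cfsg.Agent.Lib.Helper44.finrank_orth Q S.hQ
      (Submodule.span F {z₁} ⊔ Submodule.span F {z₂})
    rw [Module.finrank_fintype_fun_eq_card] at hf1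
    have hf2 := Submodule.finrank_add_le_finrank_add_finrank (Submodule.span F {z₁})
      (Submodule.span F {z₂})
    have hf3 := Cfsg.Agent.Lib.Helper44.finrank_span_singleton_le_one (F := F) z₁
    have hf4 := Cfsg.Agent.Lib.Helper44.finrank_span_singleton_le_one (F := F) z₂
    have hf5 := Submodule.finrank_add_le_finrank_add_finrank (Ksp ω z₁) (Ksp ω z₂)
    have hf6 := finrank_Ksp_le ω z₁
    have hf7 := finrank_Ksp_le ω z₂
    obtain ⟨y, hy, hyn, hQy⟩ := exists_sing_notMem Q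
      (Cfsg.Agent.Lib.Helper44.orth Q (Submodule.span F {z₁} ⊔ Submodule.span F {z₂}))
      (Ksp ω z₁ ⊔ Ksp ω z₂) (by omega)
    rw [Cfsg.Agent.Lib.Helper44.mem_orth_iff] at hy
    have hy1 : QuadraticMap.polar ⇑Q z₁ y = 0 :=
      hy z₁ (Submodule.mem_sup_left (Submodule.mem_span_singleton_self z₁))
    have hy2 : QuadraticMap.polar ⇑Q z₂ y = 0 :=
      hy z₂ (Submodule.mem_sup_right (Submodule.mem_span_singleton_self z₂))
    have hy0 : y ≠ 0 := by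
      rintro rfl
      exact hyn (Submodule.zero_mem _)
    obtain ⟨a₃, b₃, e3⟩ := (mem_Ksp ω _ _).mp (hA y hQy)
    have r1 := key2 z₁ y h1 hQy h10 hy0 hy1 (fun h => hyn (Submodule.mem_sup_left h))
      a₁ b₁ a₃ b₃ e1 e3
    have r2 := key2 z₂ y h2 hQy h20 hy0 hy2 (fun h => hyn (Submodule.mem_sup_right h))
      a₂ b₂ a₃ b₃ e2 e3
    exact ⟨r1.1.trans r2.1.symm, r1.2.trans r2.2.symm⟩
  obtain ⟨e, f, -, -, hQe, hQf, hef⟩ := exists_hyp_in_orth Q S.hQ ⊥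
    (by rw [finrank_bot]; omega)
  have he0 : e ≠ 0 := by
    rintro rfl
    rw [QuadraticMap.polar_zero_left] at hef
    exact zero_ne_one hef
  obtain ⟨a, b, eab⟩ := (mem_Ksp ω _ _).mp (hA e hQe)
  refine ⟨a, b, ?_⟩
  rw [ext_iff_mulVec]
  intro x
  refine sing_induction Q hQe hQf hef
    (fun x => A *ᵥ x = (a • (1 : Matrix ι ι F) + b • ω) *ᵥ x) ⊤ Submodule.mem_top
    Submodule.mem_top ?_ ?_ x Submodule.mem_top
  · intro p q _ _ hp hq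
    show A *ᵥ (p + q) = (a • (1 : Matrix ι ι F) + b • ω) *ᵥ (p + q)
    rw [mulVec_add, mulVec_add, hp, hq]
  · intro s _ hQs
    show A *ᵥ s = (a • (1 : Matrix ι ι F) + b • ω) *ᵥ s
    rw [add_mulVec, smul_mulVec, smul_mulVec, one_mulVec]
    by_cases hs0 : s = 0
    · rw [hs0]
      simp
    · obtain ⟨a', b', e'⟩ := (mem_Ksp ω _ _).mp (hA s hQs)
      obtain ⟨r1, r2⟩ := key3 e s hQe hQs he0 hs0 a b a' b' eab e'
      rw [e', r1, r2]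

/-- Some element of `Ω` does not normalise `F[ω]`. -/
theorem UStr.exists_not_norm (S : UStr Q ω t N) (hn : 13 ≤ Fintype.card ι) :
    ∃ g ∈ commutator ↥(Cfsg.isometryGroup F ⇑Q), ¬ ∃ a b : F,
      ((g : Matrix.GeneralLinearGroup ι F) : Matrix ι ι F) * ω =
        (a • (1 : Matrix ι ι F) + b • ω) * ((g : Matrix.GeneralLinearGroup ι F) : Matrix ι ι F) := by
  obtain ⟨u, f, -, -, hu, hQf, hef⟩ := exists_hyp_in_orth Q S.hQ ⊥
    (by rw [finrank_bot]; omega)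
  have hu0 : u ≠ 0 := by
    rintro rfl
    rw [QuadraticMap.polar_zero_left] at hef
    exact zero_ne_one hef
  have hf1 := Cfsg.Agent.Lib.Helper44.finrank_orth Q S.hQ (Submodule.span F {u})
  rw [Module.finrank_fintype_fun_eq_card] at hf1
  have hf2 := Cfsg.Agent.Lib.Helper44.finrank_span_singleton_le_one (F := F) u
  have hf3 := finrank_Ksp_le ω u
  obtain ⟨w₀, hw₀, hw₀n, hQw₀⟩ := exists_sing_notMem Q
    (Cfsg.Agent.Lib.Helper44.orth Q (Submodule.span F {u})) (Ksp ω u) (by omega)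
  rw [Cfsg.Agent.Lib.Helper44.mem_orth_iff] at hw₀
  have huw : QuadraticMap.polar ⇑Q u w₀ = 0 := hw₀ u (Submodule.mem_span_singleton_self u)
  have hw₀0 : w₀ ≠ 0 := by
    rintro rfl
    exact hw₀n (Submodule.zero_mem _)
  refine ⟨eichElt Q S.hQ u w₀ hu huw, eich_mem_omega Q S.hQ (by omega) hu huw _ rfl, ?_⟩
  rintro ⟨a, b, hab⟩
  rw [eichElt_coe] at hab
  -- a vector fixed together with its `ω`-image
  have hf4 := Cfsg.Agent.Lib.Helper44.finrank_orth Q S.hQ (Ksp ω u ⊔ Ksp ω w₀)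
  rw [Module.finrank_fintype_fun_eq_card] at hf4
  have hf5 := Submodule.finrank_add_le_finrank_add_finrank (Ksp ω u) (Ksp ω w₀)
  have hf6 := finrank_Ksp_le ω w₀
  obtain ⟨v, hv, hv0⟩ := exists_ne_zero_of_finrank_pos
    (M := Cfsg.Agent.Lib.Helper44.orth Q (Ksp ω u ⊔ Ksp ω w₀)) (by omega)
  obtain ⟨hv1, hv2⟩ := (mem_orth_Ksp Q ω u v).mp (orth_anti Q le_sup_left hv)
  obtain ⟨hv3, hv4⟩ := (mem_orth_Ksp Q ω w₀ v).mp (orth_anti Q le_sup_right hv)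
  have hEv : eichMat Q u w₀ *ᵥ v = v := by
    rw [eichMat_mulVec, hv1, hv3]
    simp
  have hEωv : eichMat Q u w₀ *ᵥ (ω *ᵥ v) = ω *ᵥ v := by
    rw [eichMat_mulVec, S.polR u v, S.polR w₀ v, hv1, hv2, hv3, hv4]
    simp
  have h1 := congrArg (fun m : Matrix ι ι F => m *ᵥ v) hab
  simp only [← mulVec_mulVec] at h1
  rw [hEωv, hEv, add_mulVec, smul_mulVec, smul_mulVec, one_mulVec] at h1
  have h2 : a • v + (b - 1) • (ω *ᵥ v) = 0 := by
    rw [sub_smul, one_smul, ← add_sub_assoc, ← h1, sub_self]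
  obtain ⟨ha, hb⟩ := S.indep v hv0 _ _ h2
  have hb1 : b = 1 := sub_eq_zero.mp hb
  rw [ha, hb1, zero_smul, zero_add, one_smul] at hab
  -- now `E` commutes with `ω`
  have hliuw : LinearIndependent F ![u, w₀] := by
    rw [LinearIndependent.pair_iff]
    intro s r hsr
    have hr : r = 0 := by
      by_contra hr
      apply hw₀n
      rw [mem_Ksp]
      refine ⟨-(r⁻¹ * s), 0, ?_⟩
      have e1 : r • w₀ = -(s • u) := by
        rw [eq_neg_iff_add_eq_zero, add_comm]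
        exact hsr
      have e2 : w₀ = r⁻¹ • (r • w₀) := by rw [smul_smul, inv_mul_cancel₀ hr, one_smul]
      rw [e2, e1]
      module
    refine ⟨?_, hr⟩
    rw [hr, zero_smul, add_zero] at hsr
    rcases smul_eq_zero.mp hsr with h | h
    · exact h
    · exact absurd h hu0
  obtain ⟨v₂, hv₂⟩ := exists_polar_eq Q S.hQ ![u, w₀] hliuw ![1, 0]
  have hv₂0 : QuadraticMap.polar ⇑Q u v₂ = 1 := by simpa using hv₂ 0
  have hv₂1 : QuadraticMap.polar ⇑Q w₀ v₂ = 0 := by simpa using hv₂ 1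
  have h3 := congrArg (fun m : Matrix ι ι F => m *ᵥ v₂) hab
  simp only [← mulVec_mulVec] at h3
  rw [eichMat_mulVec Q u w₀ v₂, eichMat_mulVec, hv₂0, hv₂1, hQw₀] at h3
  simp only [mul_one, add_zero, zero_smul, sub_zero, one_smul, mulVec_add, zero_mul] at h3
  -- h3 : ω v₂ + polar u (ω v₂) • w₀ - (polar w₀ (ω v₂)) • u = ω v₂ + ω w₀
  have h4 : (-QuadraticMap.polar ⇑Q u (ω *ᵥ v₂)) • w₀ + (1 : F) • (ω *ᵥ w₀) =
      (-QuadraticMap.polar ⇑Q w₀ (ω *ᵥ v₂)) • u + (0 : F) • (ω *ᵥ u) := by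
    have h5 : ω *ᵥ w₀ = QuadraticMap.polar ⇑Q u (ω *ᵥ v₂) • w₀ -
        QuadraticMap.polar ⇑Q w₀ (ω *ᵥ v₂) • u := by
      have h6 : ω *ᵥ v₂ + QuadraticMap.polar ⇑Q u (ω *ᵥ v₂) • w₀ -
          QuadraticMap.polar ⇑Q w₀ (ω *ᵥ v₂) • u - ω *ᵥ v₂ = ω *ᵥ w₀ := by
        rw [h3]
        abel
      rw [← h6]
      abel
    rw [h5]
    module
  have h7 : (-QuadraticMap.polar ⇑Q u (ω *ᵥ v₂)) • w₀ + (1 : F) • (ω *ᵥ w₀) = 0 :=
    S.Ksp_inf hw₀n ((mem_Ksp ω u _).mpr ⟨_, _, h4⟩) ((mem_Ksp ω w₀ _).mpr ⟨_, _, rfl⟩)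
  exact one_ne_zero (S.indep w₀ hw₀0 _ _ h7).2

/-- Overgroup dichotomy: a subgroup of the isometry group containing all unitary transvections
either normalises `F[ω]` or contains `Ω`. -/
theorem UStr.core (S : UStr Q ω t N) (hn : 13 ≤ Fintype.card ι)
    (M : Subgroup ↥(Cfsg.isometryGroup F ⇑Q)) (hM : TvIn Q ω M) :
    (∀ g ∈ M, ∃ a b : F, ((g : Matrix.GeneralLinearGroup ι F) : Matrix ι ι F) * ω =
        (a • (1 : Matrix ι ι F) + b • ω) * ((g : Matrix.GeneralLinearGroup ι F) : Matrix ι ι F)) ∨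
      commutator ↥(Cfsg.isometryGroup F ⇑Q) ≤ M := by
  by_cases h : ∃ u w : ι → F, Q u = 0 ∧ u ≠ 0 ∧ QuadraticMap.polar ⇑Q u w = 0 ∧ EIn Q M u w ∧
      w ∉ Ksp ω u
  · obtain ⟨u, w, hu, hu0, huw, hE, hw⟩ := h
    right
    exact S.omega_le_of_irrational hn hM hu hu0 huw hw hE
  · left
    push Not at h
    intro g hg
    obtain ⟨A, hAdef⟩ : ∃ A, A = ((g : Matrix.GeneralLinearGroup ι F) : Matrix ι ι F) * ω *
        (((g⁻¹ : ↥(Cfsg.isometryGroup F ⇑Q)) : Matrix.GeneralLinearGroup ι F) : Matrix ι ι F) :=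
      ⟨_, rfl⟩
    have hA : ∀ z, Q z = 0 → A *ᵥ z ∈ Ksp ω z := by
      intro z hz
      by_cases hz0 : z = 0
      · rw [hz0, mulVec_zero]
        exact Submodule.zero_mem _
      obtain ⟨z', hz'⟩ : ∃ z', z' = (((g⁻¹ : ↥(Cfsg.isometryGroup F ⇑Q)) :
          Matrix.GeneralLinearGroup ι F) : Matrix ι ι F) *ᵥ z := ⟨_, rfl⟩
      have hQz' : Q z' = 0 := by
        rw [hz']
        exact (isom_preserves g⁻¹ z).trans hz
      have hgz' : ((g : Matrix.GeneralLinearGroup ι F) : Matrix ι ι F) *ᵥ z' = z := by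
        rw [hz', isom_mulVec_inv]
      have hAz : A *ᵥ z = ((g : Matrix.GeneralLinearGroup ι F) : Matrix ι ι F) *ᵥ
          (ω *ᵥ z') := by
        rw [hAdef, ← mulVec_mulVec, ← mulVec_mulVec, ← hz']
      have h1 := EIn_conj Q M (hM z' hQz' 1) g hg
      rw [one_smul, hgz', ← hAz] at h1
      apply h z (A *ᵥ z) hz hz0 _ h1
      rw [hAz, ← hgz', polar_mulVec Q _ (isom_preserves g), S.sing_pol hQz']
    obtain ⟨a, b, hab⟩ := S.proj (by omega) A hA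
    refine ⟨a, b, ?_⟩
    rw [← hab, hAdef, mul_assoc, mul_assoc, ← Units.val_mul, ← Subgroup.coe_mul, inv_mul_cancel,
      Subgroup.coe_one, Units.val_one, mul_one]

end unitE

end Cfsg.Agent.Lib.Helper14
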