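import Mathlib
import Cfsg.Agent.Lib.Helper14.UnitE
import Cfsg.Agent.Lib.Helper14.TSMax

/-!
# Maximality of the normaliser of a quadratic field of similitudes (type `GU_{n/2}(q)`) in `Ω`
-/

set_option autoImplicit false

namespace Cfsg.Agent.Lib.Helper14

open Matrix Module

section unitF

variable {ι : Type} [Fintype ι] [DecidableEq ι] {F : Type*} [Field F]

/-- A degree-two field of similitudes of `Q` is `F[ω]` for a suitable `ω`. -/
theorem exists_UStr [Nonempty ι] (Q : QuadraticForm F (ι → F))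
    (hQ : (QuadraticMap.polarBilin Q).Nondegenerate)
    (K : Subalgebra F (Matrix ι ι F)) (hK : Cfsg.Geo.IsFieldSubalgebra 2 K)
    (hsc : ∀ k ∈ K, ∃ c : F, ∀ v : ι → F, Q (k *ᵥ v) = c * Q v) :
    ∃ (ω : Matrix ι ι F) (t N : F), ω ∈ K ∧ UStr Q ω t N ∧
      ∀ k ∈ K, ∃ a b : F, k = a • (1 : Matrix ι ι F) + b • ω := by
  -- a non-scalar element
  obtain ⟨ω, hωK, hω⟩ : ∃ ω ∈ K, ∀ a : F, ω ≠ a • (1 : Matrix ι ι F) := by
    by_contra hcon
    push Not at hcon
    have h1 : finrank F K ≤ 1 := by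
      apply finrank_le_one (1 : K)
      intro w
      obtain ⟨a, ha⟩ := hcon w w.2
      refine ⟨a, Subtype.ext ?_⟩
      rw [ha]
      rfl
    rw [hK.finrank_eq] at h1
    omega
  obtain ⟨i₀⟩ := ‹Nonempty ι›
  have hind : ∀ a b : F, a • (1 : Matrix ι ι F) + b • ω = 0 → a = 0 ∧ b = 0 := by
    intro a b h
    have hb : b = 0 := by
      by_contra hb
      apply hω (-(b⁻¹ * a))
      have e1 : b • ω = -(a • (1 : Matrix ι ι F)) := by
        rw [eq_neg_iff_add_eq_zero, add_comm]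
        exact h
      have e2 : ω = b⁻¹ • (b • ω) := by rw [smul_smul, inv_mul_cancel₀ hb, one_smul]
      rw [e2, e1]
      module
    refine ⟨?_, hb⟩
    rw [hb, zero_smul, add_zero] at h
    have h2 := congrArg (fun m : Matrix ι ι F => m i₀ i₀) h
    simpa using h2
  have hspan : ∀ k ∈ K, ∃ a b : F, k = a • (1 : Matrix ι ι F) + b • ω := by
    intro k hk
    have hnli : ¬ LinearIndependent F ![(1 : K), ⟨ω, hωK⟩, ⟨k, hk⟩] := by
      intro hli
      have := hli.fintype_card_le_finrank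
      rw [hK.finrank_eq, Fintype.card_fin] at this
      omega
    rw [Fintype.not_linearIndependent_iff] at hnli
    obtain ⟨g, hg, i, hi⟩ := hnli
    rw [Fin.sum_univ_three] at hg
    have hg' : g 0 • (1 : Matrix ι ι F) + g 1 • ω + g 2 • k = 0 := by
      have := congrArg (Subtype.val) hg
      simpa using this
    by_cases h2 : g 2 = 0
    · rw [h2, zero_smul, add_zero] at hg'
      obtain ⟨h0, h1⟩ := hind _ _ hg'
      exfalso
      fin_cases i
      · exact hi h0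
      · exact hi h1
      · exact hi h2
    · refine ⟨-((g 2)⁻¹ * g 0), -((g 2)⁻¹ * g 1), ?_⟩
      have e1 : g 2 • k = -(g 0 • (1 : Matrix ι ι F) + g 1 • ω) := by
        rw [eq_neg_iff_add_eq_zero, add_comm]
        exact hg'
      have e2 : k = (g 2)⁻¹ • (g 2 • k) := by rw [smul_smul, inv_mul_cancel₀ h2, one_smul]
      rw [e2, e1]
      module
  obtain ⟨a₀, b₀, hsq⟩ := hspan (ω * ω) (K.mul_mem hωK hωK)
  obtain ⟨μ, hμ⟩ := hsc ω hωK
  obtain ⟨c₁, hc₁⟩ := hsc (1 + ω) (K.add_mem K.one_mem hωK)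
  have hsqv : ∀ x, ω *ᵥ (ω *ᵥ x) = b₀ • (ω *ᵥ x) - (-a₀) • x := by
    intro x
    rw [mulVec_mulVec, hsq, add_mulVec, smul_mulVec, smul_mulVec, one_mulVec]
    module
  have hpol : ∀ v, QuadraticMap.polar ⇑Q v (ω *ᵥ v) = (c₁ - 1 - μ) * Q v := by
    intro v
    have h := hc₁ v
    rw [add_mulVec, one_mulVec, QuadraticMap.map_add (⇑Q) v (ω *ᵥ v), hμ] at h
    linear_combination h
  have hP1 : ∀ x y, QuadraticMap.polar ⇑Q (ω *ᵥ x) (ω *ᵥ y) = μ * QuadraticMap.polar ⇑Q x y := by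
    intro x y
    unfold QuadraticMap.polar
    rw [← mulVec_add, hμ, hμ, hμ]
    ring
  have hP2 : ∀ x y, QuadraticMap.polar ⇑Q (ω *ᵥ x) y + QuadraticMap.polar ⇑Q x (ω *ᵥ y) =
      (c₁ - 1 - μ) * QuadraticMap.polar ⇑Q x y := by
    intro x y
    have h := hpol (x + y)
    rw [mulVec_add, QuadraticMap.polar_add_left, QuadraticMap.polar_add_right,
      QuadraticMap.polar_add_right, hpol, hpol, QuadraticMap.map_add (⇑Q) x y] at h
    rw [QuadraticMap.polar_comm (⇑Q) (ω *ᵥ x) y]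
    linear_combination h
  have hzero : ∀ y : ι → F, (μ - (-a₀)) • y + (b₀ - (c₁ - 1 - μ)) • (ω *ᵥ y) = 0 := by
    intro y
    apply hQ.1
    intro x
    show QuadraticMap.polar ⇑Q _ x = 0
    rw [QuadraticMap.polar_comm, QuadraticMap.polar_add_right, QuadraticMap.polar_smul_right,
      QuadraticMap.polar_smul_right]
    have h := hP2 x (ω *ᵥ y)
    rw [hP1, hsqv, QuadraticMap.polar_sub_right, QuadraticMap.polar_smul_right,
      QuadraticMap.polar_smul_right] at h
    simp only [smul_eq_mul] at h ⊢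
    linear_combination h
  have hmat : (μ - (-a₀)) • (1 : Matrix ι ι F) + (b₀ - (c₁ - 1 - μ)) • ω = 0 := by
    rw [ext_iff_mulVec]
    intro y
    rw [add_mulVec, smul_mulVec, smul_mulVec, one_mulVec, zero_mulVec]
    exact hzero y
  obtain ⟨hμN, htτ⟩ := hind _ _ hmat
  have hμN' : μ = -a₀ := sub_eq_zero.mp hμN
  have htτ' : c₁ - 1 - μ = b₀ := (sub_eq_zero.mp htτ).symm
  refine ⟨ω, b₀, -a₀, hωK, ⟨hQ, ?_, ?_, hsqv, ?_⟩, hspan⟩
  · intro x
    rw [hμ, hμN']
  · intro x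
    rw [hpol, htτ']
  · intro x hx a b hab
    by_contra hne
    have hkK : a • (1 : Matrix ι ι F) + b • ω ∈ K :=
      K.add_mem (K.smul_mem K.one_mem a) (K.smul_mem hωK b)
    have hk0 : a • (1 : Matrix ι ι F) + b • ω ≠ 0 := fun h => hne (hind a b h)
    obtain ⟨y, hyK, hky⟩ := hK.inv _ hkK hk0
    have hyk : y * (a • (1 : Matrix ι ι F) + b • ω) = 1 := by
      rw [hK.comm y hyK _ hkK]
      exact hky
    apply hx
    have h1 : (y * (a • (1 : Matrix ι ι F) + b • ω)) *ᵥ x = 0 := by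
      rw [← mulVec_mulVec, add_mulVec, smul_mulVec, smul_mulVec, one_mulVec, hab, mulVec_zero]
    rw [hyk, one_mulVec] at h1
    exact h1

theorem coe_inv_mul_comm (G : Matrix.GeneralLinearGroup ι F) (ω : Matrix ι ι F)
    (h : (G : Matrix ι ι F) * ω = ω * (G : Matrix ι ι F)) :
    ((G⁻¹ : Matrix.GeneralLinearGroup ι F) : Matrix ι ι F) * ω =
      ω * ((G⁻¹ : Matrix.GeneralLinearGroup ι F) : Matrix ι ι F) := by
  have e : ((G⁻¹ : Matrix.GeneralLinearGroup ι F) : Matrix ι ι F) * ω =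
      ((G⁻¹ : Matrix.GeneralLinearGroup ι F) : Matrix ι ι F) * (ω * (G : Matrix ι ι F)) *
        ((G⁻¹ : Matrix.GeneralLinearGroup ι F) : Matrix ι ι F) := by
    rw [mul_assoc, mul_assoc, Units.mul_inv, mul_one]
  rw [e, ← h, ← mul_assoc _ (G : Matrix ι ι F) ω, Units.inv_mul, one_mul]

/-- Membership in the normaliser of `F[ω]`. -/
theorem mem_normalizer_of (K : Subalgebra F (Matrix ι ι F)) (ω : Matrix ι ι F)
    (hspan : ∀ k ∈ K, ∃ a b : F, k = a • (1 : Matrix ι ι F) + b • ω)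
    (hωK : ω ∈ K) (g : Matrix.GeneralLinearGroup ι F)
    (h1 : ∃ a b : F, (g : Matrix ι ι F) * ω = (a • (1 : Matrix ι ι F) + b • ω) *
      (g : Matrix ι ι F))
    (h2 : ∃ a b : F, ((g⁻¹ : Matrix.GeneralLinearGroup ι F) : Matrix ι ι F) * ω =
      (a • (1 : Matrix ι ι F) + b • ω) * ((g⁻¹ : Matrix.GeneralLinearGroup ι F) : Matrix ι ι F)) :
    g ∈ Cfsg.Geo.subalgebraNormalizer K := by
  have hK : ∀ a b : F, a • (1 : Matrix ι ι F) + b • ω ∈ K := fun a b =>
    K.add_mem (K.smul_mem K.one_mem a) (K.smul_mem hωK b)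
  show ∀ k : Matrix ι ι F, k ∈ K ↔
    (g : Matrix ι ι F) * k * ((g⁻¹ : Matrix.GeneralLinearGroup ι F) : Matrix ι ι F) ∈ K
  intro k
  constructor
  · intro hk
    obtain ⟨c, d, rfl⟩ := hspan k hk
    obtain ⟨a, b, hab⟩ := h1
    have e : (g : Matrix ι ι F) * (c • (1 : Matrix ι ι F) + d • ω) *
        ((g⁻¹ : Matrix.GeneralLinearGroup ι F) : Matrix ι ι F) =
        c • (1 : Matrix ι ι F) + d • (a • (1 : Matrix ι ι F) + b • ω) := by
      rw [mul_add, add_mul, mul_smul_comm, mul_smul_comm, smul_mul_assoc, smul_mul_assoc, mul_one,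
        Units.mul_inv, hab, mul_assoc, Units.mul_inv, mul_one]
    rw [e]
    exact K.add_mem (K.smul_mem K.one_mem c) (K.smul_mem (hK a b) d)
  · intro hk
    obtain ⟨c, d, hcd⟩ := hspan _ hk
    obtain ⟨a, b, hab⟩ := h2
    have e : k = c • (1 : Matrix ι ι F) + d • (a • (1 : Matrix ι ι F) + b • ω) := by
      have e1 : k = ((g⁻¹ : Matrix.GeneralLinearGroup ι F) : Matrix ι ι F) *
          ((g : Matrix ι ι F) * k * ((g⁻¹ : Matrix.GeneralLinearGroup ι F) : Matrix ι ι F)) *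
          (g : Matrix ι ι F) := by
        rw [mul_assoc, mul_assoc, Units.inv_mul, mul_one, ← mul_assoc, Units.inv_mul, one_mul]
      rw [e1, hcd, mul_add, add_mul, mul_smul_comm, mul_smul_comm, smul_mul_assoc,
        smul_mul_assoc, mul_one, Units.inv_mul, hab, mul_assoc, Units.inv_mul, mul_one]
    rw [e]
    exact K.add_mem (K.smul_mem K.one_mem c) (K.smul_mem (hK a b) d)

theorem norm_of_mem (K : Subalgebra F (Matrix ι ι F)) (ω : Matrix ι ι F)
    (hspan : ∀ k ∈ K, ∃ a b : F, k = a • (1 : Matrix ι ι F) + b • ω)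
    (hωK : ω ∈ K) (g : Matrix.GeneralLinearGroup ι F)
    (hg : g ∈ Cfsg.Geo.subalgebraNormalizer K) :
    ∃ a b : F, (g : Matrix ι ι F) * ω = (a • (1 : Matrix ι ι F) + b • ω) * (g : Matrix ι ι F) := by
  have h1 : (g : Matrix ι ι F) * ω * ((g⁻¹ : Matrix.GeneralLinearGroup ι F) : Matrix ι ι F) ∈ K :=
    (hg ω).mp hωK
  obtain ⟨a, b, hab⟩ := hspan _ h1
  refine ⟨a, b, ?_⟩
  rw [← hab, mul_assoc, Units.inv_mul, mul_one]

/-- The normaliser in `Ω` of a degree-two field of similitudes of `Q` is maximal in `Ω`. -/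
theorem unitary_normalizer_isMaximalIn [Fintype F] (Q : QuadraticForm F (ι → F))
    (hQ : (QuadraticMap.polarBilin Q).Nondegenerate) (hn : 13 ≤ Fintype.card ι)
    (K : Subalgebra F (Matrix ι ι F)) (hK : Cfsg.Geo.IsFieldSubalgebra 2 K)
    (hsc : ∀ k ∈ K, ∃ c : F, ∀ v : ι → F, Q (k *ᵥ v) = c * Q v) :
    Cfsg.Geo.IsMaximalIn (Cfsg.Geo.omegaGL ⇑Q)
      (Cfsg.Geo.subalgebraNormalizer K ⊓ Cfsg.Geo.omegaGL ⇑Q) := by
  have : Nonempty ι := by
    rw [← Fintype.card_pos_iff]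
    omega
  obtain ⟨ω, t, N, hωK, S, hspan⟩ := exists_UStr Q hQ K hK hsc
  apply isMaximalIn_of_core
  · obtain ⟨g, hgΩ, hg⟩ := S.exists_not_norm hn
    exact ⟨g, hgΩ, fun h => hg (norm_of_mem K ω hspan hωK _ h)⟩
  · intro M hPM
    have hM : TvIn Q ω M := by
      intro z hz c g hg
      have hperp : QuadraticMap.polar ⇑Q z (c • (ω *ᵥ z)) = 0 := by
        rw [QuadraticMap.polar_smul_right, S.sing_pol hz, smul_zero]
      apply hPM g (eich_mem_omega Q hQ (by omega) hz hperp g hg)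
      have hcomm : ((g : Matrix.GeneralLinearGroup ι F) : Matrix ι ι F) * ω =
          ω * ((g : Matrix.GeneralLinearGroup ι F) : Matrix ι ι F) := by
        rw [hg]
        exact (S.tv_comm hz c).symm
      apply mem_normalizer_of K ω hspan hωK
      · refine ⟨0, 1, ?_⟩
        rw [zero_smul, zero_add, one_smul]
        exact hcomm
      · refine ⟨0, 1, ?_⟩
        rw [zero_smul, zero_add, one_smul]
        exact coe_inv_mul_comm _ ω hcomm
    rcases S.core hn M hM with h | h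
    · left
      intro g hg
      apply mem_normalizer_of K ω hspan hωK
      · exact h g hg
      · exact h g⁻¹ (M.inv_mem hg)
    · right
      exact h

end unitF

end Cfsg.Agent.Lib.Helper14
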